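import Mathlib
import Cfsg.Agent.Lib.Helper26.Gross2Lin3S
import Cfsg.Agent.Lib.Helper94.GrossKPAut

/-!
Piece AUT3LIFT of helper26's S3795 (Gross, `p = 2`) project (delivered by helper54): the linear
three-layer key proposition `Lin3SStmt` implies the three-layer key proposition `Aut3Stmt` for
automorphisms of an elementary abelian group, via the dual space `Hom(N, k)` over a finite field
containing enough roots of unity (copy-adapt of `Helper94.GrossKPAut.gross_aut_of_kp`).
-/

set_option autoImplicit false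

universe u

open Cfsg.Agent.Lib.Helper26 Cfsg.Agent.Lib.Helper26.Gross2 Cfsg.Agent.Lib.Helper94.GrossKPAut

namespace Cfsg.Agent.Lib.Helper54.Gross2AUT3LIFT

theorem gross2_aut_of_lin (hL : Lin3SStmt.{u}) : Aut3Stmt.{u} := by
  intro N _ _ hcomm r q s n hr hexp hq hs hr2 hq2 hs2 hqr hqs Q S φ hQ hS hφ hnQ hnS hSQ hCQ hCS
    hfpf
  have : Fact r.Prime := ⟨hr⟩
  have : Fact q.Prime := ⟨hq⟩
  have : Finite (MulAut N) :=
    Finite.of_injective (fun e : MulAut N => (e : N → N)) DFunLike.coe_injective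
  obtain ⟨M₀, hM₀⟩ : ∃ M₀ : ℕ, M₀ = Nat.card Q * 2 ^ (n + 1) := ⟨_, rfl⟩
  have hM0pos : 0 < M₀ := by
    rw [hM₀]
    exact Nat.mul_pos Nat.card_pos (pow_pos (by norm_num) _)
  obtain ⟨j, hj⟩ := hQ.exists_card_eq
  have hcopr : Nat.Coprime r M₀ := by
    rw [hM₀, hj]
    apply Nat.Coprime.mul_right
    · exact Nat.Coprime.pow_right _ ((Nat.coprime_primes hr hq).mpr (Ne.symm hqr))
    · exact Nat.Coprime.pow_right _ ((Nat.coprime_primes hr Nat.prime_two).mpr hr2)
  obtain ⟨m, hm⟩ : ∃ m : ℕ, m = Nat.totient M₀ := ⟨_, rfl⟩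
  have hmpos : 0 < m := by
    rw [hm]
    exact Nat.totient_pos.mpr hM0pos
  have hdvd : M₀ ∣ r ^ m - 1 := by
    have h1 : r ^ m ≡ 1 [MOD M₀] := by
      rw [hm]
      exact Nat.ModEq.pow_totient hcopr
    exact (Nat.modEq_iff_dvd' (Nat.one_le_pow _ _ hr.pos)).mp h1.symm
  have hcardk : Nat.card (GaloisField r m) = r ^ m := GaloisField.card r m hmpos.ne'
  have hroot : ∃ ζ : GaloisField r m, IsPrimitiveRoot ζ M₀ := by
    obtain ⟨g, hg⟩ := IsCyclic.exists_generator (α := (GaloisField r m)ˣ)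
    have hog : orderOf g = r ^ m - 1 := by
      rw [orderOf_eq_card_of_forall_mem_zpowers hg, Nat.card_units, hcardk]
    obtain ⟨c, hc⟩ := hdvd
    have hc0 : c ≠ 0 := by
      rintro rfl
      have h2 : 2 ≤ r ^ m := by
        calc 2 ≤ r := hr.two_le
          _ = r ^ 1 := (pow_one r).symm
          _ ≤ r ^ m := Nat.pow_le_pow_right hr.pos hmpos
      omega
    refine ⟨((g ^ c : (GaloisField r m)ˣ) : GaloisField r m), ?_⟩
    rw [IsPrimitiveRoot.coe_units_iff]
    have h3 : orderOf (g ^ c) = M₀ := by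
      rw [orderOf_pow_of_dvd hc0 (by rw [hog, hc]; exact dvd_mul_left _ _), hog, hc,
        Nat.mul_div_cancel _ (Nat.pos_of_ne_zero hc0)]
    rw [← h3]
    exact IsPrimitiveRoot.orderOf _
  have hD : GrossDat (GaloisField r m) M₀ :=
    { hM0 := hM0pos
      hcop := by
        rw [hcardk]
        exact (Nat.Coprime.pow_left m hcopr).symm
      hroot := hroot }
  have hinj : Function.Injective (rho N (GaloisField r m)) := rho_injective hcomm r hexp
  have hcard : Nat.card (Q.map (rho N (GaloisField r m))) * 2 ^ (n + 1) ∣ M₀ := by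
    rw [hM₀]
    exact Nat.mul_dvd_mul_right (Subgroup.card_map_dvd _ _) _
  have hφ' : (rho N (GaloisField r m) φ) ^ 2 ^ (n + 1) = 1 := by
    rw [← map_pow, hφ, map_one]
  have hnQ' : ∀ x ∈ Q.map (rho N (GaloisField r m)),
      rho N (GaloisField r m) φ * x * (rho N (GaloisField r m) φ)⁻¹ ∈
        Q.map (rho N (GaloisField r m)) := by
    rintro _ ⟨y, hy, rfl⟩
    refine ⟨φ * y * φ⁻¹, hnQ y hy, ?_⟩
    rw [map_mul, map_mul, map_inv]
  have hnS' : ∀ y ∈ S.map (rho N (GaloisField r m)),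
      rho N (GaloisField r m) φ * y * (rho N (GaloisField r m) φ)⁻¹ ∈
        S.map (rho N (GaloisField r m)) := by
    rintro _ ⟨y, hy, rfl⟩
    refine ⟨φ * y * φ⁻¹, hnS y hy, ?_⟩
    rw [map_mul, map_mul, map_inv]
  have hSQ' : ∀ y ∈ S.map (rho N (GaloisField r m)), ∀ x ∈ Q.map (rho N (GaloisField r m)),
      y * x * y⁻¹ ∈ Q.map (rho N (GaloisField r m)) := by
    rintro _ ⟨y, hy, rfl⟩ _ ⟨x, hx, rfl⟩
    refine ⟨y * x * y⁻¹, hSQ y hy x hx, ?_⟩
    rw [map_mul, map_mul, map_inv]
  have hCQ' : ∀ x ∈ Q.map (rho N (GaloisField r m)),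
      rho N (GaloisField r m) φ * x = x * rho N (GaloisField r m) φ → x = 1 := by
    rintro _ ⟨y, hy, rfl⟩ h
    rw [← map_mul, ← map_mul] at h
    rw [hCQ y hy (hinj h), map_one]
  have hCS' : ∀ y ∈ S.map (rho N (GaloisField r m)),
      rho N (GaloisField r m) φ * y = y * rho N (GaloisField r m) φ → y = 1 := by
    rintro _ ⟨y, hy, rfl⟩ h
    rw [← map_mul, ← map_mul] at h
    rw [hCS y hy (hinj h), map_one]
  have hCV : ∀ f : addMaps N (GaloisField r m),
      ((rho N (GaloisField r m) φ : (Module.End (GaloisField r m) (addMaps N (GaloisField r m)))ˣ) :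
        Module.End (GaloisField r m) (addMaps N (GaloisField r m))) f = f → f = 0 := by
    intro f hf
    have h1 : ∀ y : N, f.1 (φ y) = f.1 y := by
      intro y
      have h2 := congrArg (fun g : addMaps N (GaloisField r m) => g.1 (φ y)) hf
      simp only [rho_apply] at h2
      rw [← h2]
      simp
    have hinj2 : Function.Injective (fun y : N => y⁻¹ * φ y) := by
      intro x y hxy
      have h3 : φ (x * y⁻¹) = x * y⁻¹ := by
        have h4 : x⁻¹ * φ x = y⁻¹ * φ y := hxy
        rw [map_mul, map_inv]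
        have h5 : φ x = x * (y⁻¹ * φ y) := by rw [← h4]; group
        rw [h5]
        group
      have h6 := hfpf _ h3
      exact mul_inv_eq_one.mp h6
    have hsurj := Finite.injective_iff_surjective.mp hinj2
    apply Subtype.ext
    funext z
    obtain ⟨y, hy⟩ := hsurj z
    have hy' : z = y⁻¹ * φ y := hy.symm
    rw [hy', addMaps_mul, addMaps_inv, h1]
    simp
  intro y hy x hx
  have h := hL (GaloisField r m) q s n M₀ hD hq hs hq2 hs2 hqs (addMaps N (GaloisField r m))
    (Q.map (rho N (GaloisField r m))) (S.map (rho N (GaloisField r m)))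
    (rho N (GaloisField r m) φ) (hQ.map _) (hS.map _) hcard hφ' hnQ' hnS' hSQ' hCQ' hCS' hCV
    (rho N (GaloisField r m) y) ⟨y, hy, rfl⟩ (rho N (GaloisField r m) x) ⟨x, hx, rfl⟩
  apply hinj
  simp only [map_mul, map_inv, map_pow]
  exact h

end Cfsg.Agent.Lib.Helper54.Gross2AUT3LIFT
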