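import Mathlib
import Cfsg.Agent.Lib.Helper52.ReflChar2
import Cfsg.Agent.Lib.Helper51.HypPairs
import Cfsg.Agent.S0824

/-!
Piece HO4 for S5405 (architect helper39; delivered by helper54): for the minus-type quadratic
form in dimension 4 over the field with two elements, the commutator subgroup of the isometry
group is generated by the products of two reflections.  Uses the model `O4 ≅ S5` of S0824.
-/

set_option autoImplicit false

namespace Cfsg.Agent.Lib.Helper54.HO4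

open Matrix Cfsg Cfsg.Agent.S0824
open scoped commutatorElement

noncomputable abbrev Qm : QuadraticForm (ZMod 2) (I4 → ZMod 2) :=
  Cfsg.Agent.Lib.Helper51.QMinus 1 (ZMod 2) 1 1

theorem coe_Qm : ⇑Qm = Q2 := Cfsg.Agent.Lib.Helper51.coe_QMinus 1 (ZMod 2) 1 1

theorem Qm_apply (v : I4 → ZMod 2) : Qm v = Q2 v := congrFun coe_Qm v

/-- transport to the group of S0824 -/
def toO4 (g : ↥(Cfsg.isometryGroup (ZMod 2) ⇑Qm)) : O4 :=
  ⟨g.1, fun u _ => by
    have h := (Cfsg.Agent.Lib.Helper51.mem_isometryGroup_iff Qm g.1).mp g.2 u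
    rw [Qm_apply, Qm_apply] at h
    exact h⟩

def ofO4 (g : O4) : ↥(Cfsg.isometryGroup (ZMod 2) ⇑Qm) :=
  ⟨g.1, (Cfsg.Agent.Lib.Helper51.mem_isometryGroup_iff Qm g.1).mpr (fun x => by
    rw [Qm_apply, Qm_apply]; exact g.2 x x)⟩

theorem hQ_e : ∀ i : Fin 4, Q2 (e i.castSucc + e i.succ) = 1 := by decide

theorem hrefl_e : ∀ i : Fin 4, ∀ k : Fin 5,
    e k - (QuadraticMap.polar Q2 (e i.castSucc + e i.succ) (e k)) • (e i.castSucc + e i.succ)
      = e (Equiv.swap i.castSucc i.succ k) := by decide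

theorem hns : ∀ u : I4 → ZMod 2, Q2 u ≠ 0 → ∃ i j : Fin 5, i ≠ j ∧ u = e i + e j := by decide

theorem mat_ext_e (M N : Matrix I4 I4 (ZMod 2)) (h : ∀ k, M *ᵥ e k = N *ᵥ e k) : M = N := by
  ext i j
  obtain ⟨t, ht⟩ := h_span j
  have h1 : M *ᵥ Pi.single j 1 = N *ᵥ Pi.single j 1 := by
    rw [ht, Matrix.mulVec_sum, Matrix.mulVec_sum]
    exact Finset.sum_congr rfl (fun k _ => h k)
  have h2 := congrFun h1 i
  rw [Matrix.mulVec_single_one, Matrix.mulVec_single_one] at h2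
  simpa using h2

theorem exists_closure_perm (π : Equiv.Perm (Fin 5)) :
    ∃ h ∈ Subgroup.closure (Cfsg.Agent.Lib.Helper52.reflSet Qm),
      ∀ k, ((h : Matrix.GeneralLinearGroup I4 (ZMod 2)) : Matrix I4 I4 (ZMod 2)) *ᵥ e k
        = e (π k) := by
  have hπ : π ∈ Submonoid.closure (Set.range fun i : Fin 4 => Equiv.swap i.castSucc i.succ) := by
    rw [Equiv.Perm.mclosure_swap_castSucc_succ 4]; exact Submonoid.mem_top π
  induction hπ using Submonoid.closure_induction with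
  | mem σ hσ =>
    obtain ⟨i, rfl⟩ := hσ
    have hq : Qm (e i.castSucc + e i.succ) = 1 := by rw [Qm_apply]; exact hQ_e i
    have hne : Qm (e i.castSucc + e i.succ) ≠ 0 := by rw [hq]; exact one_ne_zero
    refine ⟨Cfsg.Agent.Lib.Helper51.refl Qm _ hne, Subgroup.subset_closure ⟨_, hne, rfl⟩, ?_⟩
    intro k
    rw [Cfsg.Agent.Lib.Helper51.coe_refl]
    have h1 := Cfsg.Agent.Lib.Helper51.reflectionMatrix_mulVec Qm (e i.castSucc + e i.succ) (e k)
    rw [h1, hq, inv_one, one_mul, coe_Qm]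
    exact hrefl_e i k
  | one =>
    refine ⟨1, Subgroup.one_mem _, fun k => ?_⟩
    show (1 : Matrix I4 I4 (ZMod 2)) *ᵥ e k = e k
    rw [Matrix.one_mulVec]
  | mul a b _ _ ha hb =>
    obtain ⟨ga, hga, h1⟩ := ha
    obtain ⟨gb, hgb, h2⟩ := hb
    refine ⟨ga * gb, Subgroup.mul_mem _ hga hgb, fun k => ?_⟩
    have e1 : (((ga * gb : ↥(Cfsg.isometryGroup (ZMod 2) ⇑Qm)) :
        Matrix.GeneralLinearGroup I4 (ZMod 2)) : Matrix I4 I4 (ZMod 2)) *ᵥ e k
        = ((ga : Matrix.GeneralLinearGroup I4 (ZMod 2)) : Matrix I4 I4 (ZMod 2)) *ᵥ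
          (((gb : Matrix.GeneralLinearGroup I4 (ZMod 2)) : Matrix I4 I4 (ZMod 2)) *ᵥ e k) := by
      rw [Cfsg.Agent.Lib.Helper51.coe_mul', Matrix.mulVec_mulVec]
    rw [e1, h2 k, h1 (b k)]
    rfl

theorem closure_refl_top : Subgroup.closure (Cfsg.Agent.Lib.Helper52.reflSet Qm) = ⊤ := by
  rw [eq_top_iff]
  intro g _
  obtain ⟨h, hh, hk⟩ := exists_closure_perm (psi (toO4 g))
  have hgh : g = h := by
    apply Cfsg.Agent.Lib.Helper51.isometry_ext
    apply mat_ext_e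
    intro k
    rw [hk k]
    exact (psi_apply_eq (toO4 g) k _).1 rfl
  rw [hgh]; exact hh

theorem exists_move (u v : I4 → ZMod 2) (hu : Qm u ≠ 0) (hv : Qm v ≠ 0) :
    ∃ k : ↥(Cfsg.isometryGroup (ZMod 2) ⇑Qm),
      ((k : Matrix.GeneralLinearGroup I4 (ZMod 2)) : Matrix I4 I4 (ZMod 2)).mulVec u = v := by
  rw [Qm_apply] at hu hv
  obtain ⟨i, j, hij, rfl⟩ := hns u hu
  obtain ⟨k', l, hkl, rfl⟩ := hns v hv
  obtain ⟨g', hg'⟩ := psi_surj (Equiv.swap (Equiv.swap i k' j) l * Equiv.swap i k')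
  refine ⟨ofO4 g', ?_⟩
  show ((g'.1 : Matrix.GeneralLinearGroup I4 (ZMod 2)) : Matrix I4 I4 (ZMod 2)) *ᵥ (e i + e j)
    = e k' + e l
  have hne : Equiv.swap i k' j ≠ k' := by
    intro h
    have h' : Equiv.swap i k' j = Equiv.swap i k' i := by rw [h, Equiv.swap_apply_left]
    exact hij ((Equiv.swap i k').injective h').symm
  have h1 : psi g' i = k' := by
    rw [hg', Equiv.Perm.mul_apply, Equiv.swap_apply_left,
      Equiv.swap_apply_of_ne_of_ne (Ne.symm hne) hkl]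
  have h2 : psi g' j = l := by
    rw [hg', Equiv.Perm.mul_apply, Equiv.swap_apply_left]
  rw [Matrix.mulVec_add, (psi_apply_eq g' i k').1 h1, (psi_apply_eq g' j l).1 h2]

theorem pair_le_comm :
    Subgroup.closure (Cfsg.Agent.Lib.Helper52.pairSet Qm) ≤
      commutator ↥(Cfsg.isometryGroup (ZMod 2) ⇑Qm) := by
  rw [Subgroup.closure_le]
  intro g hg
  obtain ⟨u, v, hu, hv, rfl⟩ := Cfsg.Agent.Lib.Helper52.eq_refl_mul_refl_of_mem_pairSet Qm hg
  obtain ⟨k, hk⟩ := exists_move u v hu hv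
  have hku : Qm (((k : Matrix.GeneralLinearGroup I4 (ZMod 2)) : Matrix I4 I4 (ZMod 2)).mulVec u)
      ≠ 0 := by
    rw [Cfsg.Agent.Lib.Helper51.isometry_apply]; exact hu
  have h1 := Cfsg.Agent.Lib.Helper51.conj_refl Qm k u hu hku
  have h3 : Cfsg.Agent.Lib.Helper51.refl Qm
      (((k : Matrix.GeneralLinearGroup I4 (ZMod 2)) : Matrix I4 I4 (ZMod 2)).mulVec u) hku =
      Cfsg.Agent.Lib.Helper51.refl Qm v hv := by
    apply Cfsg.Agent.Lib.Helper51.isometry_ext
    rw [Cfsg.Agent.Lib.Helper51.coe_refl, Cfsg.Agent.Lib.Helper51.coe_refl, hk]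
  rw [h3] at h1
  have h4 : Cfsg.Agent.Lib.Helper51.refl Qm u hu * Cfsg.Agent.Lib.Helper51.refl Qm v hv =
      ⁅Cfsg.Agent.Lib.Helper51.refl Qm u hu, k⁆ := by
    rw [commutatorElement_def, ← h1, Cfsg.Agent.Lib.Helper51.refl_inv]
    group
  show _ ∈ commutator ↥(Cfsg.isometryGroup (ZMod 2) ⇑Qm)
  rw [h4, commutator_def]
  exact Subgroup.commutator_mem_commutator (Subgroup.mem_top _) (Subgroup.mem_top _)

end Cfsg.Agent.Lib.Helper54.HO4

namespace Cfsg.Agent.Lib.Helper39.H1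

/-- In dimension 4 (minus type) over the field with two elements, the commutator subgroup of
the isometry group is generated by the products of two reflections. -/
theorem comm_eq_pair_four :
    commutator ↥(Cfsg.isometryGroup (ZMod 2) ⇑(Cfsg.Agent.Lib.Helper51.QMinus 1 (ZMod 2) 1 1)) =
      Subgroup.closure
        (Cfsg.Agent.Lib.Helper52.pairSet (Cfsg.Agent.Lib.Helper51.QMinus 1 (ZMod 2) 1 1)) :=
  le_antisymm
    (Cfsg.Agent.Lib.Helper52.commutator_le_pair _ Cfsg.Agent.Lib.Helper54.HO4.closure_refl_top)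
    Cfsg.Agent.Lib.Helper54.HO4.pair_le_comm

end Cfsg.Agent.Lib.Helper39.H1
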