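import Mathlib
import Cfsg.Agent.Lib.Helper53.MinusDefs
import Cfsg.Agent.Lib.Helper54.OrthLagMinus
import Cfsg.Agent.Lib.Helper54.OrthMinus
import Cfsg.Agent.Lib.Helper77.LP1a
import Cfsg.Agent.Lib.Helper66.LP1b

/-!
# Piece MF-CHI of helper53's S2716 project: the class character of the minus form over a
quadratic extension containing a root of `X² + aX + b`.
-/

set_option autoImplicit false
set_option linter.unusedSectionVars false
set_option linter.unusedVariables false
set_option linter.style.haveILetI false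

namespace Cfsg.Agent.Lib.Helper54.MFCHI

open Module QuadraticMap Matrix
open Cfsg Cfsg.Agent.Lib.Helper51 Cfsg.Agent.Lib.Helper52 Cfsg.Agent.Lib.Helper52.LP
  Cfsg.Agent.Lib.Helper53.MinusF Cfsg.Agent.Lib.Helper54

universe u

/-- the discriminant of an anisotropic binary form over a finite field is nonzero
(any characteristic) -/
theorem disc_ne_zero {F : Type*} [Field F] [Fintype F] (a b : F)
    (hab : ∀ z₁ z₂ : F, z₁ ^ 2 + a * z₁ * z₂ + b * z₂ ^ 2 = 0 → z₁ = 0 ∧ z₂ = 0) :
    a ^ 2 - 4 * b ≠ 0 := by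
  by_cases h2 : (2 : F) = 0
  · intro hD
    have h4 : (4 : F) = 0 := by
      have : (4 : F) = 2 * 2 := by norm_num
      rw [this, h2, mul_zero]
    have ha : a = 0 := by
      rw [h4, zero_mul, sub_zero] at hD
      exact pow_eq_zero_iff (two_ne_zero) |>.mp hD
    have hF : ringChar F = 2 := by
      haveI : CharP F 2 := by
        refine (CharP.charP_iff_prime_eq_zero Nat.prime_two).mpr ?_
        exact_mod_cast h2
      exact ringChar.eq F 2
    obtain ⟨s, hs⟩ := FiniteField.isSquare_of_char_two hF b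
    have := (hab s 1 (by
      rw [ha, hs]
      linear_combination (s * s) * h2)).2
    exact one_ne_zero this
  · exact aniso_disc_ne_zero h2 a b hab

/-- over a field containing a root of `X² + aX + b` (nonzero discriminant) the minus form is
hyperbolic -/
theorem isHyp_of_root {K : Type*} [Field K] {m : ℕ} (a b : K) (hD : a ^ 2 - 4 * b ≠ 0) (r : K)
    (hr : r ^ 2 + a * r + b = 0) : IsHyp (m + 1) (QMinus m K a b) := by
  have hD' : 4 * b - a ^ 2 ≠ 0 := by
    intro h
    apply hD
    linear_combination -h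
  have hp : r ^ 2 + a * r * 1 + b * (1 : K) ^ 2 = 0 := by linear_combination hr
  have hq : ((-a - r) / (4 * b - a ^ 2)) ^ 2 + a * ((-a - r) / (4 * b - a ^ 2)) *
      (1 / (4 * b - a ^ 2)) + b * (1 / (4 * b - a ^ 2)) ^ 2 = 0 := by
    field_simp
    linear_combination hr
  have hpq : 2 * r * ((-a - r) / (4 * b - a ^ 2)) + a * (r * (1 / (4 * b - a ^ 2)) +
      ((-a - r) / (4 * b - a ^ 2)) * 1) + 2 * b * 1 * (1 / (4 * b - a ^ 2)) = 1 := by
    field_simp
    linear_combination (-2 : K) * hr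
  refine ⟨plusMinusEquiv a b r 1 _ _ hp hq hpq, fun x => ?_⟩
  rw [Q_plusMinusEquiv a b r 1 _ _ hp hq hpq, coe_QPlus]

theorem chiData_of_root {F : Type u} [Field F] [Fintype F] {m : ℕ} (a b : F)
    (hab : ∀ z₁ z₂ : F, z₁ ^ 2 + a * z₁ * z₂ + b * z₂ ^ 2 = 0 → z₁ = 0 ∧ z₂ = 0)
    (K : Type u) [Field K] [Algebra F K] (hK2 : Module.finrank F K = 2)
    (r : K) (hr : r ^ 2 + algebraMap F K a * r + algebraMap F K b = 0) :
    ChiData m a b K := by
  classical
  haveI : Module.Finite F K := Module.finite_of_finrank_pos (by rw [hK2]; norm_num)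
  haveI : Finite K := Module.finite_of_finite F
  letI : Fintype K := Fintype.ofFinite K
  have hD := disc_ne_zero a b hab
  have hDK : (algebraMap F K a) ^ 2 - 4 * algebraMap F K b ≠ 0 := by
    intro h
    apply hD
    apply (algebraMap F K).injective
    rw [map_sub, map_pow, map_mul, map_zero, map_ofNat]
    exact h
  have hH : IsHyp (m + 1) (QMinus m K (algebraMap F K a) (algebraMap F K b)) :=
    isHyp_of_root _ _ hDK r hr
  have hm1 : 1 ≤ m + 1 := by omega
  have hmax := Cfsg.Agent.Lib.Helper77.LP1a.maxTS_iff_lag hm1 _ hH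
  have hpar := Cfsg.Agent.Lib.Helper77.LP1a.parity3 hm1 _ hH
  have hnd := Cfsg.Agent.Lib.Helper77.LP1a.hyp_nondeg _ hH
  have hcard := Cfsg.Agent.Lib.Helper77.LP1a.hyp_card _ hH
  have hex := Cfsg.Agent.Lib.Helper77.LP1a.hyp_exists_lag _ hH
  have hmap := QMinus_map (algebraMap F K) m a b
  -- base change of similarities
  have hup : ∀ g : GL ((Fin m ⊕ Fin m) ⊕ Fin 2) F,
      g ∈ Geo.quadSimilarityGroup (F := F) (quadFormMinus m F a b) →
      Matrix.GeneralLinearGroup.map (algebraMap F K) g ∈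
        Geo.quadSimilarityGroup (F := K) ⇑(QMinus m K (algebraMap F K a) (algebraMap F K b)) := by
    intro g hg
    rw [← coe_QMinus] at hg
    exact (simMapG (algebraMap F K) (QMinus m F a b)
      (QMinus m K (algebraMap F K a) (algebraMap F K b)) hmap ⟨g, hg⟩).2
  have hcoe : ∀ g : GL ((Fin m ⊕ Fin m) ⊕ Fin 2) F,
      ((Matrix.GeneralLinearGroup.map (algebraMap F K) g : GL ((Fin m ⊕ Fin m) ⊕ Fin 2) K) :
        Matrix ((Fin m ⊕ Fin m) ⊕ Fin 2) ((Fin m ⊕ Fin m) ⊕ Fin 2) K) =
      (g : Matrix ((Fin m ⊕ Fin m) ⊕ Fin 2) ((Fin m ⊕ Fin m) ⊕ Fin 2) F).map (algebraMap F K) :=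
    fun g => rfl
  unfold ChiData PresK
  rw [← coe_QMinus m K]
  refine ⟨?_, ?_, ?_, ?_, ?_⟩
  · intro g h hg hh Pg Ph
    rw [← hcoe] at Pg Ph ⊢
    rw [map_mul]
    exact Cfsg.Agent.Lib.Helper66.LP1b.pres_mul _ hmax hpar _ _ (hup g hg) (hup h hh) Pg Ph
  · intro g hg Pg
    rw [← hcoe] at Pg ⊢
    rw [map_inv]
    exact Cfsg.Agent.Lib.Helper66.LP1b.pres_inv _ hmax _ (hup g hg) Pg
  · intro g h hg hh Pg Ph
    rw [← hcoe] at Pg Ph ⊢
    rw [map_mul]
    exact Cfsg.Agent.Lib.Helper66.LP1b.pres_of_not_not _ hmax hpar _ _ (hup g hg) (hup h hh) Pg Ph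
  · intro v hv
    rw [← coe_QMinus m F] at hv ⊢
    rw [reflMat_mapG (algebraMap F K) (QMinus m F a b)
      (QMinus m K (algebraMap F K a) (algebraMap F K b)) hmap]
    apply Cfsg.Agent.Lib.Helper66.LP1b.refl_not_pres _ hmax hnd hcard hex
    rw [hmap]
    intro h0
    apply hv
    apply (algebraMap F K).injective
    rw [h0, map_zero]
  · intro c M hc
    have hcK : algebraMap F K c ≠ 0 := by
      intro h0
      apply hc
      apply (algebraMap F K).injective
      rw [h0, map_zero]
    have e1 : (c • M).map (algebraMap F K) = algebraMap F K c • M.map (algebraMap F K) := by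
      ext i j
      simp
    rw [e1]
    unfold PreservesSingularClasses
    simp only [imageSubmodule_smul _ hcK]

end Cfsg.Agent.Lib.Helper54.MFCHI
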