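import Mathlib
import Cfsg.Prelude.Def_LieTypeDatum

/-!
# Piece GT-CSP (helper53's project GT2, S2700): the group `{h : h J hᵀ = c J}` modulo scalars is
`PGSp`.
-/

set_option autoImplicit false
set_option linter.unusedSectionVars false

namespace Cfsg.Agent.Lib.Helper54.GTCSP

open Cfsg Matrix

section

variable {F : Type*} [Field F]

theorem J_mul_J (m : ℕ) : (Matrix.J (Fin m) F) * (Matrix.J (Fin m) F) = -1 :=
  Matrix.J_squared (Fin m) F

/-- `Aᵀ J A = c J` implies `A J Aᵀ = c J`. -/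
theorem symp_swap (m : ℕ) (A : Matrix (Fin m ⊕ Fin m) (Fin m ⊕ Fin m) F) (c : F) (hc : c ≠ 0)
    (h : A.transpose * Matrix.J (Fin m) F * A = c • Matrix.J (Fin m) F) :
    A * Matrix.J (Fin m) F * A.transpose = c • Matrix.J (Fin m) F := by
  have h1 : A.transpose * ((-c⁻¹) • (Matrix.J (Fin m) F * A * Matrix.J (Fin m) F)) = 1 := by
    rw [Matrix.mul_smul, ← Matrix.mul_assoc, ← Matrix.mul_assoc, h, Matrix.smul_mul, J_mul_J,
      smul_smul, smul_neg, neg_mul, neg_smul, neg_neg, inv_mul_cancel₀ hc, one_smul]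
  have h2 := (Matrix.mul_eq_one_comm_of_card_eq _ _ F rfl).mp h1
  rw [Matrix.smul_mul] at h2
  have h3 : Matrix.J (Fin m) F * A * Matrix.J (Fin m) F * A.transpose = (-c) • 1 := by
    have := congrArg (fun X => (-c) • X) h2
    simp only [smul_smul] at this
    rw [neg_mul_neg, mul_inv_cancel₀ hc, one_smul] at this
    exact this
  have h4 := congrArg (fun X => Matrix.J (Fin m) F * X) h3
  rw [← Matrix.mul_assoc, ← Matrix.mul_assoc, ← Matrix.mul_assoc, J_mul_J, Matrix.mul_smul,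
    Matrix.mul_one, neg_mul, one_mul, neg_mul, neg_mul, neg_smul, neg_inj] at h4
  exact h4

theorem bilin_ext {n : Type} [Fintype n] [DecidableEq n] (A B : Matrix n n F)
    (h : ∀ u v : n → F, u ⬝ᵥ (A *ᵥ v) = u ⬝ᵥ (B *ᵥ v)) : A = B := by
  ext i j
  have := h (Pi.single i 1) (Pi.single j 1)
  simpa using this

theorem mem_GSp_iff (m : ℕ) (g : GL (Fin m ⊕ Fin m) F) :
    g ∈ Cfsg.GSp m F ↔ ∃ c : Fˣ,
      (g : Matrix (Fin m ⊕ Fin m) (Fin m ⊕ Fin m) F) * Matrix.J (Fin m) F *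
        (g : Matrix (Fin m ⊕ Fin m) (Fin m ⊕ Fin m) F).transpose = (c : F) • Matrix.J (Fin m) F := by
  have key : ∀ (c : Fˣ), (∀ u v : Fin m ⊕ Fin m → F,
      sympForm m F ((g : Matrix (Fin m ⊕ Fin m) (Fin m ⊕ Fin m) F) *ᵥ u)
        ((g : Matrix (Fin m ⊕ Fin m) (Fin m ⊕ Fin m) F) *ᵥ v) = (c : F) * sympForm m F u v) ↔
      (g : Matrix (Fin m ⊕ Fin m) (Fin m ⊕ Fin m) F).transpose * Matrix.J (Fin m) F *
        (g : Matrix (Fin m ⊕ Fin m) (Fin m ⊕ Fin m) F) = (c : F) • Matrix.J (Fin m) F := by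
    intro c
    have e : ∀ u v : Fin m ⊕ Fin m → F,
        sympForm m F ((g : Matrix (Fin m ⊕ Fin m) (Fin m ⊕ Fin m) F) *ᵥ u)
          ((g : Matrix (Fin m ⊕ Fin m) (Fin m ⊕ Fin m) F) *ᵥ v) =
        u ⬝ᵥ (((g : Matrix (Fin m ⊕ Fin m) (Fin m ⊕ Fin m) F).transpose * Matrix.J (Fin m) F *
          (g : Matrix (Fin m ⊕ Fin m) (Fin m ⊕ Fin m) F)) *ᵥ v) := by
      intro u v
      unfold sympForm
      rw [← Matrix.mulVec_mulVec, ← Matrix.mulVec_mulVec,
        Matrix.dotProduct_mulVec u (g : Matrix (Fin m ⊕ Fin m) (Fin m ⊕ Fin m) F).transpose,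
        Matrix.vecMul_transpose]
    constructor
    · intro h
      apply bilin_ext
      intro u v
      rw [← e, h, Matrix.smul_mulVec, dotProduct_smul, smul_eq_mul]
      rfl
    · intro h u v
      rw [e, h, Matrix.smul_mulVec, dotProduct_smul, smul_eq_mul]
      rfl
  constructor
  · rintro ⟨c, hc⟩
    exact ⟨c, symp_swap m _ (c : F) c.ne_zero ((key c).1 hc)⟩
  · rintro ⟨c, hc⟩
    refine ⟨c, (key c).2 ?_⟩
    have := symp_swap m (g : Matrix (Fin m ⊕ Fin m) (Fin m ⊕ Fin m) F).transpose (c : F) c.ne_zero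
      (by rw [Matrix.transpose_transpose]; exact hc)
    rw [Matrix.transpose_transpose] at this
    exact this

/-- reindexing of general linear groups -/
noncomputable def glReindex (m : ℕ) (τ : Fin m ⊕ Fin m ≃ Fin (2 * m)) :
    GL (Fin (2 * m)) F ≃* GL (Fin m ⊕ Fin m) F :=
  Units.mapEquiv (Matrix.reindexAlgEquiv F F τ.symm).toMulEquiv

theorem coe_glReindex (m : ℕ) (τ : Fin m ⊕ Fin m ≃ Fin (2 * m)) (h : GL (Fin (2 * m)) F) :
    ((glReindex m τ h : GL (Fin m ⊕ Fin m) F) : Matrix (Fin m ⊕ Fin m) (Fin m ⊕ Fin m) F) =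
      (h : Matrix (Fin (2 * m)) (Fin (2 * m)) F).submatrix τ τ := rfl

theorem submatrix_inj (m : ℕ) (τ : Fin m ⊕ Fin m ≃ Fin (2 * m))
    (X Y : Matrix (Fin (2 * m)) (Fin (2 * m)) F) (h : X.submatrix τ τ = Y.submatrix τ τ) :
    X = Y := by
  ext i j
  have := congrFun (congrFun h (τ.symm i)) (τ.symm j)
  simpa using this

theorem mem_iff (m : ℕ) (τ : Fin m ⊕ Fin m ≃ Fin (2 * m)) (h : GL (Fin (2 * m)) F) (c : F) :
    (h : Matrix (Fin (2 * m)) (Fin (2 * m)) F) * Matrix.reindex τ τ (Matrix.J (Fin m) F) *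
        (h : Matrix (Fin (2 * m)) (Fin (2 * m)) F).transpose =
        c • Matrix.reindex τ τ (Matrix.J (Fin m) F) ↔
    ((glReindex m τ h : GL (Fin m ⊕ Fin m) F) : Matrix (Fin m ⊕ Fin m) (Fin m ⊕ Fin m) F) *
        Matrix.J (Fin m) F *
        ((glReindex m τ h : GL (Fin m ⊕ Fin m) F) :
          Matrix (Fin m ⊕ Fin m) (Fin m ⊕ Fin m) F).transpose = c • Matrix.J (Fin m) F := by
  have hJ : (Matrix.reindex τ τ (Matrix.J (Fin m) F)).submatrix τ τ = Matrix.J (Fin m) F := by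
    ext i j
    simp
  have e1 : ((glReindex m τ h : GL (Fin m ⊕ Fin m) F) :
        Matrix (Fin m ⊕ Fin m) (Fin m ⊕ Fin m) F) * Matrix.J (Fin m) F *
        ((glReindex m τ h : GL (Fin m ⊕ Fin m) F) :
          Matrix (Fin m ⊕ Fin m) (Fin m ⊕ Fin m) F).transpose =
      ((h : Matrix (Fin (2 * m)) (Fin (2 * m)) F) * Matrix.reindex τ τ (Matrix.J (Fin m) F) *
        (h : Matrix (Fin (2 * m)) (Fin (2 * m)) F).transpose).submatrix τ τ := by
    rw [coe_glReindex]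
    conv_lhs => rw [← hJ]
    rw [Matrix.transpose_submatrix, Matrix.submatrix_mul_equiv, Matrix.submatrix_mul_equiv]
  have e2 : c • Matrix.J (Fin m) F =
      (c • Matrix.reindex τ τ (Matrix.J (Fin m) F)).submatrix τ τ := by
    rw [Matrix.submatrix_smul, Pi.smul_apply, Pi.smul_apply, hJ]
  rw [e1, e2]
  constructor
  · intro h1
    rw [h1]
  · intro h1
    exact submatrix_inj m τ _ _ h1

theorem scalar_iff (m : ℕ) (τ : Fin m ⊕ Fin m ≃ Fin (2 * m)) (h : GL (Fin (2 * m)) F) :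
    h ∈ Geo.scalars (Fin (2 * m)) F ↔ glReindex m τ h ∈ Geo.scalars (Fin m ⊕ Fin m) F := by
  rw [Geo.mem_scalars_iff, Geo.mem_scalars_iff]
  constructor
  · rintro ⟨c, hc⟩
    refine ⟨c, ?_⟩
    rw [coe_glReindex, hc, Matrix.submatrix_smul, Pi.smul_apply, Pi.smul_apply,
      Matrix.submatrix_one_equiv]
  · rintro ⟨c, hc⟩
    refine ⟨c, ?_⟩
    apply submatrix_inj m τ
    rw [Matrix.submatrix_smul, Pi.smul_apply, Pi.smul_apply, Matrix.submatrix_one_equiv, ← hc,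
      coe_glReindex]

theorem cent_symp (m : ℕ) (τ : Fin m ⊕ Fin m ≃ Fin (2 * m))
    (S : Subgroup (GL (Fin (2 * m)) F))
    (hS : ∀ h : GL (Fin (2 * m)) F, h ∈ S ↔ ∃ c : Fˣ,
      (h : Matrix (Fin (2 * m)) (Fin (2 * m)) F) * Matrix.reindex τ τ (Matrix.J (Fin m) F) *
        (h : Matrix (Fin (2 * m)) (Fin (2 * m)) F).transpose =
        (c : F) • Matrix.reindex τ τ (Matrix.J (Fin m) F)) :
    Nonempty (Cfsg.projQuot S ≃* Cfsg.PGSp m F) := by
  have hiff : ∀ h : GL (Fin (2 * m)) F, h ∈ S ↔ glReindex m τ h ∈ Cfsg.GSp m F := by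
    intro h
    rw [hS, mem_GSp_iff]
    constructor
    · rintro ⟨c, hc⟩
      exact ⟨c, (mem_iff m τ h c).1 hc⟩
    · rintro ⟨c, hc⟩
      exact ⟨c, (mem_iff m τ h c).2 hc⟩
  have hmap : S.map (glReindex m τ).toMonoidHom = Cfsg.GSp m F := by
    ext x
    constructor
    · rintro ⟨g, hg, rfl⟩
      exact (hiff g).1 hg
    · intro hx
      refine ⟨(glReindex m τ).symm x, ?_, ?_⟩
      · apply (hiff _).2
        rw [MulEquiv.apply_symm_apply]
        exact hx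
      · exact MulEquiv.apply_symm_apply _ _
  obtain ⟨E, hE⟩ : ∃ E : ↥S ≃* ↥(Cfsg.GSp m F), ∀ g, ((E g : ↥(Cfsg.GSp m F)) :
        GL (Fin m ⊕ Fin m) F) = glReindex m τ g :=
    ⟨((glReindex m τ).subgroupMap _).trans (MulEquiv.subgroupCongr hmap), fun g => rfl⟩
  have hsc : ((Geo.scalars (Fin (2 * m)) F).subgroupOf S).map E.toMonoidHom =
      (Geo.scalars (Fin m ⊕ Fin m) F).subgroupOf (Cfsg.GSp m F) := by
    ext y
    rw [Subgroup.mem_subgroupOf]
    constructor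
    · rintro ⟨x, hx, rfl⟩
      have hx' : (x : GL (Fin (2 * m)) F) ∈ Geo.scalars (Fin (2 * m)) F :=
        Subgroup.mem_subgroupOf.1 hx
      show ((E x : ↥(Cfsg.GSp m F)) : GL (Fin m ⊕ Fin m) F) ∈ Geo.scalars (Fin m ⊕ Fin m) F
      rw [hE]
      exact (scalar_iff m τ _).1 hx'
    · intro hy
      refine ⟨E.symm y, Subgroup.mem_subgroupOf.2 ?_, ?_⟩
      · apply (scalar_iff m τ _).2
        rw [← hE, MulEquiv.apply_symm_apply]
        exact hy
      · exact MulEquiv.apply_symm_apply _ _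
  exact ⟨QuotientGroup.congr _ _ E hsc⟩

end

end Cfsg.Agent.Lib.Helper54.GTCSP
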