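import Mathlib
import Cfsg.Prelude.Def_LieTypeDatum

/-!
# Piece GT-PGO (helper53's project GT, S2703): `PGO F Q ≃* PGO F Q'` from a linear equivalence
carrying `Q'` to `Q` (different index types).
-/

set_option autoImplicit false

namespace Cfsg.Agent.Lib.Helper54.GTPGO

open Cfsg Matrix

section

variable {ι κ : Type} [Fintype ι] [DecidableEq ι] [Fintype κ] [DecidableEq κ]
  {F : Type*} [Field F]

theorem matrix_ext_mulVec' {n : Type} [Fintype n] [DecidableEq n] (A B : Matrix n n F)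
    (h : ∀ v, A *ᵥ v = B *ᵥ v) : A = B := by
  apply Matrix.toLin'.injective
  apply LinearMap.ext
  intro v
  rw [Matrix.toLin'_apply, Matrix.toLin'_apply, h]

/-- transport of a matrix along a linear equivalence -/
noncomputable def tr (e : (κ → F) ≃ₗ[F] (ι → F)) (A : Matrix ι ι F) : Matrix κ κ F :=
  LinearMap.toMatrix' ((e.symm : (ι → F) →ₗ[F] (κ → F)) ∘ₗ Matrix.toLin' A ∘ₗ
    (e : (κ → F) →ₗ[F] (ι → F)))

theorem tr_mulVec (e : (κ → F) ≃ₗ[F] (ι → F)) (A : Matrix ι ι F) (v : κ → F) :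
    tr e A *ᵥ v = e.symm (A *ᵥ e v) := by
  unfold tr
  rw [← Matrix.toLin'_apply, Matrix.toLin'_toMatrix']
  rfl

theorem tr_mul (e : (κ → F) ≃ₗ[F] (ι → F)) (A B : Matrix ι ι F) :
    tr e (A * B) = tr e A * tr e B := by
  apply matrix_ext_mulVec'
  intro v
  rw [← Matrix.mulVec_mulVec, tr_mulVec, tr_mulVec, tr_mulVec, LinearEquiv.apply_symm_apply,
    Matrix.mulVec_mulVec]

theorem tr_tr (e : (κ → F) ≃ₗ[F] (ι → F)) (A : Matrix ι ι F) :
    tr e.symm (tr e A) = A := by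
  apply matrix_ext_mulVec'
  intro v
  rw [tr_mulVec, tr_mulVec, LinearEquiv.symm_symm, LinearEquiv.apply_symm_apply,
    LinearEquiv.apply_symm_apply]

theorem tr_tr' (e : (κ → F) ≃ₗ[F] (ι → F)) (B : Matrix κ κ F) :
    tr e (tr e.symm B) = B := by
  apply matrix_ext_mulVec'
  intro v
  rw [tr_mulVec, tr_mulVec, LinearEquiv.symm_symm, LinearEquiv.symm_apply_apply,
    LinearEquiv.symm_apply_apply]

/-- the multiplicative equivalence of matrix rings -/
noncomputable def trEquiv (e : (κ → F) ≃ₗ[F] (ι → F)) : Matrix ι ι F ≃* Matrix κ κ F where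
  toFun := tr e
  invFun := tr e.symm
  left_inv := tr_tr e
  right_inv := tr_tr' e
  map_mul' := tr_mul e

/-- the equivalence of general linear groups -/
noncomputable def glEquiv (e : (κ → F) ≃ₗ[F] (ι → F)) : GL ι F ≃* GL κ F :=
  Units.mapEquiv (trEquiv e)

theorem glEquiv_mulVec (e : (κ → F) ≃ₗ[F] (ι → F)) (g : GL ι F) (v : κ → F) :
    ((glEquiv e g : GL κ F) : Matrix κ κ F) *ᵥ v = e.symm ((g : Matrix ι ι F) *ᵥ e v) :=
  tr_mulVec e _ v

theorem glEquiv_mulVec' (e : (κ → F) ≃ₗ[F] (ι → F)) (g : GL ι F) (w : ι → F) :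
    (g : Matrix ι ι F) *ᵥ w = e (((glEquiv e g : GL κ F) : Matrix κ κ F) *ᵥ e.symm w) := by
  rw [glEquiv_mulVec, LinearEquiv.apply_symm_apply, LinearEquiv.apply_symm_apply]

theorem sim_iff (Q : (ι → F) → F) (Q' : (κ → F) → F) (e : (κ → F) ≃ₗ[F] (ι → F))
    (he : ∀ v, Q (e v) = Q' v) (g : GL ι F) :
    g ∈ Geo.quadSimilarityGroup (F := F) Q ↔ glEquiv e g ∈ Geo.quadSimilarityGroup (F := F) Q' := by
  constructor
  · rintro ⟨c, hc⟩
    refine ⟨c, fun v => ?_⟩
    rw [glEquiv_mulVec e, ← he, LinearEquiv.apply_symm_apply, hc, he]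
  · rintro ⟨c, hc⟩
    refine ⟨c, fun w => ?_⟩
    rw [glEquiv_mulVec' e, he, hc, ← he, LinearEquiv.apply_symm_apply]

theorem scalar_iff (e : (κ → F) ≃ₗ[F] (ι → F)) (g : GL ι F) :
    g ∈ Geo.scalars ι F ↔ glEquiv e g ∈ Geo.scalars κ F := by
  rw [Geo.mem_scalars_iff, Geo.mem_scalars_iff]
  constructor
  · rintro ⟨c, hc⟩
    refine ⟨c, ?_⟩
    apply matrix_ext_mulVec'
    intro v
    rw [glEquiv_mulVec e, hc, Matrix.smul_mulVec, Matrix.one_mulVec, map_smul,
      LinearEquiv.symm_apply_apply, Matrix.smul_mulVec, Matrix.one_mulVec]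
  · rintro ⟨c, hc⟩
    refine ⟨c, ?_⟩
    apply matrix_ext_mulVec'
    intro w
    rw [glEquiv_mulVec' e, hc, Matrix.smul_mulVec, Matrix.one_mulVec, map_smul,
      LinearEquiv.apply_symm_apply, Matrix.smul_mulVec, Matrix.one_mulVec]

theorem pgo_congr (Q : (ι → F) → F) (Q' : (κ → F) → F) (e : (κ → F) ≃ₗ[F] (ι → F))
    (he : ∀ v, Q (e v) = Q' v) :
    Nonempty (Cfsg.PGO F Q ≃* Cfsg.PGO F Q') := by
  have hmap : (Geo.quadSimilarityGroup (F := F) Q).map (glEquiv e).toMonoidHom =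
      Geo.quadSimilarityGroup (F := F) Q' := by
    ext x
    constructor
    · rintro ⟨g, hg, rfl⟩
      exact (sim_iff Q Q' e he g).1 hg
    · intro hx
      refine ⟨(glEquiv e).symm x, ?_, ?_⟩
      · apply (sim_iff Q Q' e he _).2
        rw [MulEquiv.apply_symm_apply]
        exact hx
      · exact MulEquiv.apply_symm_apply _ _
  obtain ⟨E, hE⟩ : ∃ E : ↥(Geo.quadSimilarityGroup (F := F) Q) ≃*
      ↥(Geo.quadSimilarityGroup (F := F) Q'), ∀ g, ((E g : ↥(Geo.quadSimilarityGroup (F := F) Q')) :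
        GL κ F) = glEquiv e g :=
    ⟨((glEquiv e).subgroupMap _).trans (MulEquiv.subgroupCongr hmap), fun g => rfl⟩
  have hsc : ((Geo.scalars ι F).subgroupOf (Geo.quadSimilarityGroup (F := F) Q)).map
      E.toMonoidHom = (Geo.scalars κ F).subgroupOf (Geo.quadSimilarityGroup (F := F) Q') := by
    ext y
    rw [Subgroup.mem_subgroupOf]
    constructor
    · rintro ⟨x, hx, rfl⟩
      have hx' : (x : GL ι F) ∈ Geo.scalars ι F := Subgroup.mem_subgroupOf.1 hx
      show ((E x : ↥(Geo.quadSimilarityGroup (F := F) Q')) : GL κ F) ∈ Geo.scalars κ F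
      rw [hE]
      exact (scalar_iff e _).1 hx'
    · intro hy
      refine ⟨E.symm y, Subgroup.mem_subgroupOf.2 ?_, ?_⟩
      · apply (scalar_iff e _).2
        rw [← hE, MulEquiv.apply_symm_apply]
        exact hy
      · exact MulEquiv.apply_symm_apply _ _
  exact ⟨QuotientGroup.congr _ _ E hsc⟩

end

end Cfsg.Agent.Lib.Helper54.GTPGO
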