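import Mathlib

set_option autoImplicit false

namespace Cfsg.Agent.Lib.Helper54

open Matrix Polynomial

variable {F : Type*} [Field F]

/-- The middle coefficient of the characteristic polynomial of a `3 × 3` matrix. -/
def c2 (M : Matrix (Fin 3) (Fin 3) F) : F :=
  M 0 0 * M 1 1 - M 0 1 * M 1 0 + (M 0 0 * M 2 2 - M 0 2 * M 2 0) + (M 1 1 * M 2 2 - M 1 2 * M 2 1)

/-- Cayley–Hamilton for `3 × 3` matrices, explicitly. -/
theorem cayley_hamilton3 (M : Matrix (Fin 3) (Fin 3) F) :
    M ^ 3 - M.trace • M ^ 2 + c2 M • M - M.det • (1 : Matrix (Fin 3) (Fin 3) F) = 0 := by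
  ext i j
  fin_cases i <;> fin_cases j <;>
    simp [pow_succ, Matrix.mul_apply, Fin.sum_univ_three, Matrix.det_fin_three,
      Matrix.trace_fin_three, c2] <;> ring

theorem aeval_ch3 (M : Matrix (Fin 3) (Fin 3) F) :
    aeval M (X ^ 3 - C M.trace * X ^ 2 + C (c2 M) * X - C M.det : F[X]) = 0 := by
  have h := cayley_hamilton3 M
  simp only [map_sub, map_add, map_mul, map_pow, aeval_X, aeval_C,
    Algebra.algebraMap_eq_smul_one, smul_mul_assoc, one_mul]
  exact h

theorem aeval_lin3 (M : Matrix (Fin 3) (Fin 3) F) (α β : F) :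
    aeval M (C α * X + C β : F[X]) = α • M + β • (1 : Matrix (Fin 3) (Fin 3) F) := by
  simp only [map_add, map_mul, aeval_X, aeval_C, Algebra.algebraMap_eq_smul_one, smul_mul_assoc,
    one_mul]

theorem smul_one_eq_zero3 {β : F} (h : β • (1 : Matrix (Fin 3) (Fin 3) F) = 0) : β = 0 := by
  have := congrFun (congrFun h 0) 0
  simpa using this

/-- A `3 × 3` matrix of determinant `1` whose cube is a scalar `c` has `c = 1`, over a field of
characteristic `2` in which every nonzero element is a cube root of unity. -/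
theorem cube_scalar_eq_one (h2 : (2 : F) = 0) (hcube : ∀ x : F, x ≠ 0 → x ^ 3 = 1)
    (M : Matrix (Fin 3) (Fin 3) F) (hdet : M.det = 1) (c : F) (hc0 : c ≠ 0)
    (hM : M ^ 3 = c • (1 : Matrix (Fin 3) (Fin 3) F)) : c = 1 := by
  have hp₁ := aeval_ch3 M
  rw [hdet] at hp₁
  generalize M.trace = t at hp₁
  generalize c2 M = b at hp₁
  have hp₂ : aeval M (X ^ 3 - C c : F[X]) = 0 := by
    simp only [map_sub, map_pow, aeval_X, aeval_C, Algebra.algebraMap_eq_smul_one, hM, sub_self]
  have hq : aeval M (C (b ^ 2 + t * (c - 1)) * X + C (b * (c - 1) - t ^ 2 * c) : F[X]) = 0 := by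
    have e : (C (b ^ 2 + t * (c - 1)) * X + C (b * (c - 1) - t ^ 2 * c) : F[X]) =
        C b * ((X ^ 3 - C t * X ^ 2 + C b * X - C 1) - (X ^ 3 - C c)) +
        C t * (X * ((X ^ 3 - C t * X ^ 2 + C b * X - C 1) - (X ^ 3 - C c)) +
          C t * (X ^ 3 - C c)) := by
      simp only [map_add, map_sub, map_mul, map_pow, map_one]
      ring
    rw [e]
    simp only [map_add, map_mul, map_sub, hp₁, hp₂, sub_zero, mul_zero, add_zero]
  rw [aeval_lin3] at hq
  by_cases hcoef : b ^ 2 + t * (c - 1) = 0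
  · rw [hcoef, zero_smul, zero_add] at hq
    have h0 : b * (c - 1) - t ^ 2 * c = 0 := smul_one_eq_zero3 hq
    by_cases ht : t = 0
    · rw [ht] at hcoef
      have hb : b = 0 := by
        have : b ^ 2 = 0 := by linear_combination hcoef
        exact pow_eq_zero_iff (two_ne_zero) |>.1 this
      have hE : aeval M (C (c - 1) : F[X]) = 0 := by
        have e : (C (c - 1) : F[X]) =
            (X ^ 3 - C t * X ^ 2 + C b * X - C 1) - (X ^ 3 - C c) := by
          rw [ht, hb]
          simp only [map_sub, map_one, map_zero]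
          ring
        rw [e, map_sub, hp₁, hp₂, sub_zero]
      rw [aeval_C, Algebra.algebraMap_eq_smul_one] at hE
      have := smul_one_eq_zero3 hE
      linear_combination this
    · have ht3 := hcube t ht
      have hb3 : b ^ 3 = c := by
        have : b ^ 3 = - c := by linear_combination b * hcoef - t * h0 - c * ht3
        rw [this]
        linear_combination (-c) * h2
      by_cases hb : b = 0
      · rw [hb] at hb3
        exact absurd (by simpa using hb3.symm) hc0
      · rw [hcube b hb] at hb3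
        exact hb3.symm
  · have hMs : M = (-(b * (c - 1) - t ^ 2 * c) / (b ^ 2 + t * (c - 1))) •
        (1 : Matrix (Fin 3) (Fin 3) F) := by
      have h1 : (b ^ 2 + t * (c - 1)) • M = (-(b * (c - 1) - t ^ 2 * c)) •
          (1 : Matrix (Fin 3) (Fin 3) F) := by
        rw [neg_smul]
        exact eq_neg_of_add_eq_zero_left hq
      have h2' := congrArg (fun N => (b ^ 2 + t * (c - 1))⁻¹ • N) h1
      simp only [smul_smul, inv_mul_cancel₀ hcoef, one_smul] at h2'
      rw [h2', div_eq_inv_mul]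
    generalize (-(b * (c - 1) - t ^ 2 * c) / (b ^ 2 + t * (c - 1))) = l at hMs
    rw [hMs, _root_.smul_pow, one_pow] at hM
    have hl3 : l ^ 3 = c := by
      have := congrFun (congrFun hM 0) 0
      simpa using this
    by_cases hl : l = 0
    · rw [hl] at hl3
      exact absurd (by simpa using hl3.symm) hc0
    · rw [hcube _ hl] at hl3
      exact hl3.symm

/-- A non-scalar `3 × 3` matrix of determinant `1` and cube `1` has trace `0`. -/
theorem trace_eq_zero_of_cube (M : Matrix (Fin 3) (Fin 3) F) (hdet : M.det = 1) (hM : M ^ 3 = 1)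
    (hns : ∀ l : F, M ≠ l • (1 : Matrix (Fin 3) (Fin 3) F)) : M.trace = 0 := by
  by_contra ht
  have hp₁ := aeval_ch3 M
  rw [hdet] at hp₁
  generalize M.trace = t at hp₁ ht
  generalize c2 M = b at hp₁
  have hp₂ : aeval M (X ^ 3 - C 1 : F[X]) = 0 := by
    simp only [map_sub, map_pow, aeval_X, map_one, hM, sub_self]
  have hq : aeval M (C (-t) * X + C b : F[X]) = 0 := by
    have e : (C (-t) * X + C b : F[X]) =
        X ^ 2 * ((X ^ 3 - C t * X ^ 2 + C b * X - C 1) - (X ^ 3 - C 1)) -
          (C (-t) * X + C b) * (X ^ 3 - C 1) := by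
      simp only [map_neg, map_one]
      ring
    rw [e]
    simp only [map_sub, map_mul, hp₁, hp₂, sub_zero, mul_zero]
  rw [aeval_lin3] at hq
  apply hns (b / t)
  have h1 : t • M = b • (1 : Matrix (Fin 3) (Fin 3) F) := by
    rw [neg_smul] at hq
    have := eq_neg_of_add_eq_zero_right hq
    rw [neg_neg] at this
    exact this.symm
  have h2' := congrArg (fun N => t⁻¹ • N) h1
  simp only [smul_smul, inv_mul_cancel₀ ht, one_smul] at h2'
  rw [h2', div_eq_inv_mul]

/-- Existence of eigenvectors for every cube root of unity. -/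
theorem exists_eigenvector (h3 : (3 : F) ≠ 0) (M : Matrix (Fin 3) (Fin 3) F) (hM : M ^ 3 = 1)
    (ht1 : M.trace = 0) (ht2 : (M ^ 2).trace = 0) (μ : F) (hμ : μ ^ 3 = 1) :
    ∃ v : Fin 3 → F, v ≠ 0 ∧ M *ᵥ v = μ • v := by
  set E : Matrix (Fin 3) (Fin 3) F := 1 + μ ^ 2 • M + μ • M ^ 2 with hE
  have hM3 : M * M ^ 2 = 1 := by rw [← pow_succ']; exact hM
  have hμ3 : μ * μ ^ 2 = 1 := by rw [← pow_succ']; exact hμ
  have hME : M * E = μ • E := by
    have e1 : M * E = M + μ ^ 2 • M ^ 2 + μ • (1 : Matrix (Fin 3) (Fin 3) F) := by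
      rw [hE, mul_add, mul_add, mul_one, Matrix.mul_smul, Matrix.mul_smul, hM3, pow_two M]
    have e2 : μ • E = M + μ ^ 2 • M ^ 2 + μ • (1 : Matrix (Fin 3) (Fin 3) F) := by
      rw [hE, smul_add, smul_add, smul_smul, smul_smul, hμ3, one_smul, ← pow_two μ]
      abel
    rw [e1, e2]
  have htr : E.trace = 3 := by
    rw [hE, Matrix.trace_add, Matrix.trace_add, Matrix.trace_smul, Matrix.trace_smul, ht1, ht2,
      Matrix.trace_one]
    simp
  have hE0 : E ≠ 0 := by
    intro h
    rw [h, Matrix.trace_zero] at htr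
    exact h3 htr.symm
  obtain ⟨i, j, hij⟩ : ∃ i j, E i j ≠ 0 := by
    by_contra hcon
    push Not at hcon
    apply hE0
    ext i j
    exact hcon i j
  refine ⟨fun i' => E i' j, ?_, ?_⟩
  · intro h
    exact hij (congrFun h i)
  · ext i'
    have := congrFun (congrFun hME i') j
    rw [Matrix.mul_apply] at this
    simpa [Matrix.mulVec, dotProduct] using this

theorem eig_step {M : Matrix (Fin 3) (Fin 3) F} {v0 v1 v2 : Fin 3 → F} {μ0 μ1 μ2 : F}
    (h0 : M *ᵥ v0 = μ0 • v0) (h1 : M *ᵥ v1 = μ1 • v1) (h2 : M *ᵥ v2 = μ2 • v2) (a b c : F)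
    (h : a • v0 + b • v1 + c • v2 = 0) :
    (a * μ0) • v0 + (b * μ1) • v1 + (c * μ2) • v2 = 0 := by
  have e : M *ᵥ (a • v0 + b • v1 + c • v2) = 0 := by rw [h, Matrix.mulVec_zero]
  rw [Matrix.mulVec_add, Matrix.mulVec_add, Matrix.mulVec_smul, Matrix.mulVec_smul,
    Matrix.mulVec_smul, h0, h1, h2, smul_smul, smul_smul, smul_smul] at e
  exact e

/-- A non-scalar `3 × 3` matrix of determinant `1` with cube `1` is conjugate, by a matrix of
determinant `1`, to `diag(1, ω, ω²)`. -/
theorem exists_diagonalizer (h3 : (3 : F) ≠ 0) (ω : F) (hω : ω ^ 2 + ω + 1 = 0)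
    (M : Matrix (Fin 3) (Fin 3) F) (hdet : M.det = 1) (hM : M ^ 3 = 1)
    (hns : ∀ l : F, M ≠ l • (1 : Matrix (Fin 3) (Fin 3) F)) :
    ∃ P : Matrix (Fin 3) (Fin 3) F, P.det = 1 ∧ M * P = P * Matrix.diagonal ![1, ω, ω ^ 2] := by
  have hω3 : ω ^ 3 = 1 := by linear_combination (ω - 1) * hω
  have ht1 := trace_eq_zero_of_cube M hdet hM hns
  have ht2 : (M ^ 2).trace = 0 := by
    apply trace_eq_zero_of_cube
    · rw [Matrix.det_pow, hdet, one_pow]
    · rw [← pow_mul, mul_comm, pow_mul, hM, one_pow]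
    · intro l hl
      apply hns (l ^ 2)
      have e : M = (M ^ 2) ^ 2 := by
        rw [← pow_mul]
        show M = M ^ (3 + 1)
        rw [pow_succ, hM, one_mul]
      rw [e, hl, _root_.smul_pow, one_pow]
  obtain ⟨v0, hv0, hMv0⟩ := exists_eigenvector h3 M hM ht1 ht2 1 (one_pow 3)
  obtain ⟨v1, hv1, hMv1⟩ := exists_eigenvector h3 M hM ht1 ht2 ω hω3
  obtain ⟨v2, hv2, hMv2⟩ := exists_eigenvector h3 M hM ht1 ht2 (ω ^ 2)
    (by rw [← pow_mul, mul_comm, pow_mul, hω3, one_pow])
  let P : Matrix (Fin 3) (Fin 3) F := Matrix.of fun i k => ![v0 i, v1 i, v2 i] k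
  have hMP : M * P = P * Matrix.diagonal ![1, ω, ω ^ 2] := by
    ext i k
    rw [Matrix.mul_diagonal, Matrix.mul_apply]
    fin_cases k
    · have := congrFun hMv0 i
      simp only [Matrix.mulVec, dotProduct, Pi.smul_apply, smul_eq_mul] at this
      simp only [P, Matrix.of_apply]
      simpa [mul_comm] using this
    · have := congrFun hMv1 i
      simp only [Matrix.mulVec, dotProduct, Pi.smul_apply, smul_eq_mul] at this
      simp only [P, Matrix.of_apply]
      simpa [mul_comm] using this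
    · have := congrFun hMv2 i
      simp only [Matrix.mulVec, dotProduct, Pi.smul_apply, smul_eq_mul] at this
      simp only [P, Matrix.of_apply]
      simpa [mul_comm] using this
  have hdetP : P.det ≠ 0 := by
    intro h0
    obtain ⟨x, hx, hPx⟩ := Matrix.exists_mulVec_eq_zero_iff.2 h0
    have R0 : x 0 • v0 + x 1 • v1 + x 2 • v2 = 0 := by
      rw [← hPx]
      ext i
      simp [P, Matrix.mulVec, dotProduct, Fin.sum_univ_three]
      ring
    have R1 := eig_step hMv0 hMv1 hMv2 _ _ _ R0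
    have R2 := eig_step hMv0 hMv1 hMv2 _ _ _ R1
    have r0 : ∀ i, x 0 * v0 i + x 1 * v1 i + x 2 * v2 i = 0 := fun i => by
      have := congrFun R0 i
      simpa using this
    have r1 : ∀ i, x 0 * 1 * v0 i + x 1 * ω * v1 i + x 2 * ω ^ 2 * v2 i = 0 := fun i => by
      have := congrFun R1 i
      simpa using this
    have r2 : ∀ i, x 0 * 1 * 1 * v0 i + x 1 * ω * ω * v1 i + x 2 * ω ^ 2 * ω ^ 2 * v2 i = 0 :=
      fun i => by
        have := congrFun R2 i
        simpa using this
    have hx0 : ∀ i, x 0 * v0 i = 0 := fun i => by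
      have : (3 : F) * (x 0 * v0 i) = 0 := by
        linear_combination r0 i + r1 i + r2 i - (x 1 * v1 i) * hω -
          x 2 * v2 i * (ω * hω3 + hω)
      exact (mul_eq_zero.1 this).resolve_left h3
    have hx1 : ∀ i, x 1 * v1 i = 0 := fun i => by
      have : (3 : F) * (x 1 * v1 i) = 0 := by
        linear_combination r0 i + ω ^ 2 * r1 i + ω * r2 i - x 0 * v0 i * hω -
          2 * x 1 * v1 i * hω3 - x 2 * v2 i * ((ω ^ 2 + ω) * hω3 + hω)
      exact (mul_eq_zero.1 this).resolve_left h3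
    have hx2 : ∀ i, x 2 * v2 i = 0 := fun i => by
      have : (3 : F) * (x 2 * v2 i) = 0 := by
        linear_combination r0 i + ω * r1 i + ω ^ 2 * r2 i - x 0 * v0 i * hω -
          x 1 * v1 i * (ω * hω3 + hω) - x 2 * v2 i * ((ω ^ 3 + 2) * hω3)
      exact (mul_eq_zero.1 this).resolve_left h3
    have nz : ∀ (v : Fin 3 → F), v ≠ 0 → ∀ a : F, (∀ i, a * v i = 0) → a = 0 := by
      intro v hv a ha
      by_contra ha0
      apply hv
      ext i
      exact (mul_eq_zero.1 (ha i)).resolve_left ha0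
    apply hx
    ext k
    fin_cases k
    · exact nz v0 hv0 _ hx0
    · exact nz v1 hv1 _ hx1
    · exact nz v2 hv2 _ hx2
  refine ⟨P * Matrix.diagonal ![(P.det)⁻¹, 1, 1], ?_, ?_⟩
  · rw [Matrix.det_mul, Matrix.det_diagonal, Fin.prod_univ_three]
    simp [mul_inv_cancel₀ hdetP]
  · rw [← mul_assoc, hMP, mul_assoc, mul_assoc, Matrix.diagonal_mul_diagonal,
      Matrix.diagonal_mul_diagonal]
    congr 2
    ext i
    ring

end Cfsg.Agent.Lib.Helper54
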