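import Mathlib
import Cfsg.Prelude.Def_LieClassical
import Cfsg.Agent.Lib.Helper7.SUOrder
import Cfsg.Agent.Lib.Helper47.GUConj

/-!
# S2646, piece GUC-ORBIT (helper54, for helper51)

For `u ∈ GU_n(q)`: `|C_GU(u)| * #{H Hermitian invertible, u* H u = H} = |C_GL(u)|`.
The map `g ↦ g g*` from `C_GL(u)` to the set of invertible Hermitian matrices commuting with `u` is
onto (norm lemma of Helper47) and its fibres are cosets of `C_GU(u)`.
-/

set_option autoImplicit false

namespace Cfsg.Agent.Lib.Helper54.GUCORBIT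

open Matrix

section star

variable {K : Type*} [Field K] {n : ℕ} (σ : K →+* K)

/-- conjugate transpose -/
def cstar (A : Matrix (Fin n) (Fin n) K) : Matrix (Fin n) (Fin n) K := (A.map σ)ᵀ

theorem cstar_mul (A B : Matrix (Fin n) (Fin n) K) :
    cstar σ (A * B) = cstar σ B * cstar σ A := by
  unfold cstar
  rw [Matrix.map_mul, Matrix.transpose_mul]

theorem cstar_one : cstar σ (1 : Matrix (Fin n) (Fin n) K) = 1 := by
  unfold cstar
  rw [Matrix.map_one σ (map_zero σ) (map_one σ), Matrix.transpose_one]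

theorem cstar_cstar (hσ : ∀ x, σ (σ x) = x) (A : Matrix (Fin n) (Fin n) K) :
    cstar σ (cstar σ A) = A := by
  ext i j
  simp [cstar, hσ]

theorem cstar_det (A : Matrix (Fin n) (Fin n) K) : (cstar σ A).det = σ A.det := by
  unfold cstar
  rw [Matrix.det_transpose]
  exact (RingHom.map_det σ A).symm

end star

theorem orbit_count {K : Type*} [Field K] [Fintype K] {q n : ℕ} (hK : Fintype.card K = q ^ 2)
    (u : ↥(Cfsg.GU n K q)) :
    Nat.card ↥(Subgroup.centralizer ({u} : Set ↥(Cfsg.GU n K q))) *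
      Nat.card {H : Matrix (Fin n) (Fin n) K // (H.map (· ^ q))ᵀ = H ∧ H.det ≠ 0 ∧
        (((u : GL (Fin n) K) : Matrix (Fin n) (Fin n) K).map (· ^ q))ᵀ * H *
          ((u : GL (Fin n) K) : Matrix (Fin n) (Fin n) K) = H} =
    Nat.card {g : GL (Fin n) K // (g : Matrix (Fin n) (Fin n) K) *
        ((u : GL (Fin n) K) : Matrix (Fin n) (Fin n) K) =
      ((u : GL (Fin n) K) : Matrix (Fin n) (Fin n) K) * (g : Matrix (Fin n) (Fin n) K)} := by
  classical
  obtain ⟨σ, hσq, hσ, -, -, x₀, -, -, -, hx₀⟩ :=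
    Cfsg.Agent.Lib.Helper47.exists_unitary_data K q hK
  obtain ⟨p, hp⟩ := CharP.exists K
  have hpp : p.Prime := by
    rcases CharP.char_is_prime_or_zero K p with h | h
    · exact h
    · exfalso
      subst h
      have : CharZero K := CharP.charP_to_charZero K
      exact not_finite K
  have : Fact p.Prime := ⟨hpp⟩
  have hmap : ∀ A : Matrix (Fin n) (Fin n) K, (A.map (· ^ q))ᵀ = cstar σ A := by
    intro A
    ext i j
    simp [cstar, hσq]
  simp only [hmap]
  obtain ⟨U, hUdef⟩ : ∃ U : Matrix (Fin n) (Fin n) K,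
      U = ((u : GL (Fin n) K) : Matrix (Fin n) (Fin n) K) := ⟨_, rfl⟩
  rw [← hUdef]
  -- the unitary criterion
  have hgu : ∀ W : GL (Fin n) K, W ∈ Cfsg.GU n K q ↔
      (W : Matrix (Fin n) (Fin n) K) * cstar σ (W : Matrix (Fin n) (Fin n) K) = 1 := by
    intro W
    rw [Cfsg.Agent.Lib.Helper7.mem_GU_iff_isFr hK, Cfsg.Agent.Lib.Helper7.isFr_iff_mul]
    have e : (W : Matrix (Fin n) (Fin n) K).map (· ^ q) =
        (W : Matrix (Fin n) (Fin n) K).map σ := by
      ext i j
      simp [hσq]
    rw [e]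
    constructor
    · intro h
      have h1 := congrArg Matrix.transpose h
      rw [Matrix.transpose_mul, Matrix.transpose_transpose, Matrix.transpose_one] at h1
      exact _root_.mul_eq_one_comm.mp h1
    · intro h
      have h1 : cstar σ (W : Matrix (Fin n) (Fin n) K) * W = 1 := _root_.mul_eq_one_comm.mp h
      have h2 := congrArg Matrix.transpose h1
      rw [Matrix.transpose_mul, Matrix.transpose_one] at h2
      simpa [cstar] using h2
  have hUU' : U * cstar σ U = 1 := by
    rw [hUdef]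
    exact (hgu (u : GL (Fin n) K)).mp u.2
  have hUU : cstar σ U * U = 1 := _root_.mul_eq_one_comm.mp hUU'
  have detne : ∀ g : GL (Fin n) K, (g : Matrix (Fin n) (Fin n) K).det ≠ 0 := fun g =>
    ((Matrix.isUnit_iff_isUnit_det _).mp g.isUnit).ne_zero
  -- `g ↦ g g*` lands in the Hermitian matrices commuting with `U`
  have hphi : ∀ g : Matrix (Fin n) (Fin n) K, g.det ≠ 0 → g * U = U * g →
      cstar σ (g * cstar σ g) = g * cstar σ g ∧ (g * cstar σ g).det ≠ 0 ∧
        cstar σ U * (g * cstar σ g) * U = g * cstar σ g := by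
    intro g hdet hgU
    refine ⟨?_, ?_, ?_⟩
    · rw [cstar_mul, cstar_cstar σ hσ]
    · rw [Matrix.det_mul, cstar_det]
      refine mul_ne_zero hdet ?_
      intro h0
      apply hdet
      have h1 := congrArg σ h0
      rw [hσ, map_zero] at h1
      exact h1
    · have h1 : cstar σ U * g = g * cstar σ U := by
        calc cstar σ U * g = cstar σ U * g * (U * cstar σ U) := by rw [hUU', mul_one]
          _ = cstar σ U * (g * U) * cstar σ U := by simp only [mul_assoc]
          _ = cstar σ U * (U * g) * cstar σ U := by rw [hgU]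
          _ = (cstar σ U * U) * g * cstar σ U := by simp only [mul_assoc]
          _ = g * cstar σ U := by rw [hUU, one_mul]
      have h3 : cstar σ U * cstar σ g = cstar σ g * cstar σ U := by
        rw [← cstar_mul, ← cstar_mul, hgU]
      have h2 : cstar σ g * U = U * cstar σ g := by
        calc cstar σ g * U = (U * cstar σ U) * cstar σ g * U := by rw [hUU', one_mul]
          _ = U * (cstar σ U * cstar σ g) * U := by simp only [mul_assoc]
          _ = U * (cstar σ g * cstar σ U) * U := by rw [h3]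
          _ = U * cstar σ g * (cstar σ U * U) := by simp only [mul_assoc]
          _ = U * cstar σ g := by rw [hUU, mul_one]
      calc cstar σ U * (g * cstar σ g) * U = (cstar σ U * g) * (cstar σ g * U) := by
            simp only [mul_assoc]
        _ = (g * cstar σ U) * (U * cstar σ g) := by rw [h1, h2]
        _ = g * (cstar σ U * U) * cstar σ g := by simp only [mul_assoc]
        _ = g * cstar σ g := by rw [hUU, mul_one]
  -- surjectivity (norm lemma)
  have hsurj : ∀ H : Matrix (Fin n) (Fin n) K, cstar σ H = H → H.det ≠ 0 →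
      cstar σ U * H * U = H →
      ∃ g : GL (Fin n) K, (g : Matrix (Fin n) (Fin n) K) * U = U * (g : Matrix (Fin n) (Fin n) K) ∧
        (g : Matrix (Fin n) (Fin n) K) * cstar σ (g : Matrix (Fin n) (Fin n) K) = H := by
    intro H hH hdet hHU
    have hF := Cfsg.Agent.Lib.Helper47.uForm_isSForm (ι := Fin n) σ hσ
    have hcomm : U * H = H * U := by
      calc U * H = U * (cstar σ U * H * U) := by rw [hHU]
        _ = (U * cstar σ U) * H * U := by simp only [mul_assoc]
        _ = H * U := by rw [hUU', one_mul]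
    have ha : Cfsg.Agent.Lib.Helper47.HermM σ H := by
      intro a b
      have h1 := Cfsg.Agent.Lib.Helper47.uForm_star hσ H a b
      have e : (H.map σ)ᵀ = H := hH
      rw [e] at h1
      exact h1
    have haU : IsUnit H := (Matrix.isUnit_iff_isUnit_det H).mpr (isUnit_iff_ne_zero.mpr hdet)
    obtain ⟨P, hP⟩ := Cfsg.Agent.Lib.Helper47.exists_poly_norm_matrix p hσ ⟨x₀, hx₀⟩ H ha haU
    obtain ⟨y, hy⟩ : ∃ y : Matrix (Fin n) (Fin n) K, y = Polynomial.aeval H P := ⟨_, rfl⟩
    obtain ⟨y', hy'⟩ : ∃ y' : Matrix (Fin n) (Fin n) K, y' = Polynomial.aeval H (P.map σ) :=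
      ⟨_, rfl⟩
    rw [← hy, ← hy'] at hP
    have hstar : cstar σ y = y' := by
      have h0 : cstar σ y - y' = 0 := by
        apply Cfsg.Agent.Lib.Helper47.matrix_eq_zero_of_uForm (σ := σ)
        intro a b
        apply hF.refl
        rw [Matrix.sub_mulVec, hF.sub_right, sub_eq_zero]
        have h1 := Cfsg.Agent.Lib.Helper47.uForm_star hσ y b a
        have h2 := Cfsg.Agent.Lib.Helper47.herm_aeval hσ ha P b a
        rw [← hy, ← hy'] at h2
        exact h1.symm.trans h2
      exact sub_eq_zero.mp h0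
    have hy'U : U * y' = y' * U := by
      rw [hy']
      exact Cfsg.Agent.Lib.Helper47.commute_aeval hcomm (P.map σ)
    have hdet' : y'.det ≠ 0 := by
      intro h0
      apply hdet
      rw [← hP, Matrix.det_mul, h0, zero_mul]
    have hstar' : cstar σ y' = y := by rw [← hstar, cstar_cstar σ hσ]
    refine ⟨Matrix.GeneralLinearGroup.mkOfDetNeZero y' hdet', hy'U.symm, ?_⟩
    show y' * cstar σ y' = H
    rw [hstar', hP]
  -- the map
  let Φ : {g : GL (Fin n) K // (g : Matrix (Fin n) (Fin n) K) * U =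
        U * (g : Matrix (Fin n) (Fin n) K)} →
      {H : Matrix (Fin n) (Fin n) K // cstar σ H = H ∧ H.det ≠ 0 ∧ cstar σ U * H * U = H} :=
    fun g => ⟨(g.1 : Matrix (Fin n) (Fin n) K) * cstar σ (g.1 : Matrix (Fin n) (Fin n) K),
      hphi _ (detne g.1) g.2⟩
  have hΦ : ∀ g, ((Φ g).1 : Matrix (Fin n) (Fin n) K) =
      (g.1 : Matrix (Fin n) (Fin n) K) * cstar σ (g.1 : Matrix (Fin n) (Fin n) K) := fun g => rfl
  -- the fibres
  have hfib : ∀ H, Nat.card {g // Φ g = H} =
      Nat.card ↥(Subgroup.centralizer ({u} : Set ↥(Cfsg.GU n K q))) := by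
    intro H
    obtain ⟨g₀, hg₀U, hg₀H⟩ := hsurj H.1 H.2.1 H.2.2.1 H.2.2.2
    have hc₀ : Commute g₀ (u : GL (Fin n) K) := by
      apply Units.ext
      rw [Units.val_mul, Units.val_mul, ← hUdef]
      exact hg₀U
    have e2 : ((g₀⁻¹ : GL (Fin n) K) : Matrix (Fin n) (Fin n) K) *
        (g₀ : Matrix (Fin n) (Fin n) K) = 1 := by
      rw [← Units.val_mul, inv_mul_cancel, Units.val_one]
    have e3 : cstar σ (g₀ : Matrix (Fin n) (Fin n) K) *
        cstar σ ((g₀⁻¹ : GL (Fin n) K) : Matrix (Fin n) (Fin n) K) = 1 := by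
      rw [← cstar_mul, e2, cstar_one]
    have hA : ∀ g : {g : GL (Fin n) K // (g : Matrix (Fin n) (Fin n) K) * U =
        U * (g : Matrix (Fin n) (Fin n) K)}, Φ g = H → g₀⁻¹ * g.1 ∈ Cfsg.GU n K q := by
      intro g hg
      rw [hgu]
      have hgH : (g.1 : Matrix (Fin n) (Fin n) K) * cstar σ (g.1 : Matrix (Fin n) (Fin n) K) =
          H.1 := by
        rw [← hΦ, hg]
      rw [Units.val_mul, cstar_mul]
      calc ((g₀⁻¹ : GL (Fin n) K) : Matrix (Fin n) (Fin n) K) * (g.1 : Matrix (Fin n) (Fin n) K) *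
            (cstar σ (g.1 : Matrix (Fin n) (Fin n) K) *
              cstar σ ((g₀⁻¹ : GL (Fin n) K) : Matrix (Fin n) (Fin n) K))
          = ((g₀⁻¹ : GL (Fin n) K) : Matrix (Fin n) (Fin n) K) *
              ((g.1 : Matrix (Fin n) (Fin n) K) * cstar σ (g.1 : Matrix (Fin n) (Fin n) K)) *
              cstar σ ((g₀⁻¹ : GL (Fin n) K) : Matrix (Fin n) (Fin n) K) := by
            simp only [mul_assoc]
        _ = ((g₀⁻¹ : GL (Fin n) K) : Matrix (Fin n) (Fin n) K) *
              ((g₀ : Matrix (Fin n) (Fin n) K) * cstar σ (g₀ : Matrix (Fin n) (Fin n) K)) *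
              cstar σ ((g₀⁻¹ : GL (Fin n) K) : Matrix (Fin n) (Fin n) K) := by
            rw [hgH, hg₀H]
        _ = (((g₀⁻¹ : GL (Fin n) K) : Matrix (Fin n) (Fin n) K) *
              (g₀ : Matrix (Fin n) (Fin n) K)) * (cstar σ (g₀ : Matrix (Fin n) (Fin n) K) *
              cstar σ ((g₀⁻¹ : GL (Fin n) K) : Matrix (Fin n) (Fin n) K)) := by
            simp only [mul_assoc]
        _ = 1 := by rw [e2, e3, mul_one]
    have hB : ∀ (g : {g : GL (Fin n) K // (g : Matrix (Fin n) (Fin n) K) * U =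
        U * (g : Matrix (Fin n) (Fin n) K)}) (h : g₀⁻¹ * g.1 ∈ Cfsg.GU n K q),
        (⟨g₀⁻¹ * g.1, h⟩ : ↥(Cfsg.GU n K q)) ∈
          Subgroup.centralizer ({u} : Set ↥(Cfsg.GU n K q)) := by
      intro g h
      rw [Subgroup.mem_centralizer_iff]
      intro x hx
      rw [Set.mem_singleton_iff] at hx
      subst hx
      apply Subtype.ext
      have hcg : Commute g.1 (x : GL (Fin n) K) := by
        apply Units.ext
        rw [Units.val_mul, Units.val_mul, ← hUdef]
        exact g.2
      exact ((hc₀.inv_left.mul_left hcg).eq).symm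
    have hC : ∀ w : ↥(Subgroup.centralizer ({u} : Set ↥(Cfsg.GU n K q))),
        ((g₀ * w.1.1 : GL (Fin n) K) : Matrix (Fin n) (Fin n) K) * U =
          U * ((g₀ * w.1.1 : GL (Fin n) K) : Matrix (Fin n) (Fin n) K) := by
      intro w
      have hw : Commute (w.1.1 : GL (Fin n) K) (u : GL (Fin n) K) := by
        have h1 := (Subgroup.mem_centralizer_iff.mp w.2) u (Set.mem_singleton u)
        exact (congrArg Subtype.val h1).symm
      have h2 := (hc₀.mul_left hw).eq
      have h3 : ((g₀ * w.1.1 : GL (Fin n) K) : Matrix (Fin n) (Fin n) K) *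
          ((u : GL (Fin n) K) : Matrix (Fin n) (Fin n) K) =
          ((u : GL (Fin n) K) : Matrix (Fin n) (Fin n) K) *
            ((g₀ * w.1.1 : GL (Fin n) K) : Matrix (Fin n) (Fin n) K) := by
        rw [← Units.val_mul, ← Units.val_mul, h2]
      rw [← hUdef] at h3
      exact h3
    have hD : ∀ (w : ↥(Subgroup.centralizer ({u} : Set ↥(Cfsg.GU n K q))))
        (h : ((g₀ * w.1.1 : GL (Fin n) K) : Matrix (Fin n) (Fin n) K) * U =
          U * ((g₀ * w.1.1 : GL (Fin n) K) : Matrix (Fin n) (Fin n) K)),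
        Φ ⟨g₀ * w.1.1, h⟩ = H := by
      intro w h
      apply Subtype.ext
      rw [hΦ]
      have hw1 : (w.1.1 : Matrix (Fin n) (Fin n) K) * cstar σ (w.1.1 : Matrix (Fin n) (Fin n) K) =
          1 := (hgu w.1.1).mp w.1.2
      show ((g₀ * w.1.1 : GL (Fin n) K) : Matrix (Fin n) (Fin n) K) *
        cstar σ ((g₀ * w.1.1 : GL (Fin n) K) : Matrix (Fin n) (Fin n) K) = H.1
      rw [Units.val_mul, cstar_mul]
      calc (g₀ : Matrix (Fin n) (Fin n) K) * (w.1.1 : Matrix (Fin n) (Fin n) K) *
            (cstar σ (w.1.1 : Matrix (Fin n) (Fin n) K) * cstar σ (g₀ : Matrix (Fin n) (Fin n) K))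
          = (g₀ : Matrix (Fin n) (Fin n) K) * ((w.1.1 : Matrix (Fin n) (Fin n) K) *
              cstar σ (w.1.1 : Matrix (Fin n) (Fin n) K)) *
              cstar σ (g₀ : Matrix (Fin n) (Fin n) K) := by simp only [mul_assoc]
        _ = H.1 := by rw [hw1, mul_one, hg₀H]
    exact Nat.card_congr
      { toFun := fun g => ⟨⟨g₀⁻¹ * g.1.1, hA g.1 g.2⟩, hB g.1 _⟩
        invFun := fun w => ⟨⟨g₀ * w.1.1, hC w⟩, hD w _⟩
        left_inv := by
          intro g
          apply Subtype.ext
          apply Subtype.ext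
          show g₀ * (g₀⁻¹ * g.1.1) = g.1.1
          rw [mul_inv_cancel_left]
        right_inv := by
          intro w
          apply Subtype.ext
          apply Subtype.ext
          show g₀⁻¹ * (g₀ * w.1.1) = w.1.1
          rw [inv_mul_cancel_left] }
  have : Fintype {H : Matrix (Fin n) (Fin n) K // cstar σ H = H ∧ H.det ≠ 0 ∧
      cstar σ U * H * U = H} := Fintype.ofFinite _
  have key : Nat.card {g : GL (Fin n) K // (g : Matrix (Fin n) (Fin n) K) * U =
        U * (g : Matrix (Fin n) (Fin n) K)} =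
      Nat.card {H : Matrix (Fin n) (Fin n) K // cstar σ H = H ∧ H.det ≠ 0 ∧
        cstar σ U * H * U = H} *
        Nat.card ↥(Subgroup.centralizer ({u} : Set ↥(Cfsg.GU n K q))) := by
    rw [← Nat.card_congr (Equiv.sigmaFiberEquiv Φ), Nat.card_sigma]
    simp only [hfib]
    rw [Finset.sum_const, Finset.card_univ, smul_eq_mul, ← Nat.card_eq_fintype_card]
  rw [mul_comm]
  exact key.symm

end Cfsg.Agent.Lib.Helper54.GUCORBIT
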