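import Cfsg.Agent.Lib.Helper96.HyDefs

/-!
# Project HE (S5993, helper96), piece NECE (proved by helper54)

If every isometry of order `r` fixes an elliptic `m`-space and `r` divides the number of
elliptic `m`-spaces, then the arithmetic criterion holds.  Twin of `Helper77.Hy.crit_of_all`.
-/

set_option autoImplicit false
set_option linter.unusedSectionVars false
set_option linter.unusedVariables false

namespace Cfsg.Agent.Lib.Helper54.He

open Module Polynomial Cfsg.Agent.Lib.Helper96.Sp Cfsg.Agent.Lib.Helper96.Hy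
  Cfsg.Agent.Lib.Helper47

universe u

variable {F : Type u} [Field F] [Fintype F] {V : Type u} [AddCommGroup V] [Module F V]
  [FiniteDimensional F V] {B : LinearMap.BilinForm F V}

-- PIECE NECE
theorem crit_of_all_ell (hS : B.IsSymm) (h2 : (2 : F) ≠ 0) (hN : ND B ⊤) (hF : Facts B)
    (r : ℕ) [Fact r.Prime] (hr2 : r ≠ 2) (hrq : ¬ r ∣ Fintype.card F) (hr0 : (r : F) ≠ 0)
    (hR : RFacts B r) (hodd : Odd (finrank F V)) (m : ℕ) (hme : Even m) (hm2 : 2 ≤ m)
    (hmn : m + 1 ≤ finrank F V)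
    (hdvd : r ∣ Nat.card {W : Submodule F V // finrank F W = m ∧ ND B W ∧ Typ B W (-1)})
    (hsmall : finrank F V < blk (Fintype.card F) r →
      ¬ r ∣ Nat.card {W : Submodule F V // finrank F W = m ∧ ND B W ∧ Typ B W (-1)})
    (hmax : blk (Fintype.card F) r ≤ finrank F V → ∃ T : Module.End F V, Isom B T ∧
      T ^ r = 1 ∧ T ≠ 1 ∧
      finrank F (LinearMap.ker (T - 1)) = finrank F V % blk (Fintype.card F) r)
    (hcong : ∀ T : Module.End F V, Isom B T → T ^ r = 1 → m < blk (Fintype.card F) r →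
      m + 1 ≤ finrank F (LinearMap.ker (T - 1)) →
      finrank F (LinearMap.ker (T - 1)) < blk (Fintype.card F) r →
      ¬ r ∣ Nat.card {W : Submodule F V // finrank F W = m ∧ ND B W ∧ Typ B W (-1)})
    (hall : ∀ T : Module.End F V, Isom B T → T ^ r = 1 → T ≠ 1 →
      ∃ W : Submodule F V, finrank F W = m ∧ (ND B W ∧ Typ B W (-1)) ∧ W.map T ≤ W) :
    blk (Fintype.card F) r ≤ m ∧
      m % blk (Fintype.card F) r < finrank F V % blk (Fintype.card F) r ∧
      (m % blk (Fintype.card F) r = 0 →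
        Even (orderOf ((Fintype.card F : ℕ) : ZMod r)) ∧ Odd (m / blk (Fintype.card F) r)) := by
  obtain ⟨c, hc⟩ : ∃ c : ℕ, c = blk (Fintype.card F) r := ⟨_, rfl⟩
  obtain ⟨n, hn⟩ : ∃ n : ℕ, n = finrank F V := ⟨_, rfl⟩
  rw [← hc] at hsmall hmax hcong ⊢
  rw [← hn] at hodd hmn hsmall hmax ⊢
  have hcn : c ≤ n := by
    by_contra hlt
    exact hsmall (by omega) hdvd
  obtain ⟨T, hT, hTr, hT1, hker⟩ := hmax hcn
  have hcpos : 0 < c := by
    by_contra h0
    have hc0 : c = 0 := by omega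
    rw [hc0, Nat.mod_zero, hn] at hker
    have htop : LinearMap.ker (T - 1) = ⊤ := Submodule.eq_top_of_finrank_eq hker
    apply hT1
    ext v
    have hv : v ∈ LinearMap.ker (T - 1) := by rw [htop]; exact Submodule.mem_top
    rw [LinearMap.mem_ker, LinearMap.sub_apply, sub_eq_zero] at hv
    exact hv
  have hceven : Even c := by rw [hc]; exact blk_even _ _
  obtain ⟨W, hWm, hWH, hWinv⟩ := hall T hT hTr hT1
  have hWnd : ND B W := hWH.1
  obtain ⟨-, hndR, hRinv, hsum⟩ :=
    Cfsg.Agent.Lib.Helper98.O72.fix_setup hS h2 hN T hT r hrq hr0 hTr W hWinv hWnd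
  have hdv := hR.blk_dvd T hT hTr _ inf_le_right hRinv hndR
  rw [← hc] at hdv
  obtain ⟨b', hb'⟩ := hdv
  have hw₀k : finrank F ↥(W ⊓ LinearMap.ker (T - 1)) ≤ finrank F ↥(LinearMap.ker (T - 1)) :=
    Submodule.finrank_mono inf_le_right
  obtain ⟨w₀, hw₀⟩ : ∃ w₀ : ℕ, w₀ = finrank F ↥(W ⊓ LinearMap.ker (T - 1)) := ⟨_, rfl⟩
  obtain ⟨k, hk⟩ : ∃ k : ℕ, k = finrank F ↥(LinearMap.ker (T - 1)) := ⟨_, rfl⟩
  rw [← hw₀, ← hk] at hw₀k
  rw [← hw₀, hb', hWm] at hsum
  rw [← hk] at hker
  obtain ⟨a, ha⟩ := hme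
  obtain ⟨n', hn'⟩ := hodd
  obtain ⟨c', hc'⟩ := hceven
  have hkc : k < c := by rw [hker]; exact Nat.mod_lt n hcpos
  have hnk : c * (n / c) + k = n := by rw [hker]; exact Nat.div_add_mod n c
  have he1 : c * (n / c) = c' * (n / c) + c' * (n / c) := by rw [hc']; ring
  have he2 : c * b' = c' * b' + c' * b' := by rw [hc']; ring
  have hw₀lt : w₀ < k := by omega
  have hmod : m % c = w₀ := by
    rw [← hsum, Nat.add_mul_mod_self_left, Nat.mod_eq_of_lt (by omega)]
  have hdiv : m / c = b' := by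
    rw [← hsum, Nat.add_mul_div_left _ _ hcpos, Nat.div_eq_of_lt (by omega), zero_add]
  have h1 : c ≤ m := by
    by_contra hlt
    have hmc : m < c := by omega
    have hw₀m : w₀ = m := by rw [← hmod]; exact Nat.mod_eq_of_lt hmc
    have h3 := hcong T hT hTr hmc (by rw [← hk]; omega) (by rw [← hk]; exact hkc)
    exact h3 hdvd
  refine ⟨h1, by rw [hmod, ← hker]; exact hw₀lt, ?_⟩
  intro hm0
  rw [hdiv]
  have hw₀0 : w₀ = 0 := by rw [← hmod]; exact hm0
  have hcb : c * b' = m := by omega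
  have hb'1 : 1 ≤ b' := by
    by_contra h
    have hb0 : b' = 0 := by omega
    rw [hb0, mul_zero] at hcb
    omega
  have hfinR : finrank F ↥(W ⊓ LinearMap.range (T - 1)) = finrank F ↥W := by
    rw [hb', hWm, hcb]
  have hWR : W ≤ LinearMap.range (T - 1) := by
    have heq : W ⊓ LinearMap.range (T - 1) = W :=
      Submodule.eq_of_le_of_finrank_eq inf_le_left hfinR
    rw [← heq]
    exact inf_le_right
  have hfinW : finrank F ↥W = blk (Fintype.card F) r * b' := by
    rw [hWm, ← hc, hcb]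
  have ht1 := hR.typ_range T hT hTr W hWR hWinv hWnd b' hb'1 hfinW
  have ht2 : Typ B W (-1) := hWH.2
  have heq := typ_unique ht1 ht2
  by_cases hi : Even (orderOf ((Fintype.card F : ℕ) : ZMod r))
  · rw [if_pos hi] at heq
    refine ⟨hi, ?_⟩
    rcases Nat.even_or_odd b' with hev | hod
    · rw [hev.neg_one_pow] at heq
      exact absurd heq (by norm_num)
    · exact hod
  · rw [if_neg hi] at heq
    exact absurd heq (by norm_num)

end Cfsg.Agent.Lib.Helper54.He
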