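import Cfsg.Agent.Lib.Helper96.HyDefs
import Cfsg.Agent.Lib.Helper98.O72Defs

/-!
Project HY (S5992, helper96), piece ELLSUB (helper54): a nondegenerate subspace `K` with
`2w + 1 ≤ dim K`, `w ≥ 1`, contains an elliptic subspace of dimension `2w` (an anisotropic plane
plus a hyperbolic subspace orthogonal to it).
-/

set_option autoImplicit false
set_option linter.unusedSectionVars false
set_option linter.unusedVariables false

namespace Cfsg.Agent.Lib.Helper54.Hy

open Module Polynomial Cfsg.Agent.Lib.Helper96.Sp Cfsg.Agent.Lib.Helper96.Hy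
  Cfsg.Agent.Lib.Helper47

universe u

section Abstract

variable {F : Type u} [Field F] [Fintype F] {V : Type u} [AddCommGroup V] [Module F V]
  [FiniteDimensional F V] {B : LinearMap.BilinForm F V}

/-- the line of a non-singular vector is nondegenerate -/
theorem ellsub_nd_span (x : V) (hx : B x x ≠ 0) : ND B (Submodule.span F {x}) := by
  intro u hu h
  obtain ⟨c, rfl⟩ := Submodule.mem_span_singleton.mp hu
  have h1 := h x (Submodule.mem_span_singleton_self x)
  rw [map_smul, LinearMap.smul_apply, smul_eq_mul] at h1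
  rcases mul_eq_zero.mp h1 with h2 | h2
  · rw [h2, zero_smul]
  · exact absurd h2 hx

theorem ellsub_ne_zero (x : V) (hx : B x x ≠ 0) : x ≠ 0 := by
  rintro rfl
  apply hx
  simp

/-- the anisotropic plane -/
theorem ellsub_aniso (hS : B.IsSymm) (v w' : V) (η : F) (hη : ¬ IsSquare η)
    (hv : B v v = 1) (hw : B w' w' = -η) (hvw : B v w' = 0) (a : V)
    (ha : a ∈ Submodule.span F {v} ⊔ Submodule.span F {w'}) (h0 : B a a = 0) : a = 0 := by
  obtain ⟨s, hs, t, ht, rfl⟩ := Submodule.mem_sup.mp ha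
  obtain ⟨x, rfl⟩ := Submodule.mem_span_singleton.mp hs
  obtain ⟨y, rfl⟩ := Submodule.mem_span_singleton.mp ht
  have hwv : B w' v = 0 := by rw [← hS.eq v w']; simpa using hvw
  have h1 : B (x • v + y • w') (x • v + y • w') = x ^ 2 - η * y ^ 2 := by
    simp only [map_add, map_smul, LinearMap.add_apply, LinearMap.smul_apply, smul_eq_mul, hv, hw,
      hvw, hwv]
    ring
  rw [h1] at h0
  have hy : y = 0 := by
    by_contra hy
    apply hη
    refine ⟨x / y, ?_⟩
    field_simp
    linear_combination -h0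
  rw [hy] at h0
  have hx : x = 0 := by
    have h2 : x ^ 2 = 0 := by linear_combination h0
    exact pow_eq_zero_iff (by norm_num) |>.mp h2
  rw [hx, hy, zero_smul, zero_smul, add_zero]

-- PIECE ELLSUB
theorem ell_sub (p : ℕ) [Fact p.Prime] [CharP F p] (hS : B.IsSymm) (h2 : (2 : F) ≠ 0)
    (hhyp : ∀ K : Submodule F V, ND B K → ∀ w : ℕ, 2 * w + 1 ≤ finrank F K →
      ∃ W : Submodule F V, W ≤ K ∧ Hyp B W ∧ finrank F W = 2 * w)
    (htyp : ∀ W : Submodule F V, Hyp B W → 0 < finrank F W → Typ B W 1)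
    (hsum : ∀ (X Y : Submodule F V) (ε₁ ε₂ : ℤ), ND B X → ND B Y → Orth B X Y →
      Typ B X ε₁ → Typ B Y ε₂ → Typ B (X ⊔ Y) (ε₁ * ε₂))
    (hrep : ∀ K : Submodule F V, ND B K → 2 ≤ finrank F K → ∀ a : F, a ≠ 0 →
      ∃ v ∈ K, B v v = a)
    (K : Submodule F V) (hK : ND B K) (w : ℕ) (hw1 : 1 ≤ w) (hw : 2 * w + 1 ≤ finrank F K) :
    ∃ W : Submodule F V, W ≤ K ∧ ND B W ∧ finrank F W = 2 * w ∧ Typ B W (-1) := by
  classical
  -- a vector of norm one
  obtain ⟨v, hvK, hv⟩ := hrep K hK (by omega) 1 one_ne_zero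
  have hv0 : B v v ≠ 0 := by rw [hv]; exact one_ne_zero
  have hSnd : ND B (Submodule.span F {v}) := ellsub_nd_span v hv0
  have hSK : Submodule.span F {v} ≤ K := by
    rw [Submodule.span_singleton_le_iff_mem]
    exact hvK
  have hSfin : finrank F (Submodule.span F {v}) = 1 :=
    finrank_span_singleton (ellsub_ne_zero v hv0)
  obtain ⟨hK1, -, hK1fin⟩ := Cfsg.Agent.Lib.Helper98.O72.nd_rel hS h2 hSnd hK hSK
  -- a non-square
  have hchar : ringChar F ≠ 2 := by
    intro h
    apply h2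
    have h3 : ((ringChar F : ℕ) : F) = 0 := ringChar.Nat.cast_ringChar
    rw [h] at h3
    exact_mod_cast h3
  obtain ⟨η, hη⟩ := FiniteField.exists_nonsquare hchar
  have hη0 : η ≠ 0 := by
    rintro rfl
    exact hη ⟨0, by simp⟩
  obtain ⟨w', hw'K1, hw'⟩ := hrep _ hK1 (by omega) (-η) (neg_ne_zero.mpr hη0)
  have hw'0 : B w' w' ≠ 0 := by rw [hw']; exact neg_ne_zero.mpr hη0
  have hw'K : w' ∈ K := hw'K1.1
  have hvw : B v w' = 0 :=
    (mem_perp_iff.mp hw'K1.2) v (Submodule.mem_span_singleton_self v)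
  have hTnd : ND B (Submodule.span F {w'}) := ellsub_nd_span w' hw'0
  have hTfin : finrank F (Submodule.span F {w'}) = 1 :=
    finrank_span_singleton (ellsub_ne_zero w' hw'0)
  have hTK : Submodule.span F {w'} ≤ K := by
    rw [Submodule.span_singleton_le_iff_mem]
    exact hw'K
  have hST : Orth B (Submodule.span F {v}) (Submodule.span F {w'}) := by
    intro s hs t ht
    obtain ⟨x, rfl⟩ := Submodule.mem_span_singleton.mp hs
    obtain ⟨y, rfl⟩ := Submodule.mem_span_singleton.mp ht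
    simp only [map_smul, LinearMap.smul_apply, smul_eq_mul, hvw, mul_zero]
  obtain ⟨hAnd, hAfin⟩ := Cfsg.Agent.Lib.Helper98.O72.nd_sup hS h2 hSnd hTnd hST
  rw [hSfin, hTfin] at hAfin
  have hAK : Submodule.span F {v} ⊔ Submodule.span F {w'} ≤ K := sup_le hSK hTK
  -- the plane is elliptic
  have hAtyp : Typ B (Submodule.span F {v} ⊔ Submodule.span F {w'}) (-1) := by
    rcases typ_exists p hS h2 _ hAnd 0 (by rw [hAfin]) with h | h
    · exfalso
      obtain ⟨k, hk, hT⟩ := h
      have hk0 : k = 0 := by omega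
      subst hk0
      have hcard : Nat.card {a : ↥(Submodule.span F {v} ⊔ Submodule.span F {w'}) //
          B (a : V) (a : V) = 0} = 1 := by
        rw [Nat.card_eq_one_iff_unique]
        refine ⟨⟨?_⟩, ⟨⟨0, by simp⟩⟩⟩
        rintro ⟨a, ha⟩ ⟨b, hb⟩
        have ha0 : (a : V) = 0 := ellsub_aniso hS v w' η hη hv hw' hvw a a.2 ha
        have hb0 : (b : V) = 0 := ellsub_aniso hS v w' η hη hv hw' hvw b b.2 hb
        apply Subtype.ext
        apply Subtype.ext
        rw [ha0, hb0]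
      have h1 := hT.1
      rw [hcard] at h1
      have hq : (2 : ℤ) ≤ (Fintype.card F : ℤ) := by exact_mod_cast Fintype.one_lt_card
      norm_num at h1
      omega
    · exact h
  by_cases hw2 : w = 1
  · subst hw2
    exact ⟨_, hAK, hAnd, by rw [hAfin], hAtyp⟩
  · obtain ⟨hK2, -, hK2fin⟩ := Cfsg.Agent.Lib.Helper98.O72.nd_rel hS h2 hAnd hK hAK
    rw [hAfin] at hK2fin
    obtain ⟨W', hW'K2, hW'hyp, hW'fin⟩ := hhyp _ hK2 (w - 1) (by omega)
    have hW'typ : Typ B W' 1 := htyp W' hW'hyp (by omega)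
    have hAW' : Orth B (Submodule.span F {v} ⊔ Submodule.span F {w'}) W' :=
      orth_iff_le_perp.mpr (hW'K2.trans inf_le_right)
    have hty := hsum _ W' (-1) 1 hAnd hW'hyp.1 hAW' hAtyp hW'typ
    rw [mul_one] at hty
    obtain ⟨hnd, hfin⟩ := Cfsg.Agent.Lib.Helper98.O72.nd_sup hS h2 hAnd hW'hyp.1 hAW'
    refine ⟨_, sup_le hAK (hW'K2.trans inf_le_left), hnd, ?_, hty⟩
    rw [hfin, hAfin, hW'fin]
    omega

end Abstract

end Cfsg.Agent.Lib.Helper54.Hy
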