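import Mathlib
import Cfsg.Agent.Lib.Helper72.JMExt
import Cfsg.Agent.Lib.Helper41.Cores
import Cfsg.Agent.S0616

/-! Project JM (helper72, S2942/S2943), piece JM-EXTM2 (helper54): the normal subgroup of order 3
attached to a minimal nontrivially acting best offender (from the FF structure theorem S0616,
`p = 2`). -/

set_option autoImplicit false

namespace Cfsg.Agent.Lib.Helper54.JM

open Cfsg.Agent.Lib.Helper72.JM Cfsg.Agent.Lib.Helper72.JL Cfsg.Agent.Lib.Helper72.SC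

open scoped commutatorElement

universe u

theorem extm2_card_SL22 : Nat.card (Matrix.SpecialLinearGroup (Fin 2) (ZMod 2)) = 6 := by
  rw [Nat.card_eq_fintype_card]
  decide +kernel

theorem extm2_pPrimeCore_normal {G : Type*} [Group G] (p : ℕ) : (Cfsg.pPrimeCore p G).Normal :=
  Subgroup.sSup_normal _ (fun _ hN => hN.1)

theorem extm2_le_normalizer {G : Type*} [Group G] (K M : Subgroup G)
    (h : ∀ g ∈ K, ∀ m ∈ M, g * m * g⁻¹ ∈ M) : K ≤ Subgroup.normalizer (M : Set G) := by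
  intro g hg
  rw [Subgroup.mem_normalizer_iff]
  intro x
  constructor
  · exact h g hg x
  · intro hx
    have h1 := h g⁻¹ (K.inv_mem hg) _ hx
    have h2 : g⁻¹ * (g * x * g⁻¹) * g⁻¹⁻¹ = x := by group
    rw [h2] at h1
    exact h1

/-- the elements of `H` commuting with `b` modulo the `H`-invariant subgroup `M` -/
def extm2_S {G : Type*} [Group G] (H M : Subgroup G) (b : G)
    (hHn : ∀ h ∈ H, ∀ m ∈ M, h * m * h⁻¹ ∈ M) : Subgroup G where
  carrier := {x | x ∈ H ∧ x * b * x⁻¹ * b⁻¹ ∈ M}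
  one_mem' := by
    refine ⟨H.one_mem, ?_⟩
    have h1 : (1 : G) * b * 1⁻¹ * b⁻¹ = 1 := by group
    rw [h1]
    exact M.one_mem
  mul_mem' := by
    rintro x y ⟨hx, hxm⟩ ⟨hy, hym⟩
    refine ⟨H.mul_mem hx hy, ?_⟩
    have h1 : x * y * b * (x * y)⁻¹ * b⁻¹
        = (x * (y * b * y⁻¹ * b⁻¹) * x⁻¹) * (x * b * x⁻¹ * b⁻¹) := by group
    rw [h1]
    exact M.mul_mem (hHn x hx _ hym) hxm
  inv_mem' := by
    rintro x ⟨hx, hxm⟩
    refine ⟨H.inv_mem hx, ?_⟩
    have h1 : x⁻¹ * b * x⁻¹⁻¹ * b⁻¹ = x⁻¹ * (x * b * x⁻¹ * b⁻¹)⁻¹ * x⁻¹⁻¹ := by group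
    rw [h1]
    exact hHn x⁻¹ (H.inv_mem hx) _ (M.inv_mem hxm)

theorem extm2_mem_S {G : Type*} [Group G] (H M : Subgroup G) (b : G)
    (hHn : ∀ h ∈ H, ∀ m ∈ M, h * m * h⁻¹ ∈ M) (x : G) :
    x ∈ extm2_S H M b hHn ↔ x ∈ H ∧ x * b * x⁻¹ * b⁻¹ ∈ M := Iff.rfl

theorem extm2 : Extm2Stmt.{u} := by
  intro G _ _ V H hV hHV hf hS1 hS3 B hBH hB hVB hmin
  classical
  have hBbot : B ≠ ⊥ := by
    rintro rfl
    exact hVB (Subgroup.commutator_bot_right V)
  have hH1 : H ≠ ⊥ := by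
    rintro rfl
    exact hBbot (le_bot_iff.mp hBH)
  have : Fact (Nat.Prime 2) := ⟨Nat.prime_two⟩
  have key := Cfsg.Agent.S0616.result (p := 2) V H hV hHV hf hS1 hS3 hH1 B hBH hB hVB hmin
  generalize hKH : (Cfsg.pPrimeCore 2 ↥H).map H.subtype = KH at key
  generalize hM : ⁅KH, B⁆ = M at key
  generalize hE : M ⊔ B = E at key
  generalize hC : H ⊓ Subgroup.centralizer ((⁅V, E⁆ : Subgroup G) : Set G) = C at key
  obtain ⟨-, ⟨e⟩, -, -, -, hEC, -, hsup, -⟩ := key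
  have hE6 : Nat.card ↥E = 6 := by rw [Nat.card_congr e.toEquiv, extm2_card_SL22]
  have hKHle : KH ≤ H := by rw [← hKH]; exact Subgroup.map_subtype_le _
  have hKHn : ∀ h ∈ H, ∀ k ∈ KH, h * k * h⁻¹ ∈ KH := by
    intro h hh k hk
    rw [← hKH] at hk ⊢
    obtain ⟨k', hk', rfl⟩ := hk
    exact ⟨⟨h, hh⟩ * k' * ⟨h, hh⟩⁻¹,
      (extm2_pPrimeCore_normal 2).conj_mem k' hk' ⟨h, hh⟩, rfl⟩
  have hKHodd : (Nat.card ↥KH).Coprime 2 := by
    rw [← hKH]
    have h1 : Nat.card ↥((Cfsg.pPrimeCore 2 ↥H).map H.subtype)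
        = Nat.card ↥(Cfsg.pPrimeCore 2 ↥H) :=
      Subgroup.card_map_of_injective (Subgroup.subtype_injective H)
    rw [h1]
    exact Cfsg.Agent.Lib.Helper41.card_pPrimeCore_coprime 2
  have hMKH : M ≤ KH := by
    rw [← hM, Subgroup.commutator_le]
    intro k hk b hb
    have h1 : b * k⁻¹ * b⁻¹ ∈ KH := hKHn b (hBH hb) k⁻¹ (KH.inv_mem hk)
    have h2 : ⁅k, b⁆ = k * (b * k⁻¹ * b⁻¹) := by rw [commutatorElement_def]; group
    rw [h2]
    exact KH.mul_mem hk h1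
  have hMH : M ≤ H := hMKH.trans hKHle
  have hME : M ≤ E := by rw [← hE]; exact le_sup_left
  have hBE : B ≤ E := by rw [← hE]; exact le_sup_right
  have hBsq : ∀ b ∈ B, b * b = 1 := by
    intro b hb
    have h1 : b ^ 2 ∈ H ⊓ Subgroup.centralizer (V : Set G) :=
      ⟨H.pow_mem (hBH hb) 2, hB.2.2 b hb⟩
    rw [hf, Subgroup.mem_bot] at h1
    rw [← pow_two]
    exact h1
  have hB2 : IsPGroup 2 ↥B := by
    intro b
    refine ⟨1, Subtype.ext ?_⟩
    rw [pow_one, Subgroup.coe_pow, Subgroup.coe_one, pow_two]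
    exact hBsq b.1 b.2
  have hMdvd : Nat.card ↥M ∣ 6 := by rw [← hE6]; exact Subgroup.card_dvd_of_le hME
  have hMcop : (Nat.card ↥M).Coprime 2 :=
    Nat.Coprime.coprime_dvd_left (Subgroup.card_dvd_of_le hMKH) hKHodd
  have h13 : Nat.card ↥M = 1 ∨ Nat.card ↥M = 3 := by
    obtain ⟨c, hc⟩ : ∃ c, c = Nat.card ↥M := ⟨_, rfl⟩
    rw [← hc] at hMdvd hMcop ⊢
    have hle : c ≤ 6 := Nat.le_of_dvd (by norm_num) hMdvd
    clear hc
    interval_cases c
    all_goals first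
      | (left; rfl)
      | (right; rfl)
      | (exfalso; revert hMdvd hMcop; decide)
  have hM3 : Nat.card ↥M = 3 := by
    rcases h13 with h1 | h3
    · exfalso
      have hMbot : M = ⊥ := Subgroup.card_eq_one.mp h1
      have hEB : E = B := by rw [← hE, hMbot, bot_sup_eq]
      rw [hEB] at hE6
      obtain ⟨n, hn⟩ := IsPGroup.iff_card.mp hB2
      rw [hE6] at hn
      have h23 : n ≤ 2 ∨ 3 ≤ n := by omega
      rcases h23 with h | h
      · interval_cases n <;> omega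
      · have h8 : 2 ^ 3 ≤ 2 ^ n := Nat.pow_le_pow_right (by norm_num) h
        omega
    · exact h3
  have hidx : (M.subgroupOf E).index = 2 := by
    have h1 : Nat.card ↥(M.subgroupOf E) * (M.subgroupOf E).index = Nat.card ↥E :=
      Subgroup.card_mul_index _
    have h2 : Nat.card ↥(M.subgroupOf E) = Nat.card ↥M :=
      Nat.card_congr (Subgroup.subgroupOfEquivOfLe hME).toEquiv
    rw [h2, hM3, hE6] at h1
    omega
  have hMEn : (M.subgroupOf E).Normal := Subgroup.normal_of_index_eq_two hidx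
  have hEnorm : ∀ g ∈ E, ∀ m ∈ M, g * m * g⁻¹ ∈ M := by
    intro g hg m hm
    have h1 := hMEn.conj_mem ⟨m, hME hm⟩ (by rw [Subgroup.mem_subgroupOf]; exact hm) ⟨g, hg⟩
    rw [Subgroup.mem_subgroupOf] at h1
    exact h1
  have hEcent : E ≤ Subgroup.centralizer (C : Set G) :=
    Subgroup.commutator_eq_bot_iff_le_centralizer.mp hEC
  have hcomm : ∀ x ∈ E, ∀ c ∈ C, c * x = x * c := fun x hx c hc =>
    (Subgroup.mem_centralizer_iff.mp (hEcent hx)) c hc
  have hCH : C ≤ H := by rw [← hC]; exact inf_le_left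
  have hCnorm : ∀ c ∈ C, ∀ m ∈ M, c * m * c⁻¹ ∈ M := by
    intro c hc m hm
    have h1 := hcomm m (hME hm) c hc
    have h2 : c * m * c⁻¹ = m := by rw [h1, mul_inv_cancel_right]
    rw [h2]
    exact hm
  have hHnorm : H ≤ Subgroup.normalizer (M : Set G) := by
    rw [← hsup]
    exact sup_le (extm2_le_normalizer E M hEnorm) (extm2_le_normalizer C M hCnorm)
  have hHn : ∀ h ∈ H, ∀ m ∈ M, h * m * h⁻¹ ∈ M := by
    intro h hh m hm
    exact (Subgroup.mem_normalizer_iff.mp (hHnorm hh) m).mp hm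
  refine ⟨M, hMH, hHn, hM3, ?_⟩
  intro h hh b hb
  have hMS : M ≤ extm2_S H M b hHn := by
    intro m hm
    rw [extm2_mem_S]
    refine ⟨hMH hm, ?_⟩
    have h1 : m * b * m⁻¹ * b⁻¹ = m * (b * m⁻¹ * b⁻¹) := by group
    rw [h1]
    exact M.mul_mem hm (hHn b (hBH hb) _ (M.inv_mem hm))
  have hBS : B ≤ extm2_S H M b hHn := by
    intro b' hb'
    rw [extm2_mem_S]
    refine ⟨hBH hb', ?_⟩
    have h1 := hBsq b' hb'
    have h2 := hBsq b hb
    have h3 := hBsq (b' * b) (B.mul_mem hb' hb)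
    have e1 : b'⁻¹ = b' := inv_eq_of_mul_eq_one_left h1
    have e2 : b⁻¹ = b := inv_eq_of_mul_eq_one_left h2
    have h4 : b' * b * b'⁻¹ * b⁻¹ = 1 := by
      rw [e1, e2, mul_assoc (b' * b)]
      exact h3
    rw [h4]
    exact M.one_mem
  have hCS : C ≤ extm2_S H M b hHn := by
    intro c hc
    rw [extm2_mem_S]
    refine ⟨hCH hc, ?_⟩
    have h1 := hcomm b (hBE hb) c hc
    have h2 : c * b * c⁻¹ * b⁻¹ = 1 := by rw [h1]; group
    rw [h2]
    exact M.one_mem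
  have hES : E ≤ extm2_S H M b hHn := by
    rw [← hE]
    exact sup_le hMS hBS
  have hHS : E ⊔ C ≤ extm2_S H M b hHn := sup_le hES hCS
  rw [hsup] at hHS
  exact ((extm2_mem_S H M b hHn h).mp (hHS hh)).2

end Cfsg.Agent.Lib.Helper54.JM
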