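import Mathlib
import Cfsg.Prelude.Def_GeometricClasses
import Cfsg.Prelude.Def_Classical
import Cfsg.Agent.Lib.Helper87.OStdO
import Cfsg.Agent.Lib.Helper98.OrthNM2

/-!
# S5981 piece SIMODD (helper54): in odd dimension `2m+1` over a finite field of odd
characteristic every non-degenerate quadratic form is similar to `quadFormOdd m`.
-/

set_option autoImplicit false

namespace Cfsg.Agent.Lib.Helper54.Oq

/-- the diagonal rescaling: the `Unit` coordinate and the `inl` coordinates are multiplied by `c` -/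
noncomputable def simOddD {F : Type*} [Field F] (m : ℕ) (c : Fˣ) :
    (Unit ⊕ (Fin m ⊕ Fin m) → F) ≃ₗ[F] (Unit ⊕ (Fin m ⊕ Fin m) → F) :=
  LinearEquiv.piCongrRight (fun k : Unit ⊕ (Fin m ⊕ Fin m) =>
    LinearEquiv.smulOfUnit (Sum.elim (fun _ => c) (Sum.elim (fun _ => c) (fun _ => 1)) k))

theorem simOddD_inl {F : Type*} [Field F] (m : ℕ) (c : Fˣ) (w : Unit ⊕ (Fin m ⊕ Fin m) → F) :
    simOddD m c w (Sum.inl ()) = (c : F) * w (Sum.inl ()) := rfl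

theorem simOddD_inr_inl {F : Type*} [Field F] (m : ℕ) (c : Fˣ)
    (w : Unit ⊕ (Fin m ⊕ Fin m) → F) (i : Fin m) :
    simOddD m c w (Sum.inr (Sum.inl i)) = (c : F) * w (Sum.inr (Sum.inl i)) := rfl

theorem simOddD_inr_inr {F : Type*} [Field F] (m : ℕ) (c : Fˣ)
    (w : Unit ⊕ (Fin m ⊕ Fin m) → F) (i : Fin m) :
    simOddD m c w (Sum.inr (Sum.inr i)) = w (Sum.inr (Sum.inr i)) := by
  show ((1 : Fˣ) : F) * w (Sum.inr (Sum.inr i)) = _
  rw [Units.val_one, one_mul]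

theorem sim_odd {F : Type*} [Field F] [Fintype F] (h2 : (2 : F) ≠ 0) (n m : ℕ)
    (hn : n = 2 * m + 1) (Q : (Fin n → F) → F) (hQ : Cfsg.Geo.IsNondegenerateQuadraticForm Q) :
    ∃ (L : (Fin n → F) ≃ₗ[F] (Unit ⊕ (Fin m ⊕ Fin m) → F)) (c : F), c ≠ 0 ∧
      ∀ v, Cfsg.quadFormOdd m F (L v) = c * Q v := by
  obtain ⟨L₀, c₀, hc₀, hL₀⟩ := Cfsg.Agent.Lib.Helper87.OStdO.std_odd h2
    (Cfsg.Agent.Lib.Helper98.qfOf Q hQ) (Cfsg.Agent.Lib.Helper98.qfOf_nondegenerate Q hQ) m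
    (by rw [Fintype.card_fin, hn])
  refine ⟨L₀.trans (simOddD m (Units.mk0 c₀ hc₀)), c₀, hc₀, fun v => ?_⟩
  have hQv : Q v = c₀ * (L₀ v (Sum.inl ())) ^ 2
      + ∑ i : Fin m, L₀ v (Sum.inr (Sum.inl i)) * L₀ v (Sum.inr (Sum.inr i)) := by
    rw [← hL₀ v, Cfsg.Agent.Lib.Helper98.coe_qfOf]
  rw [hQv]
  unfold Cfsg.quadFormOdd
  rw [LinearEquiv.trans_apply, simOddD_inl, Units.val_mk0, mul_add, Finset.mul_sum]
  congr 1
  · ring
  · apply Finset.sum_congr rfl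
    intro i _
    rw [simOddD_inr_inl, simOddD_inr_inr, Units.val_mk0]
    ring

end Cfsg.Agent.Lib.Helper54.Oq
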