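import Cfsg.Agent.Lib.Helper54.Qd3

set_option autoImplicit false

namespace Cfsg.Agent.Lib.Helper54

open Cfsg Matrix

section basics

variable {F : Type*} [Field F]

/-- The underlying matrix of an element of `SL₂(F)`. -/
abbrev smat (B : Matrix.SpecialLinearGroup (Fin 2) F) : Matrix (Fin 2) (Fin 2) F :=
  (B : Matrix (Fin 2) (Fin 2) F)

theorem smat_mul (A B : Matrix.SpecialLinearGroup (Fin 2) F) : smat (A * B) = smat A * smat B :=
  rfl

theorem smat_mul_00 (A B : Matrix.SpecialLinearGroup (Fin 2) F) :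
    smat (A * B) 0 0 = smat A 0 0 * smat B 0 0 + smat A 0 1 * smat B 1 0 := by
  rw [smat_mul, Matrix.mul_apply, Fin.sum_univ_two]

theorem smat_mul_01 (A B : Matrix.SpecialLinearGroup (Fin 2) F) :
    smat (A * B) 0 1 = smat A 0 0 * smat B 0 1 + smat A 0 1 * smat B 1 1 := by
  rw [smat_mul, Matrix.mul_apply, Fin.sum_univ_two]

theorem smat_mul_10 (A B : Matrix.SpecialLinearGroup (Fin 2) F) :
    smat (A * B) 1 0 = smat A 1 0 * smat B 0 0 + smat A 1 1 * smat B 1 0 := by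
  rw [smat_mul, Matrix.mul_apply, Fin.sum_univ_two]

theorem smat_mul_11 (A B : Matrix.SpecialLinearGroup (Fin 2) F) :
    smat (A * B) 1 1 = smat A 1 0 * smat B 0 1 + smat A 1 1 * smat B 1 1 := by
  rw [smat_mul, Matrix.mul_apply, Fin.sum_univ_two]

/-- An explicit element of `SL₂(F)`. -/
def mk2 (a b c d : F) (h : a * d - b * c = 1) : Matrix.SpecialLinearGroup (Fin 2) F :=
  ⟨!![a, b; c, d], by rw [Matrix.det_fin_two_of]; exact h⟩

theorem mk2_00 (a b c d : F) (h : a * d - b * c = 1) : smat (mk2 a b c d h) 0 0 = a := rfl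
theorem mk2_01 (a b c d : F) (h : a * d - b * c = 1) : smat (mk2 a b c d h) 0 1 = b := rfl
theorem mk2_10 (a b c d : F) (h : a * d - b * c = 1) : smat (mk2 a b c d h) 1 0 = c := rfl
theorem mk2_11 (a b c d : F) (h : a * d - b * c = 1) : smat (mk2 a b c d h) 1 1 = d := rfl

/-- The upper unitriangular element. -/
def u2 (b : F) : Matrix.SpecialLinearGroup (Fin 2) F := mk2 1 b 0 1 (by ring)

theorem u2_00 (b : F) : smat (u2 b) 0 0 = 1 := rfl
theorem u2_01 (b : F) : smat (u2 b) 0 1 = b := rfl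
theorem u2_10 (b : F) : smat (u2 b) 1 0 = 0 := rfl
theorem u2_11 (b : F) : smat (u2 b) 1 1 = 1 := rfl

theorem blockLift_u2 (b : F) : blockLift (u2 b) = uu b := by
  apply amat_ext <;> rfl

theorem u2_injective {b b' : F} (h : u2 b = u2 b') : b = b' := by
  have := congrArg (fun B => smat B 0 1) h
  exact this

theorem u2_mul (b b' : F) : u2 b * u2 b' = u2 (b + b') := by
  apply blockLift_injective
  rw [map_mul, blockLift_u2, blockLift_u2, blockLift_u2, uu_mul]

theorem u2_zero : u2 (0 : F) = 1 := by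
  apply blockLift_injective
  rw [blockLift_u2, uu_zero, map_one]

theorem u2_inv (b : F) : (u2 b)⁻¹ = u2 (-b) := by
  rw [inv_eq_iff_mul_eq_one, u2_mul, add_neg_cancel, u2_zero]

/-- The upper unitriangular subgroup of `SL₂(F)`. -/
def U2 (F : Type*) [Field F] : Subgroup (Matrix.SpecialLinearGroup (Fin 2) F) :=
  (P0 F).comap blockLift

theorem mem_U2 (B : Matrix.SpecialLinearGroup (Fin 2) F) :
    B ∈ U2 F ↔ smat B 0 0 = 1 ∧ smat B 1 0 = 0 ∧ smat B 1 1 = 1 := Iff.rfl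

theorem u2_mem (b : F) : u2 b ∈ U2 F := ⟨rfl, rfl, rfl⟩

theorem eq_u2_of_mem {B : Matrix.SpecialLinearGroup (Fin 2) F} (hB : B ∈ U2 F) :
    B = u2 (smat B 0 1) := by
  obtain ⟨h00, h10, h11⟩ := (mem_U2 B).1 hB
  apply sl2_ext
  · exact h00
  · rfl
  · exact h10
  · exact h11

theorem mem_U2_iff (B : Matrix.SpecialLinearGroup (Fin 2) F) : B ∈ U2 F ↔ ∃ b, B = u2 b :=
  ⟨fun h => ⟨_, eq_u2_of_mem h⟩, fun ⟨b, hb⟩ => hb ▸ u2_mem b⟩

/-- Upper triangular matrices normalize `U2`. -/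
theorem borel_mem_normalizer_U2 {B : Matrix.SpecialLinearGroup (Fin 2) F} (h : smat B 1 0 = 0) :
    B ∈ Subgroup.normalizer ((U2 F : Subgroup (Matrix.SpecialLinearGroup (Fin 2) F)) :
      Set (Matrix.SpecialLinearGroup (Fin 2) F)) := by
  have h1 : blockLift B ∈ Subgroup.normalizer ((P0 F : Subgroup ↥(affSub F)) : Set ↥(affSub F)) :=
    borel_le_normalizer (by exact h)
  exact Subgroup.le_normalizer_comap blockLift h1

end basics

section sylow

variable {F : Type*} [Field F] {p : ℕ} [Fact p.Prime] [CharP F p]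

/-- The unitriangular subgroup as a Sylow `p`-subgroup of `SL₂(F)`. -/
def U2Sylow (F : Type*) [Field F] (p : ℕ) [Fact p.Prime] [CharP F p] :
    Sylow p (Matrix.SpecialLinearGroup (Fin 2) F) where
  toSubgroup := U2 F
  isPGroup' := (P0_isPGroup (F := F) (p := p)).comap_of_injective blockLift blockLift_injective
  is_maximal' := fun {Q} hQ hle => le_antisymm (fun B hB => by
    have h1 : Q.map blockLift ≤ P0 F :=
      le_P0_of_uu_mem (hQ.map blockLift) ⟨u2 1, hle (u2_mem 1), blockLift_u2 1⟩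
    exact h1 ⟨B, hB, rfl⟩) hle

/-- Two Sylow subgroups of a finite group are conjugate (subgroup form). -/
theorem sylow_conj {G : Type*} [Group G] [Finite G] (P Q : Sylow p G) :
    ∃ g : G, (Q : Subgroup G) = (P : Subgroup G).map (MulAut.conj g).toMonoidHom := by
  obtain ⟨g, hg⟩ := MulAction.exists_smul_eq G P Q
  refine ⟨g, ?_⟩
  rw [← hg]
  ext x
  constructor
  · intro hx
    rw [Sylow.coe_subgroup_smul] at hx
    obtain ⟨z, hz, rfl⟩ := hx
    exact ⟨z, hz, by simp⟩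
  · rintro ⟨z, hz, rfl⟩
    rw [Sylow.coe_subgroup_smul]
    exact ⟨z, hz, by simp⟩

end sylow

/-- Coordinates for a natural `SL₂`-module situation: `V` is the plane `F²` (via `vv`), `L` is
`SL₂(F)` (via `lel`), acting naturally, and `T` is the image of the unitriangular group. -/
structure SL2Model (F : Type*) [Field F] {G : Type*} [Group G] (V L T : Subgroup G) where
  /-- the vector with given coordinates -/
  vv : F → F → G
  /-- the element of `L` with given matrix -/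
  lel : Matrix.SpecialLinearGroup (Fin 2) F →* G
  vv_mem : ∀ x y, vv x y ∈ V
  vv_surj : ∀ v ∈ V, ∃ x y, v = vv x y
  vv_inj : ∀ x y x' y', vv x y = vv x' y' → x = x' ∧ y = y'
  vv_mul : ∀ x y x' y', vv x y * vv x' y' = vv (x + x') (y + y')
  lel_range : lel.range = L
  lel_inj : Function.Injective lel
  conj : ∀ B x y, lel B * vv x y * (lel B)⁻¹ =
    vv (smat B 0 0 * x + smat B 0 1 * y) (smat B 1 0 * x + smat B 1 1 * y)
  T_eq : T = (U2 F).map lel

section exists_model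

variable {F : Type*} [Field F] {p : ℕ} [Fact p.Prime] [CharP F p]

theorem exists_model {G : Type*} [Group G] [Finite G] [Finite F]
    (V L : Subgroup G) (hnat : IsNaturalSL2Module F V L)
    (hf : L ⊓ Subgroup.centralizer (V : Set G) = ⊥)
    (S : Sylow p ↥L) (T : Subgroup G) (hT : T = (S : Subgroup ↥L).map L.subtype) :
    Nonempty (SL2Model F V L T) := by
  obtain ⟨hLN, ρ, ψ, hsurj, hker, hact⟩ := hnat
  have hinj : Function.Injective ρ := by
    rw [← MonoidHom.ker_eq_bot_iff, hker, Subgroup.subgroupOf_eq_bot, disjoint_iff, inf_comm]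
    exact hf
  let ρe : ↥L ≃* Matrix.SpecialLinearGroup (Fin 2) F := MulEquiv.ofBijective ρ ⟨hinj, hsurj⟩
  have hρe : ∀ l, ρe l = ρ l := fun _ => rfl
  have hfin : Finite (Matrix.SpecialLinearGroup (Fin 2) F) := by
    have := Fintype.ofFinite F
    infer_instance
  obtain ⟨g, hg⟩ := sylow_conj (U2Sylow F p) (S.mapSurjective hsurj)
  have hg' : (S : Subgroup ↥L).map ρ = (U2 F).map (MulAut.conj g).toMonoidHom := hg
  have hgg : ∀ w : Fin 2 → F, ((g⁻¹ : Matrix.SpecialLinearGroup (Fin 2) F) :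
      Matrix (Fin 2) (Fin 2) F) *ᵥ ((g : Matrix (Fin 2) (Fin 2) F) *ᵥ w) = w := by
    intro w
    rw [Matrix.mulVec_mulVec, ← Matrix.SpecialLinearGroup.coe_mul, inv_mul_cancel,
      Matrix.SpecialLinearGroup.coe_one, Matrix.one_mulVec]
  have hgg' : ∀ w : Fin 2 → F, (g : Matrix (Fin 2) (Fin 2) F) *ᵥ
      (((g⁻¹ : Matrix.SpecialLinearGroup (Fin 2) F) : Matrix (Fin 2) (Fin 2) F) *ᵥ w) = w := by
    intro w
    rw [Matrix.mulVec_mulVec, ← Matrix.SpecialLinearGroup.coe_mul, mul_inv_cancel,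
      Matrix.SpecialLinearGroup.coe_one, Matrix.one_mulVec]
  refine ⟨{
    vv := fun x y => ((Additive.toMul (ψ.symm ((g : Matrix (Fin 2) (Fin 2) F) *ᵥ ![x, y])) : ↥V) : G)
    lel := L.subtype.comp (ρe.symm.toMonoidHom.comp (MulAut.conj g).toMonoidHom)
    vv_mem := fun x y => (Additive.toMul (ψ.symm _)).2
    vv_surj := ?_
    vv_inj := ?_
    vv_mul := ?_
    lel_range := ?_
    lel_inj := ?_
    conj := ?_
    T_eq := ?_ }⟩
  · intro v hv
    refine ⟨(((g⁻¹ : Matrix.SpecialLinearGroup (Fin 2) F) : Matrix (Fin 2) (Fin 2) F) *ᵥ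
      ψ (Additive.ofMul ⟨v, hv⟩)) 0, (((g⁻¹ : Matrix.SpecialLinearGroup (Fin 2) F) :
      Matrix (Fin 2) (Fin 2) F) *ᵥ ψ (Additive.ofMul ⟨v, hv⟩)) 1, ?_⟩
    have ha : ∀ a : Fin 2 → F, ![a 0, a 1] = a := by
      intro a
      ext i
      fin_cases i <;> rfl
    rw [ha, hgg', AddEquiv.symm_apply_apply]
    rfl
  · intro x y x' y' h
    have h1 : ψ.symm ((g : Matrix (Fin 2) (Fin 2) F) *ᵥ ![x, y]) =
        ψ.symm ((g : Matrix (Fin 2) (Fin 2) F) *ᵥ ![x', y']) := by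
      apply Additive.toMul.injective
      exact Subtype.ext h
    have h2 := ψ.symm.injective h1
    have h3 := congrArg (fun w => ((g⁻¹ : Matrix.SpecialLinearGroup (Fin 2) F) :
      Matrix (Fin 2) (Fin 2) F) *ᵥ w) h2
    simp only [hgg] at h3
    exact ⟨congrFun h3 0, congrFun h3 1⟩
  · intro x y x' y'
    have e : ![x + x', y + y'] = ![x, y] + ![x', y'] := by
      ext i
      fin_cases i <;> rfl
    rw [e, Matrix.mulVec_add, map_add]
    rfl
  · ext x
    constructor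
    · rintro ⟨B, rfl⟩
      exact (ρe.symm (g * B * g⁻¹)).2
    · intro hx
      refine ⟨g⁻¹ * ρe ⟨x, hx⟩ * g, ?_⟩
      show ((ρe.symm (g * (g⁻¹ * ρe ⟨x, hx⟩ * g) * g⁻¹) : ↥L) : G) = x
      have : g * (g⁻¹ * ρe ⟨x, hx⟩ * g) * g⁻¹ = ρe ⟨x, hx⟩ := by group
      rw [this, ρe.symm_apply_apply]
  · intro B B' h
    have h1 : ρe.symm (g * B * g⁻¹) = ρe.symm (g * B' * g⁻¹) := Subtype.ext h
    have h2 := ρe.symm.injective h1
    exact mul_left_cancel (mul_right_cancel h2)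
  · intro B x y
    obtain ⟨w, hw1, hw2⟩ := hact (ρe.symm (g * B * g⁻¹))
      (Additive.toMul (ψ.symm ((g : Matrix (Fin 2) (Fin 2) F) *ᵥ ![x, y])))
    have e1 : ρ (ρe.symm (g * B * g⁻¹)) = g * B * g⁻¹ := ρe.apply_symm_apply _
    have e2 : ψ (Additive.ofMul (Additive.toMul (ψ.symm ((g : Matrix (Fin 2) (Fin 2) F) *ᵥ
        ![x, y])))) = (g : Matrix (Fin 2) (Fin 2) F) *ᵥ ![x, y] := ψ.apply_symm_apply _
    have e3 : ((g * B * g⁻¹ : Matrix.SpecialLinearGroup (Fin 2) F) :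
        Matrix (Fin 2) (Fin 2) F) *ᵥ ((g : Matrix (Fin 2) (Fin 2) F) *ᵥ ![x, y]) =
        (g : Matrix (Fin 2) (Fin 2) F) *ᵥ
          ![smat B 0 0 * x + smat B 0 1 * y, smat B 1 0 * x + smat B 1 1 * y] := by
      rw [Matrix.mulVec_mulVec, ← Matrix.SpecialLinearGroup.coe_mul, inv_mul_cancel_right,
        Matrix.SpecialLinearGroup.coe_mul, ← Matrix.mulVec_mulVec, mulVec_two]
    rw [e1, e2] at hw2
    change ψ (Additive.ofMul w) = ((g * B * g⁻¹ : Matrix.SpecialLinearGroup (Fin 2) F) :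
        Matrix (Fin 2) (Fin 2) F) *ᵥ ((g : Matrix (Fin 2) (Fin 2) F) *ᵥ ![x, y]) at hw2
    rw [e3] at hw2
    have e4 : Additive.ofMul w = ψ.symm ((g : Matrix (Fin 2) (Fin 2) F) *ᵥ
          ![smat B 0 0 * x + smat B 0 1 * y, smat B 1 0 * x + smat B 1 1 * y]) := by
      rw [← hw2, AddEquiv.symm_apply_apply]
    rw [← e4]
    exact hw1.symm
  · rw [hT]
    have hS : (S : Subgroup ↥L) =
        ((U2 F).map (MulAut.conj g).toMonoidHom).map ρe.symm.toMonoidHom := by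
      rw [← hg']
      ext x
      constructor
      · intro hx
        exact ⟨ρ x, ⟨x, hx, rfl⟩, ρe.symm_apply_apply x⟩
      · rintro ⟨y, ⟨z, hz, rfl⟩, rfl⟩
        have : ρe.symm.toMonoidHom (ρ z) = z := ρe.symm_apply_apply z
        rw [this]
        exact hz
    rw [hS, Subgroup.map_map, Subgroup.map_map]
    rfl

end exists_model

namespace SL2Model

open scoped commutatorElement

variable {F : Type*} [Field F] {G : Type*} [Group G] {V L T : Subgroup G} (M : SL2Model F V L T)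

theorem vv_zero : M.vv 0 0 = 1 := by
  have h := M.vv_mul 0 0 0 0
  rw [add_zero] at h
  exact mul_left_cancel (h.trans (mul_one _).symm)

theorem vv_inv (x y : F) : (M.vv x y)⁻¹ = M.vv (-x) (-y) := by
  rw [inv_eq_iff_mul_eq_one, M.vv_mul, add_neg_cancel, add_neg_cancel, M.vv_zero]

theorem vv_eq_iff {x y x' y' : F} : M.vv x y = M.vv x' y' ↔ x = x' ∧ y = y' :=
  ⟨M.vv_inj x y x' y', fun ⟨h1, h2⟩ => by rw [h1, h2]⟩

theorem vv_pow (x y : F) (n : ℕ) : M.vv x y ^ n = M.vv (n * x) (n * y) := by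
  induction n with
  | zero => rw [pow_zero, Nat.cast_zero, zero_mul, zero_mul, M.vv_zero]
  | succ n ih =>
    rw [pow_succ, ih, M.vv_mul, Nat.cast_succ]
    congr 1 <;> ring

theorem lel_mem (B : Matrix.SpecialLinearGroup (Fin 2) F) : M.lel B ∈ L := by
  have h : M.lel B ∈ M.lel.range := ⟨B, rfl⟩
  exact M.lel_range.le h

theorem exists_lel {l : G} (hl : l ∈ L) : ∃ B, l = M.lel B := by
  obtain ⟨B, hB⟩ := M.lel_range.ge hl
  exact ⟨B, hB.symm⟩

theorem mem_T_iff (t : G) : t ∈ T ↔ ∃ b, t = M.lel (u2 b) := by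
  constructor
  · intro ht
    obtain ⟨B, hB, rfl⟩ := M.T_eq.le ht
    exact ⟨_, congrArg M.lel (eq_u2_of_mem hB)⟩
  · rintro ⟨b, rfl⟩
    exact M.T_eq.ge ⟨u2 b, u2_mem b, rfl⟩

theorem lel_u2_mem (b : F) : M.lel (u2 b) ∈ T := (M.mem_T_iff _).2 ⟨b, rfl⟩

theorem lel_mem_T_iff (B : Matrix.SpecialLinearGroup (Fin 2) F) : M.lel B ∈ T ↔ B ∈ U2 F := by
  constructor
  · intro ht
    obtain ⟨B', hB', h⟩ := M.T_eq.le ht
    rw [← M.lel_inj h]
    exact hB'
  · intro h
    exact M.T_eq.ge ⟨B, h, rfl⟩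

include M in
theorem T_le : T ≤ L := by
  intro t ht
  obtain ⟨b, rfl⟩ := (M.mem_T_iff t).1 ht
  exact M.lel_mem _

theorem lel_u2_eq_one_iff (b : F) : M.lel (u2 b) = 1 ↔ b = 0 := by
  constructor
  · intro h
    have h1 : M.lel (u2 b) = M.lel (u2 0) := by rw [h, u2_zero, map_one]
    exact u2_injective (M.lel_inj h1)
  · rintro rfl
    rw [u2_zero, map_one]

theorem conj_u2 (b x y : F) :
    M.lel (u2 b) * M.vv x y * (M.lel (u2 b))⁻¹ = M.vv (x + b * y) y := by
  rw [M.conj, u2_00, u2_01, u2_10, u2_11]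
  congr 1 <;> ring

theorem comm_u2 (b x y : F) :
    M.vv x y * M.lel (u2 b) * (M.vv x y)⁻¹ * (M.lel (u2 b))⁻¹ = M.vv (-(b * y)) 0 := by
  have e : M.vv x y * M.lel (u2 b) * (M.vv x y)⁻¹ * (M.lel (u2 b))⁻¹ =
      M.vv x y * (M.lel (u2 b) * (M.vv x y)⁻¹ * (M.lel (u2 b))⁻¹) := by group
  rw [e, M.vv_inv, M.conj_u2, M.vv_mul]
  congr 1 <;> ring

/-- The line fixed by `T`. -/
def V1 : Subgroup G where
  carrier := {v | ∃ x, v = M.vv x 0}
  mul_mem' := by
    rintro _ _ ⟨x, rfl⟩ ⟨x', rfl⟩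
    exact ⟨x + x', by rw [M.vv_mul, add_zero]⟩
  one_mem' := ⟨0, M.vv_zero.symm⟩
  inv_mem' := by
    rintro _ ⟨x, rfl⟩
    exact ⟨-x, by rw [M.vv_inv, neg_zero]⟩

theorem mem_V1 (v : G) : v ∈ M.V1 ↔ ∃ x, v = M.vv x 0 := Iff.rfl

theorem V1_le : M.V1 ≤ V := by
  rintro _ ⟨x, rfl⟩
  exact M.vv_mem x 0

theorem mem_centralizer_u2 (b x y : F) :
    M.vv x y ∈ Subgroup.centralizer ({M.lel (u2 b)} : Set G) ↔ b * y = 0 := by
  rw [Subgroup.mem_centralizer_iff]
  constructor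
  · intro h
    have h1 := h (M.lel (u2 b)) rfl
    have h2 : M.lel (u2 b) * M.vv x y * (M.lel (u2 b))⁻¹ = M.vv x y := by
      rw [h1, mul_inv_cancel_right]
    rw [M.conj_u2, M.vv_eq_iff] at h2
    linear_combination h2.1
  · intro h t ht
    rw [Set.mem_singleton_iff] at ht
    subst ht
    have h2 : M.lel (u2 b) * M.vv x y * (M.lel (u2 b))⁻¹ = M.vv x y := by
      rw [M.conj_u2, h, add_zero]
    exact mul_inv_eq_iff_eq_mul.1 h2

theorem V_inf_centralizer_u2 {b : F} (hb : b ≠ 0) :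
    V ⊓ Subgroup.centralizer ({M.lel (u2 b)} : Set G) = M.V1 := by
  ext v
  rw [Subgroup.mem_inf]
  constructor
  · rintro ⟨hv, hc⟩
    obtain ⟨x, y, rfl⟩ := M.vv_surj v hv
    rw [M.mem_centralizer_u2] at hc
    have hy : y = 0 := (mul_eq_zero.1 hc).resolve_left hb
    subst hy
    exact ⟨x, rfl⟩
  · rintro ⟨x, rfl⟩
    exact ⟨M.vv_mem x 0, (M.mem_centralizer_u2 b x 0).2 (mul_zero b)⟩

theorem V_inf_centralizer_T : V ⊓ Subgroup.centralizer (T : Set G) = M.V1 := by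
  ext v
  rw [Subgroup.mem_inf]
  constructor
  · rintro ⟨hv, hc⟩
    have h0 : v ∈ Subgroup.centralizer ({M.lel (u2 1)} : Set G) := by
      rw [Subgroup.mem_centralizer_iff] at hc ⊢
      intro t ht
      rw [Set.mem_singleton_iff] at ht
      subst ht
      exact hc _ (M.lel_u2_mem 1)
    have h1 : v ∈ V ⊓ Subgroup.centralizer ({M.lel (u2 1)} : Set G) :=
      Subgroup.mem_inf.2 ⟨hv, h0⟩
    rw [M.V_inf_centralizer_u2 one_ne_zero] at h1
    exact h1
  · rintro ⟨x, rfl⟩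
    refine ⟨M.vv_mem x 0, ?_⟩
    rw [Subgroup.mem_centralizer_iff]
    intro t ht
    obtain ⟨b, rfl⟩ := (M.mem_T_iff t).1 ht
    have := (M.mem_centralizer_u2 b x 0).2 (mul_zero b)
    rw [Subgroup.mem_centralizer_iff] at this
    exact this _ rfl

theorem V1_le_centralizer_T : M.V1 ≤ Subgroup.centralizer (T : Set G) := by
  rw [← M.V_inf_centralizer_T]
  exact inf_le_right

/-- `[V, T]` is the fixed line. -/
theorem comm_V_T : ⁅V, T⁆ = M.V1 := by
  apply le_antisymm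
  · rw [Subgroup.commutator_le]
    intro v hv t ht
    obtain ⟨x, y, rfl⟩ := M.vv_surj v hv
    obtain ⟨b, rfl⟩ := (M.mem_T_iff t).1 ht
    rw [commutatorElement_def, M.comm_u2]
    exact ⟨_, rfl⟩
  · rintro _ ⟨a, rfl⟩
    have h := Subgroup.commutator_mem_commutator (M.vv_mem 0 (-a)) (M.lel_u2_mem 1)
    rw [commutatorElement_def, M.comm_u2] at h
    have e : -(1 * -a) = a := by ring
    rwa [e] at h

theorem comm_V1_T : ⁅M.V1, T⁆ = ⊥ :=
  Subgroup.commutator_eq_bot_iff_le_centralizer.2 M.V1_le_centralizer_T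

theorem comm_V_zpowers {b : F} (hb : b ≠ 0) : ⁅V, Subgroup.zpowers (M.lel (u2 b))⁆ = M.V1 := by
  apply le_antisymm
  · rw [← M.comm_V_T]
    apply Subgroup.commutator_mono le_rfl
    rw [Subgroup.zpowers_le]
    exact M.lel_u2_mem b
  · rintro _ ⟨a, rfl⟩
    have h := Subgroup.commutator_mem_commutator (M.vv_mem 0 (-(a / b)))
      (Subgroup.mem_zpowers (M.lel (u2 b)))
    rw [commutatorElement_def, M.comm_u2] at h
    have e : -(b * -(a / b)) = a := by field_simp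
    rwa [e] at h

theorem closure_comm {v : G} (hv : v ∈ V) (hvT : v ∉ Subgroup.centralizer (T : Set G)) :
    Subgroup.closure {x : G | ∃ t ∈ T, x = v * t * v⁻¹ * t⁻¹} = M.V1 := by
  obtain ⟨x, y, rfl⟩ := M.vv_surj v hv
  have hy : y ≠ 0 := by
    rintro rfl
    exact hvT (M.V1_le_centralizer_T ⟨x, rfl⟩)
  apply le_antisymm
  · rw [Subgroup.closure_le]
    rintro _ ⟨t, ht, rfl⟩
    obtain ⟨b, rfl⟩ := (M.mem_T_iff t).1 ht
    rw [M.comm_u2]
    exact ⟨_, rfl⟩
  · rintro _ ⟨a, rfl⟩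
    apply Subgroup.subset_closure
    refine ⟨M.lel (u2 (-(a / y))), M.lel_u2_mem _, ?_⟩
    rw [M.comm_u2]
    congr 1
    field_simp

include M in
theorem card_V : Nat.card ↥V = Nat.card F ^ 2 := by
  have e : F × F ≃ ↥V := Equiv.ofBijective (fun q => ⟨M.vv q.1 q.2, M.vv_mem q.1 q.2⟩) (by
    constructor
    · rintro ⟨x, y⟩ ⟨x', y'⟩ h
      have := M.vv_inj x y x' y' (congrArg Subtype.val h)
      exact Prod.ext this.1 this.2
    · rintro ⟨v, hv⟩
      obtain ⟨x, y, rfl⟩ := M.vv_surj v hv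
      exact ⟨(x, y), rfl⟩)
  rw [← Nat.card_congr e, Nat.card_prod, pow_two]

theorem card_V1 : Nat.card ↥M.V1 = Nat.card F := by
  have e : F ≃ ↥M.V1 := Equiv.ofBijective (fun x => ⟨M.vv x 0, ⟨x, rfl⟩⟩) (by
    constructor
    · intro x x' h
      exact (M.vv_inj x 0 x' 0 (congrArg Subtype.val h)).1
    · rintro ⟨v, x, rfl⟩
      exact ⟨x, rfl⟩)
  rw [← Nat.card_congr e]

end SL2Model

end Cfsg.Agent.Lib.Helper54
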