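import Cfsg.Agent.Lib.Helper54.SL2Model

set_option autoImplicit false

namespace Cfsg.Agent.Lib.Helper54

open Cfsg Matrix

theorem mem_centralizer_map_conj {G : Type*} [Group G] (g v : G) (T : Subgroup G) :
    v ∈ Subgroup.centralizer ((T.map (MulAut.conj g).toMonoidHom : Subgroup G) : Set G) ↔
      g⁻¹ * v * g ∈ Subgroup.centralizer (T : Set G) := by
  rw [Subgroup.mem_centralizer_iff, Subgroup.mem_centralizer_iff]
  constructor
  · intro h t ht
    have h1 := h (g * t * g⁻¹) ⟨t, ht, rfl⟩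
    calc t * (g⁻¹ * v * g) = g⁻¹ * (g * t * g⁻¹ * v) * g := by group
      _ = g⁻¹ * (v * (g * t * g⁻¹)) * g := by rw [h1]
      _ = g⁻¹ * v * g * t := by group
  · rintro h _ ⟨t, ht, rfl⟩
    have h1 := h t ht
    show g * t * g⁻¹ * v = v * (g * t * g⁻¹)
    calc g * t * g⁻¹ * v = g * (t * (g⁻¹ * v * g)) * g⁻¹ := by group
      _ = g * (g⁻¹ * v * g * t) * g⁻¹ := by rw [h1]
      _ = v * (g * t * g⁻¹) := by group

section char

variable {F : Type*} [Field F] {p : ℕ} [Fact p.Prime] [CharP F p]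

/-- An element of `SL₂(F)` fixing a nonzero vector has `p`-th power `1`. -/
theorem sl2_pow_char_of_fix {B : Matrix.SpecialLinearGroup (Fin 2) F} {x y : F}
    (hxy : x ≠ 0 ∨ y ≠ 0) (h1 : smat B 0 0 * x + smat B 0 1 * y = x)
    (h2 : smat B 1 0 * x + smat B 1 1 * y = y) : B ^ p = 1 := by
  have hdet := sl2_det B
  have htr : smat B 0 0 + smat B 1 1 = 2 := by
    have key : (smat B 0 0 + smat B 1 1 - 2) * x = 0 ∧ (smat B 0 0 + smat B 1 1 - 2) * y = 0 := by
      constructor
      · linear_combination (-(smat B 1 1 - 1)) * h1 + smat B 0 1 * h2 + x * hdet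
      · linear_combination smat B 1 0 * h1 - (smat B 0 0 - 1) * h2 + y * hdet
    rcases hxy with hx | hy
    · have := (mul_eq_zero.1 key.1).resolve_right hx
      linear_combination this
    · have := (mul_eq_zero.1 key.2).resolve_right hy
      linear_combination this
  have hN : (smat B - 1) * (smat B - 1) = 0 := by
    have e11 : smat B 1 1 = 2 - smat B 0 0 := by linear_combination htr
    ext i j
    fin_cases i <;> fin_cases j <;>
      simp [Matrix.mul_apply, Fin.sum_univ_two, Matrix.one_apply, e11] <;>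
      first
        | linear_combination (-1 : F) * hdet + (smat B 0 0) * e11
        | ring
  have hNp : (smat B - 1) ^ p = 0 := by
    have hp2 : 2 ≤ p := (Fact.out : p.Prime).two_le
    obtain ⟨k, rfl⟩ := Nat.exists_eq_add_of_le hp2
    rw [pow_add, pow_two, hN, zero_mul]
  have e : smat B = (smat B - 1) + 1 := by abel
  have e2 : smat (B ^ p) = smat B ^ p := Matrix.SpecialLinearGroup.coe_pow B p
  apply Subtype.ext
  show smat (B ^ p) = (1 : Matrix (Fin 2) (Fin 2) F)
  rw [e2, e, add_pow_char_of_commute (p := p) (Commute.one_right _), hNp, one_pow, zero_add]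

end char

namespace SL2Model

variable {F : Type*} [Field F] {G : Type*} [Group G] {V L T : Subgroup G} (M : SL2Model F V L T)

theorem vv_comm (x y x' y' : F) : M.vv x y * M.vv x' y' = M.vv x' y' * M.vv x y := by
  rw [M.vv_mul, M.vv_mul, add_comm x, add_comm y]

theorem vv_mem_V1_iff (x y : F) : M.vv x y ∈ M.V1 ↔ y = 0 := by
  constructor
  · rintro ⟨x', h⟩
    exact (M.vv_inj _ _ _ _ h).2
  · rintro rfl
    exact ⟨x, rfl⟩

theorem lel_mem_normalizer {B : Matrix.SpecialLinearGroup (Fin 2) F} (h : smat B 1 0 = 0) :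
    M.lel B ∈ Subgroup.normalizer (T : Set G) := by
  have h1 : M.lel B ∈ Subgroup.normalizer (((U2 F).map M.lel : Subgroup G) : Set G) :=
    Subgroup.le_normalizer_map M.lel ⟨B, borel_mem_normalizer_U2 h, rfl⟩
  have e := M.T_eq
  rw [← e] at h1
  exact h1

theorem conj_inv (B : Matrix.SpecialLinearGroup (Fin 2) F) (x y : F) :
    (M.lel B)⁻¹ * M.vv x y * M.lel B =
      M.vv (smat B 1 1 * x - smat B 0 1 * y) (-(smat B 1 0) * x + smat B 0 0 * y) := by
  have h := M.conj B (smat B 1 1 * x - smat B 0 1 * y) (-(smat B 1 0) * x + smat B 0 0 * y)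
  have hdet := sl2_det B
  have e1 : smat B 0 0 * (smat B 1 1 * x - smat B 0 1 * y) +
      smat B 0 1 * (-(smat B 1 0) * x + smat B 0 0 * y) = x := by
    linear_combination x * hdet
  have e2 : smat B 1 0 * (smat B 1 1 * x - smat B 0 1 * y) +
      smat B 1 1 * (-(smat B 1 0) * x + smat B 0 0 * y) = y := by
    linear_combination y * hdet
  rw [e1, e2] at h
  rw [← h]
  group

theorem mem_centralizer_conj (B : Matrix.SpecialLinearGroup (Fin 2) F) (x y : F) :
    M.vv x y ∈ Subgroup.centralizer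
      ((T.map (MulAut.conj (M.lel B)).toMonoidHom : Subgroup G) : Set G) ↔
      smat B 0 0 * y = smat B 1 0 * x := by
  rw [mem_centralizer_map_conj, M.conj_inv]
  have h : ∀ a b : F, M.vv a b ∈ Subgroup.centralizer (T : Set G) ↔ b = 0 := by
    intro a b
    rw [← M.vv_mem_V1_iff a b, ← M.V_inf_centralizer_T, Subgroup.mem_inf]
    exact ⟨fun h => ⟨M.vv_mem a b, h⟩, fun h => h.2⟩
  rw [h]
  constructor
  · intro h'
    linear_combination h'
  · intro h'
    linear_combination h'

include M in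
/-- `V` is the direct product of the lines fixed by `T` and by a conjugate of `T` not equal to
`T`. -/
theorem direct_prod {g : G} (hg : g ∈ L) (hgN : g ∉ Subgroup.normalizer (T : Set G)) :
    IsInternalDirectProduct (V ⊓ Subgroup.centralizer ((T : Subgroup G) : Set G))
      (V ⊓ Subgroup.centralizer ((T.map (MulAut.conj g).toMonoidHom : Subgroup G) : Set G)) V := by
  obtain ⟨B, rfl⟩ := M.exists_lel hg
  have hc : smat B 1 0 ≠ 0 := fun h => hgN (M.lel_mem_normalizer h)
  refine ⟨inf_le_left, inf_le_left, ?_, ?_, ?_⟩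
  · rintro a ⟨ha, -⟩ b ⟨hb, -⟩
    obtain ⟨x, y, rfl⟩ := M.vv_surj a ha
    obtain ⟨x', y', rfl⟩ := M.vv_surj b hb
    exact M.vv_comm _ _ _ _
  · rw [eq_bot_iff]
    rintro v ⟨hv1, hv2⟩
    rw [SetLike.mem_coe, M.V_inf_centralizer_T] at hv1
    obtain ⟨x, rfl⟩ := hv1
    have h := (M.mem_centralizer_conj B x 0).1 hv2.2
    have hx : x = 0 := by
      have : smat B 1 0 * x = 0 := by linear_combination -h
      exact (mul_eq_zero.1 this).resolve_left hc
    rw [hx, M.vv_zero]
    exact Subgroup.mem_bot.2 rfl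
  · apply le_antisymm (sup_le inf_le_left inf_le_left)
    intro v hv
    obtain ⟨x, y, rfl⟩ := M.vv_surj v hv
    have e : M.vv x y = M.vv (x - smat B 0 0 * y / smat B 1 0) 0 *
        M.vv (smat B 0 0 * y / smat B 1 0) y := by
      rw [M.vv_mul]
      congr 1 <;> ring
    rw [e]
    refine Subgroup.mul_mem _ (Subgroup.mem_sup_left ⟨M.vv_mem _ _,
      M.V1_le_centralizer_T ⟨_, rfl⟩⟩) (Subgroup.mem_sup_right ⟨M.vv_mem _ _,
      (M.mem_centralizer_conj B _ _).2 ?_⟩)
    field_simp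

theorem mem_centralizer_lel (B : Matrix.SpecialLinearGroup (Fin 2) F) (x y : F) :
    M.vv x y ∈ Subgroup.centralizer ({M.lel B} : Set G) ↔
      smat B 0 0 * x + smat B 0 1 * y = x ∧ smat B 1 0 * x + smat B 1 1 * y = y := by
  rw [Subgroup.mem_centralizer_iff]
  constructor
  · intro h
    have h1 := h (M.lel B) rfl
    have h2 : M.lel B * M.vv x y * (M.lel B)⁻¹ = M.vv x y := by
      rw [h1, mul_inv_cancel_right]
    rw [M.conj, M.vv_eq_iff] at h2
    exact h2
  · intro h t ht
    rw [Set.mem_singleton_iff] at ht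
    subst ht
    have h2 : M.lel B * M.vv x y * (M.lel B)⁻¹ = M.vv x y := by
      rw [M.conj, h.1, h.2]
    exact mul_inv_eq_iff_eq_mul.1 h2

include M in
/-- Elements of order prime to `p` act without nontrivial fixed points. -/
theorem fixed_point_free {p : ℕ} [Fact p.Prime] [CharP F p] {x : G} (hx : x ∈ L) (hx1 : x ≠ 1)
    (hco : (orderOf x).Coprime p) : V ⊓ Subgroup.centralizer ({x} : Set G) = ⊥ := by
  obtain ⟨B, rfl⟩ := M.exists_lel hx
  rw [eq_bot_iff]
  rintro v ⟨hv, hc⟩
  obtain ⟨a, b, rfl⟩ := M.vv_surj v hv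
  have hc' : M.vv a b ∈ Subgroup.centralizer ({M.lel B} : Set G) := hc
  rw [M.mem_centralizer_lel] at hc'
  rw [Subgroup.mem_bot]
  by_contra hne
  have hab : a ≠ 0 ∨ b ≠ 0 := by
    by_contra hcon
    push Not at hcon
    apply hne
    rw [hcon.1, hcon.2, M.vv_zero]
  have hBp : B ^ p = 1 := sl2_pow_char_of_fix hab hc'.1 hc'.2
  have hord : orderOf (M.lel B) = orderOf B := orderOf_injective M.lel M.lel_inj B
  rw [hord] at hco
  have hdvd : orderOf B ∣ p := orderOf_dvd_of_pow_eq_one hBp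
  have h1 : orderOf B = 1 := Nat.Coprime.eq_one_of_dvd hco hdvd
  apply hx1
  rw [orderOf_eq_one_iff.1 h1, map_one]

/-- The diagonal element `diag(a, a⁻¹)`. -/
def dg (a : F) (ha : a ≠ 0) : Matrix.SpecialLinearGroup (Fin 2) F :=
  mk2 a 0 0 a⁻¹ (by rw [mul_inv_cancel₀ ha]; ring)

theorem conj_dg (a : F) (ha : a ≠ 0) (x y : F) :
    M.lel (dg a ha) * M.vv x y * (M.lel (dg a ha))⁻¹ = M.vv (a * x) (a⁻¹ * y) := by
  rw [M.conj]
  have e00 : smat (dg a ha) 0 0 = a := rfl
  have e01 : smat (dg a ha) 0 1 = 0 := rfl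
  have e10 : smat (dg a ha) 1 0 = 0 := rfl
  have e11 : smat (dg a ha) 1 1 = a⁻¹ := rfl
  rw [e00, e01, e10, e11]
  congr 1 <;> ring

include M in
/-- The fixed line is irreducible for the normalizer of `T`. -/
theorem irr_bottom (U' : Subgroup G)
    (hU : U' ≤ V ⊓ Subgroup.centralizer ((T : Subgroup G) : Set G))
    (hN : L ⊓ Subgroup.normalizer (T : Set G) ≤ Subgroup.normalizer (U' : Set G)) :
    U' = ⊥ ∨ U' = V ⊓ Subgroup.centralizer ((T : Subgroup G) : Set G) := by
  rw [M.V_inf_centralizer_T] at hU ⊢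
  by_cases hbot : U' = ⊥
  · exact Or.inl hbot
  · right
    obtain ⟨u, hu, hu1⟩ : ∃ u ∈ U', u ≠ 1 := by
      by_contra hcon
      push Not at hcon
      exact hbot ((Subgroup.eq_bot_iff_forall U').2 hcon)
    obtain ⟨x₀, rfl⟩ := hU hu
    have hx₀ : x₀ ≠ 0 := by
      rintro rfl
      exact hu1 M.vv_zero
    apply le_antisymm hU
    rintro _ ⟨z, rfl⟩
    by_cases hz : z = 0
    · rw [hz, M.vv_zero]
      exact U'.one_mem
    · have ha : z / x₀ ≠ 0 := div_ne_zero hz hx₀
      have hmem : M.lel (dg (z / x₀) ha) ∈ L ⊓ Subgroup.normalizer (T : Set G) :=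
        ⟨M.lel_mem _, M.lel_mem_normalizer rfl⟩
      have h1 := (Subgroup.mem_normalizer_iff.1 (hN hmem) _).1 hu
      rw [M.conj_dg] at h1
      have e : M.vv (z / x₀ * x₀) ((z / x₀)⁻¹ * 0) = M.vv z 0 := by
        congr 1
        · field_simp
        · ring
      rwa [e] at h1

include M in
/-- The quotient by the fixed line is irreducible for the normalizer of `T`. -/
theorem irr_top (U' : Subgroup G)
    (h1 : V ⊓ Subgroup.centralizer ((T : Subgroup G) : Set G) ≤ U') (h2 : U' ≤ V)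
    (hN : L ⊓ Subgroup.normalizer (T : Set G) ≤ Subgroup.normalizer (U' : Set G)) :
    U' = V ⊓ Subgroup.centralizer ((T : Subgroup G) : Set G) ∨ U' = V := by
  rw [M.V_inf_centralizer_T] at h1 ⊢
  by_cases hc : U' ≤ M.V1
  · exact Or.inl (le_antisymm hc h1)
  · right
    obtain ⟨u, hu, huV1⟩ : ∃ u ∈ U', u ∉ M.V1 := by
      by_contra hcon
      push Not at hcon
      exact hc hcon
    obtain ⟨x₀, y₀, rfl⟩ := M.vv_surj u (h2 hu)
    have hy₀ : y₀ ≠ 0 := fun h => huV1 ((M.vv_mem_V1_iff x₀ y₀).2 h)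
    apply le_antisymm h2
    intro v hv
    obtain ⟨x, y, rfl⟩ := M.vv_surj v hv
    by_cases hy : y = 0
    · exact h1 ((M.vv_mem_V1_iff x y).2 hy)
    · have ha : y₀ / y ≠ 0 := div_ne_zero hy₀ hy
      have hmem : M.lel (dg (y₀ / y) ha) ∈ L ⊓ Subgroup.normalizer (T : Set G) :=
        ⟨M.lel_mem _, M.lel_mem_normalizer rfl⟩
      have h3 := (Subgroup.mem_normalizer_iff.1 (hN hmem) _).1 hu
      rw [M.conj_dg] at h3
      have e : M.vv x y = M.vv (x - y₀ / y * x₀) 0 * M.vv (y₀ / y * x₀) ((y₀ / y)⁻¹ * y₀) := by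
        rw [M.vv_mul]
        congr 1
        · ring
        · field_simp
          ring
      rw [e]
      exact U'.mul_mem (h1 ⟨_, rfl⟩) h3

end SL2Model

end Cfsg.Agent.Lib.Helper54
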