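import Mathlib
import Cfsg.Prelude.Def_GeometricClasses
import Cfsg.Prelude.Def_LieClassical
import Cfsg.Agent.Lib.Helper71.Asch0
import Cfsg.Agent.Lib.Helper71.Asch5
import Cfsg.Agent.Lib.Helper82.ASSA
import Cfsg.Agent.Lib.Helper66.ASSC
import Cfsg.Agent.Lib.Helper63.SPPSY
import Cfsg.Agent.Lib.Helper65.ASSE
import Cfsg.Agent.Lib.Helper12.ASSF
import Cfsg.Agent.Lib.Helper65.ASF
import Cfsg.Agent.Lib.Helper65.ASSN

/-! Project SP4O (helper54; S5787, Sp_4(q), q odd): piece `C6A`. A symplectic-type minimal normal subgroup of a group of isometries in dimension 4, q odd, is 2^(1+4). -/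

set_option autoImplicit false
set_option linter.unusedVariables false

namespace Cfsg.Agent.Lib.Helper54.SP4O

open Matrix Cfsg.Geo Cfsg.Agent.Lib.Helper71.Asch

variable {F : Type*} [Field F] [Fintype F]

omit [Fintype F] in
/-- A scalar isometry of a non-zero bilinear form squares to `1`. -/
theorem C6A_sq (f : (Fin 4 → F) → (Fin 4 → F) → F) (hf : IsSymplecticForm f)
    (L : Subgroup (GL (Fin 4) F)) (hfix : FixesForm (matrixSet L) f) (z : GL (Fin 4) F)
    (hzL : z ∈ L) (hzs : z ∈ scalars (Fin 4) F) : z ^ 2 = 1 := by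
  obtain ⟨c, hc⟩ := (mem_scalars_iff z).1 hzs
  have hv0 : (Pi.single (0 : Fin 4) (1 : F) : Fin 4 → F) ≠ 0 := by
    intro h0
    have := congrFun h0 0
    simp at this
  obtain ⟨x, hx⟩ := (hf.nondegenerate _ hv0).1
  have h1 := hfix (z : Matrix (Fin 4) (Fin 4) F) ⟨z, hzL, rfl⟩ x
    (Pi.single (0 : Fin 4) (1 : F))
  rw [hc, Matrix.smul_mulVec, Matrix.one_mulVec, Matrix.smul_mulVec, Matrix.one_mulVec,
    hf.bilinear.smul_left, hf.bilinear.smul_right] at h1
  have h2 : (c : F) * (c : F) = 1 := by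
    have h3 : ((c : F) * (c : F) - 1) * f x (Pi.single (0 : Fin 4) (1 : F)) = 0 := by
      linear_combination h1
    rcases mul_eq_zero.1 h3 with h4 | h4
    · linear_combination h4
    · exact absurd h4 hx
  apply Units.ext
  rw [Units.val_pow_eq_pow_val, Units.val_one, hc, smul_pow, one_pow, pow_two, h2, one_smul]

/-- C6A -/
theorem C6A (h2 : (2 : F) ≠ 0) (f : (Fin 4 → F) → (Fin 4 → F) → F) (hf : IsSymplecticForm f)
    (H L : Subgroup (GL (Fin 4) F)) (h : SymT H L) (hfix : FixesForm (matrixSet L) f) :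
    IsSymplecticTypeGroup 2 L ∧ Nat.card L = 32 ∧ Nat.card (Subgroup.center L) = 2 ∧
      Nat.card ↥(L ⊓ scalars (Fin 4) F) = 2 := by
  classical
  obtain ⟨r, hr, hx⟩ := Cfsg.Agent.Lib.Helper82.ASSA.SA H L h
  have hpw := Cfsg.Agent.Lib.Helper66.ASSC.SC H L h r hr hx
  have : Fact r.Prime := ⟨hr⟩
  have hPG : IsPGroup r ↥L := by
    intro g
    obtain ⟨j, hj⟩ := hpw g.1 g.2
    exact ⟨j, Subtype.ext (by rw [Subgroup.coe_pow, Subgroup.coe_one]; exact hj)⟩
  obtain ⟨a, ha⟩ := IsPGroup.iff_card.mp hPG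
  have hidx := Cfsg.Agent.Lib.Helper63.SPPSY.sy_index (by norm_num) H L h
  have hcard := Subgroup.card_eq_card_quotient_mul_card_subgroup
    ((scalars (Fin 4) F).subgroupOf L)
  rw [hidx] at hcard
  have hr2 : 2 = r := by
    have hdvd : 2 ∣ r ^ a := by
      rw [← ha, hcard]
      exact Dvd.dvd.mul_right (by norm_num) _
    exact (Nat.prime_dvd_prime_iff_eq Nat.prime_two hr).1 (Nat.prime_two.dvd_of_dvd_pow hdvd)
  subst hr2
  have hexp := Cfsg.Agent.Lib.Helper65.ASSE.SE (by norm_num) H L h 2 Nat.prime_two hx hpw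
  have hSF := Cfsg.Agent.Lib.Helper12.ASSF.SF (by norm_num) H L h 2 Nat.prime_two hexp
  -- the scalars of `L` have order `2`
  have hcyc := Cfsg.Agent.Lib.Helper65.ASF.Z0_isCyclic (n := 4) (F := F) L
  have hz2dvd : Nat.card ↥(L ⊓ scalars (Fin 4) F) ∣ 2 := by
    rw [← IsCyclic.exponent_eq_card]
    apply Monoid.exponent_dvd_of_forall_pow_eq_one
    intro g
    apply Subtype.ext
    rw [Subgroup.coe_pow, Subgroup.coe_one]
    exact C6A_sq f hf L hfix g.1 g.2.1 g.2.2
  have hz2 : Nat.card ↥(L ⊓ scalars (Fin 4) F) = 2 := by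
    rcases hSF with ⟨hodd, -⟩ | ⟨-, h2' | h4⟩
    · exact absurd hodd (by decide)
    · exact h2'
    · rw [h4] at hz2dvd
      exact absurd hz2dvd (by decide)
  have hZ : Nat.card ↥((scalars (Fin 4) F).subgroupOf L) = Nat.card ↥(L ⊓ scalars (Fin 4) F) := by
    rw [← Subgroup.inf_subgroupOf_left (scalars (Fin 4) F) L]
    exact Nat.card_congr (Subgroup.subgroupOfEquivOfLe
      (inf_le_left : L ⊓ scalars (Fin 4) F ≤ L)).toEquiv
  have hL32 : Nat.card ↥L = 32 := by
    rw [hcard, hZ, hz2]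
  have hcen := Cfsg.Agent.Lib.Helper65.ASSN.card_center H L h
  have h4 : 2 * Nat.gcd 2 2 = 4 := by norm_num
  have hexpo : Monoid.exponent ↥L = 2 * Nat.gcd 2 2 := by
    have hdvd : Monoid.exponent ↥L ∣ 2 * Nat.gcd 2 2 := by
      apply Monoid.exponent_dvd_of_forall_pow_eq_one
      intro x
      apply Subtype.ext
      exact hexp x.1 x.2
    rw [h4] at hdvd ⊢
    have hnd : ¬ Monoid.exponent ↥L ∣ 2 := by
      intro hd
      have hsq : ∀ g : ↥L, g ^ 2 = 1 := Monoid.exponent_dvd_iff_forall_pow_eq_one.1 hd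
      obtain ⟨x, hxL, y, hyL, hne⟩ := Cfsg.Agent.Lib.Helper65.ASF.not_abelian h
      apply hne
      have hxx : x * x = 1 := by
        have := congrArg Subtype.val (hsq ⟨x, hxL⟩)
        rw [pow_two] at this
        exact this
      have hyy : y * y = 1 := by
        have := congrArg Subtype.val (hsq ⟨y, hyL⟩)
        rw [pow_two] at this
        exact this
      have hxy : (x * y) * (x * y) = 1 := by
        have := congrArg Subtype.val (hsq (⟨x, hxL⟩ * ⟨y, hyL⟩))
        rw [pow_two] at this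
        exact this
      calc x * y = (x * y)⁻¹ := (inv_eq_of_mul_eq_one_left hxy).symm
        _ = y⁻¹ * x⁻¹ := mul_inv_rev x y
        _ = y * x := by rw [inv_eq_of_mul_eq_one_left hxx, inv_eq_of_mul_eq_one_left hyy]
    obtain ⟨m, hm, hem⟩ := (Nat.dvd_prime_pow Nat.prime_two).1
      (show Monoid.exponent ↥L ∣ 2 ^ 2 from hdvd)
    have hm2 : m = 2 := by
      by_contra hne
      apply hnd
      rw [hem]
      have : m = 0 ∨ m = 1 := by omega
      rcases this with h0 | h0 <;> rw [h0] <;> norm_num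
    rw [hem, hm2]
    norm_num
  refine ⟨⟨Nat.prime_two, Cfsg.Agent.Lib.Helper65.ASSN.isPGroup_L L 2 Nat.prime_two hexp,
    fun A hA hAc => Cfsg.Agent.Lib.Helper65.ASSN.cyclic_of_char H L h A hA hAc, hexpo⟩,
    hL32, ?_, hz2⟩
  rw [hcen, hz2]

end Cfsg.Agent.Lib.Helper54.SP4O
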