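import Mathlib
import Cfsg.Prelude.Def_GeometricClasses
import Cfsg.Prelude.Def_LieClassical
import Cfsg.Agent.Lib.Helper71.Asch0
import Cfsg.Agent.Lib.Helper71.Asch5
import Cfsg.Agent.Lib.Helper82.ASSG
import Cfsg.Agent.Lib.Helper65.ASSO
import Cfsg.Agent.Lib.Helper97.ASSK

/-! Project SP4O (helper54; S5787, Sp_4(q), q odd): piece `DESC1` (filled by helper66). The Galois twist of a symplectic-type group 2^(1+4) of isometries is equivalent to it: an invertible intertwiner. -/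

set_option autoImplicit false

namespace Cfsg.Agent.Lib.Helper54.SP4O

open Matrix Cfsg.Geo Cfsg.Agent.Lib.Helper71.Asch

variable {F : Type*} [Field F] [Fintype F]

omit [Fintype F] in
/-- A bilinear form is given by a Gram matrix. -/
private theorem DESC1_gram_rep (b : (Fin 4 → F) → (Fin 4 → F) → F) (hb : IsBilinearForm b) :
    ∃ G : Matrix (Fin 4) (Fin 4) F, ∀ u v, b u v = u ⬝ᵥ (G *ᵥ v) := by
  let B : (Fin 4 → F) →ₗ[F] (Fin 4 → F) →ₗ[F] F :=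
    LinearMap.mk₂ F b hb.add_left hb.smul_left hb.add_right hb.smul_right
  refine ⟨LinearMap.toMatrix₂' F B, fun u v => ?_⟩
  rw [← Matrix.toLinearMap₂'_apply', Matrix.toLinearMap₂'_toMatrix']
  rfl

omit [Fintype F] in
private theorem DESC1_mat_ext (M N : Matrix (Fin 4) (Fin 4) F)
    (h : ∀ u v : Fin 4 → F, u ⬝ᵥ (M *ᵥ v) = u ⬝ᵥ (N *ᵥ v)) : M = N := by
  ext i j
  have := h (Pi.single i 1) (Pi.single j 1)
  simpa [Matrix.mulVec_single_one, single_one_dotProduct] using this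

/-- DESC1 -/
theorem DESC1 (h2 : (2 : F) ≠ 0) (f : (Fin 4 → F) → (Fin 4 → F) → F) (hf : IsSymplecticForm f)
    (H L : Subgroup (GL (Fin 4) F)) (h : SymT H L) (hfix : FixesForm (matrixSet L) f)
    (hz : Nat.card ↥(L ⊓ scalars (Fin 4) F) = 2) (σ : F ≃+* F) :
    ∃ M : Matrix (Fin 4) (Fin 4) F, IsUnit M ∧ ∀ x ∈ L, x.1.map σ * M = M * x.1 := by
  classical
  -- the averaged intertwiner `S`
  have htr := Cfsg.Agent.Lib.Helper82.ASSG.SG H L h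
  obtain ⟨s, hsdef⟩ : ∃ s : Finset (GL (Fin 4) F), s = Finset.univ.filter (fun g => g ∈ L) :=
    ⟨_, rfl⟩
  have hs : ∀ g, g ∈ s ↔ g ∈ L := by
    intro g
    rw [hsdef, Finset.mem_filter]
    exact ⟨fun hg => hg.2, fun hg => ⟨Finset.mem_univ g, hg⟩⟩
  have hσ : ∀ c : F, c ^ Nat.card ↥(L ⊓ scalars (Fin 4) F) = 1 → c * σ.toRingHom c = 1 := by
    intro c hc
    rw [hz] at hc
    rcases sq_eq_one_iff.mp hc with rfl | rfl
    · simp
    · simp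
  have hsum := Cfsg.Agent.Lib.Helper65.ASSO.trace_sum (by norm_num : 1 ≤ 4) L σ.toRingHom htr hσ
    s hs
  have hsum0 : ∑ g ∈ s, Matrix.trace g.1 * σ.toRingHom (Matrix.trace g.1) ≠ 0 := by
    rw [hsum, hz]
    have h32 : ((2 : ℕ) : F) * ((4 : ℕ) : F) ^ 2 = (2 : F) ^ 5 := by
      push_cast
      norm_num
    rw [h32]
    exact pow_ne_zero 5 h2
  obtain ⟨S, hS0, hSinv⟩ := Cfsg.Agent.Lib.Helper97.ASSK.AVG L σ.toRingHom s hs hsum0
  have hSinv' : ∀ x ∈ L, x.1ᵀ * S * x.1.map σ = S := fun x hx => hSinv x hx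
  have hSunit : IsUnit S := Cfsg.Agent.Lib.Helper97.ASSK.AVGinv L h.abs.1 σ S hS0 hSinv'
  -- the Gram matrix of `f`
  obtain ⟨G, hG⟩ := DESC1_gram_rep f hf.bilinear
  have hGunit : IsUnit G := by
    apply Matrix.mulVec_injective_iff_isUnit.mp
    intro v w hvw
    by_contra hne
    have hd : v - w ≠ 0 := sub_ne_zero.mpr hne
    obtain ⟨⟨y, hy⟩, -⟩ := hf.nondegenerate (v - w) hd
    apply hy
    rw [hG, Matrix.mulVec_sub, hvw, sub_self, dotProduct_zero]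
  have hGinv : ∀ x ∈ L, x.1ᵀ * G * x.1 = G := by
    intro x hx
    apply DESC1_mat_ext
    intro u v
    have h1 := hfix x.1 ⟨x, hx, rfl⟩ u v
    rw [hG, hG] at h1
    rw [← h1, ← Matrix.mulVec_mulVec, ← Matrix.mulVec_mulVec, dotProduct_comm u,
      Matrix.mulVec_transpose, ← Matrix.dotProduct_mulVec, dotProduct_comm]
  obtain ⟨g, hg⟩ := hGunit
  obtain ⟨s', hs'⟩ := hSunit
  refine ⟨((s'⁻¹ * g : (Matrix (Fin 4) (Fin 4) F)ˣ) : Matrix (Fin 4) (Fin 4) F),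
    (s'⁻¹ * g).isUnit, fun x hx => ?_⟩
  have e1 := hGinv x hx
  have e2 := hSinv' x hx
  have hXt : x.1ᵀ = ((g * x⁻¹ * g⁻¹ : (Matrix (Fin 4) (Fin 4) F)ˣ) :
      Matrix (Fin 4) (Fin 4) F) := by
    have h3 : x.1ᵀ * ((g * x : (Matrix (Fin 4) (Fin 4) F)ˣ) : Matrix (Fin 4) (Fin 4) F) =
        g.1 := by
      rw [Units.val_mul, ← mul_assoc, hg]
      exact e1
    calc x.1ᵀ = x.1ᵀ * (((g * x) * (g * x)⁻¹ : (Matrix (Fin 4) (Fin 4) F)ˣ) :
          Matrix (Fin 4) (Fin 4) F) := by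
          rw [mul_inv_cancel, Units.val_one, mul_one]
      _ = (x.1ᵀ * ((g * x : (Matrix (Fin 4) (Fin 4) F)ˣ) : Matrix (Fin 4) (Fin 4) F)) *
          (((g * x)⁻¹ : (Matrix (Fin 4) (Fin 4) F)ˣ) : Matrix (Fin 4) (Fin 4) F) := by
          rw [Units.val_mul (g * x) (g * x)⁻¹, mul_assoc]
      _ = g.1 * (((g * x)⁻¹ : (Matrix (Fin 4) (Fin 4) F)ˣ) : Matrix (Fin 4) (Fin 4) F) := by
          rw [h3]
      _ = ((g * x⁻¹ * g⁻¹ : (Matrix (Fin 4) (Fin 4) F)ˣ) : Matrix (Fin 4) (Fin 4) F) := by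
          rw [← Units.val_mul]
          congr 1
          group
  have hXs : x.1.map σ = ((s'⁻¹ * g * x * g⁻¹ * s' : (Matrix (Fin 4) (Fin 4) F)ˣ) :
      Matrix (Fin 4) (Fin 4) F) := by
    have h3 : ((g * x⁻¹ * g⁻¹ * s' : (Matrix (Fin 4) (Fin 4) F)ˣ) :
        Matrix (Fin 4) (Fin 4) F) * x.1.map σ = s'.1 := by
      rw [Units.val_mul (g * x⁻¹ * g⁻¹) s', ← hXt, hs']
      exact e2
    calc x.1.map σ = (((g * x⁻¹ * g⁻¹ * s')⁻¹ * (g * x⁻¹ * g⁻¹ * s') :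
          (Matrix (Fin 4) (Fin 4) F)ˣ) : Matrix (Fin 4) (Fin 4) F) * x.1.map σ := by
          rw [inv_mul_cancel, Units.val_one, one_mul]
      _ = (((g * x⁻¹ * g⁻¹ * s')⁻¹ : (Matrix (Fin 4) (Fin 4) F)ˣ) :
          Matrix (Fin 4) (Fin 4) F) * (((g * x⁻¹ * g⁻¹ * s' : (Matrix (Fin 4) (Fin 4) F)ˣ) :
          Matrix (Fin 4) (Fin 4) F) * x.1.map σ) := by
          rw [Units.val_mul (g * x⁻¹ * g⁻¹ * s')⁻¹ (g * x⁻¹ * g⁻¹ * s'), mul_assoc]
      _ = (((g * x⁻¹ * g⁻¹ * s')⁻¹ : (Matrix (Fin 4) (Fin 4) F)ˣ) :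
          Matrix (Fin 4) (Fin 4) F) * s'.1 := by
          rw [h3]
      _ = ((s'⁻¹ * g * x * g⁻¹ * s' : (Matrix (Fin 4) (Fin 4) F)ˣ) :
          Matrix (Fin 4) (Fin 4) F) := by
          rw [← Units.val_mul]
          congr 1
          group
  rw [hXs, ← Units.val_mul, ← Units.val_mul]
  congr 1
  group

end Cfsg.Agent.Lib.Helper54.SP4O
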