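import Mathlib
import Cfsg.Prelude.Def_GeometricClasses
import Cfsg.Prelude.Def_LieClassical
import Cfsg.Agent.Lib.Helper71.Asch0
import Cfsg.Agent.Lib.Helper71.Asch5
import Cfsg.Agent.Lib.Helper53.Hilbert90Gen

/-! Project SP4O (helper54; S5787, Sp_4(q), q odd): piece `DESC2` (filled by helper93). Galois descent: an absolutely irreducible group equivalent to its twist by a non-trivial field automorphism is realisable over a proper subfield. -/

set_option autoImplicit false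

namespace Cfsg.Agent.Lib.Helper54.SP4O

open Matrix Cfsg.Geo Cfsg.Agent.Lib.Helper71.Asch

variable {F : Type*} [Field F] [Fintype F]

/-- the fixed field of `σ` -/
def DESC2_fix (σ : F ≃+* F) : Subfield F where
  carrier := {x | σ x = x}
  mul_mem' := fun {a b} ha hb => by
    show σ (a * b) = a * b
    rw [map_mul, (ha : σ a = a), (hb : σ b = b)]
  one_mem' := map_one σ
  add_mem' := fun {a b} ha hb => by
    show σ (a + b) = a + b
    rw [map_add, (ha : σ a = a), (hb : σ b = b)]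
  zero_mem' := map_zero σ
  neg_mem' := fun {a} ha => by
    show σ (-a) = -a
    rw [map_neg, (ha : σ a = a)]
  inv_mem' := fun a ha => by
    show σ a⁻¹ = a⁻¹
    rw [map_inv₀, (ha : σ a = a)]

theorem DESC2_mem_fix (σ : F ≃+* F) (x : F) : x ∈ DESC2_fix σ ↔ σ x = x := Iff.rfl

/-- applying a ring automorphism entrywise commutes with `mulVec` -/
theorem DESC2_map_mulVec {n : ℕ} (σ : F ≃+* F) (A : Matrix (Fin n) (Fin n) F)
    (w : Fin n → F) :
    (fun i => σ ((A *ᵥ w) i)) = (A.map σ) *ᵥ (fun i => σ (w i)) := by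
  funext i
  simp only [Matrix.mulVec, dotProduct, map_sum, map_mul, Matrix.map_apply]

/-- DESC2 -/
theorem DESC2 {n : ℕ} (hn : 1 ≤ n) (L : Subgroup (GL (Fin n) F))
    (hLa : ActsAbsolutelyIrreducibly (matrixSet L)) (σ : F ≃+* F) (hσ : σ ≠ RingEquiv.refl F)
    (M : Matrix (Fin n) (Fin n) F) (hM : IsUnit M) (hint : ∀ x ∈ L, x.1.map σ * M = M * x.1) :
    ∃ F₀ : Subfield F, F₀ ≠ ⊤ ∧ RealisableOver F₀ (matrixSet L) := by
  classical
  have hne : Nonempty (Fin n) := ⟨⟨0, by omega⟩⟩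
  have hfinAut : Finite (F ≃+* F) :=
    Finite.of_injective (fun e : F ≃+* F => (e : F → F)) DFunLike.coe_injective
  obtain ⟨ξ, hξ⟩ : ∃ ξ : F, σ ξ ≠ ξ := by
    by_contra hall
    apply hσ
    apply RingEquiv.ext
    intro x
    by_contra hx
    exact hall ⟨x, hx⟩
  refine ⟨DESC2_fix σ, ?_, ?_⟩
  · intro htop
    have : ξ ∈ DESC2_fix σ := by
      rw [htop]
      exact Subfield.mem_top ξ
    rw [DESC2_mem_fix] at this
    exact hξ this
  have hmapmul : ∀ P Q : Matrix (Fin n) (Fin n) F, (P * Q).map σ = P.map σ * Q.map σ := by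
    intro P Q
    exact Matrix.map_mul
  have hMu : IsUnit M.det := (Matrix.isUnit_iff_isUnit_det M).mp hM
  have hMM : M⁻¹ * M = 1 := Matrix.nonsing_inv_mul M hMu
  have hMM' : M * M⁻¹ = 1 := Matrix.mul_nonsing_inv M hMu
  -- the order of `σ`
  obtain ⟨r, hr⟩ : ∃ r : ℕ, orderOf σ = r := ⟨_, rfl⟩
  have hr0 : 0 < r := by
    rw [← hr]
    exact orderOf_pos σ
  have hσr : ∀ c : F, (σ ^ r) c = c := by
    intro c
    rw [← hr, pow_orderOf_eq_one]
    rfl
  -- the semilinear map `T v = M⁻¹ σ(v)` commutes with `L`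
  have hTadd := Cfsg.Agent.Lib.Helper53.H90.slG_add σ M⁻¹
  have hTsmul := Cfsg.Agent.Lib.Helper53.H90.slG_smul σ M⁻¹
  have h1x : ∀ x ∈ L, M⁻¹ * (x : Matrix (Fin n) (Fin n) F).map σ =
      (x : Matrix (Fin n) (Fin n) F) * M⁻¹ := by
    intro x hx
    calc M⁻¹ * (x : Matrix (Fin n) (Fin n) F).map σ
        = M⁻¹ * ((x : Matrix (Fin n) (Fin n) F).map σ * M) * M⁻¹ := by
          rw [Matrix.mul_assoc, Matrix.mul_assoc, hMM', Matrix.mul_one]
      _ = M⁻¹ * (M * (x : Matrix (Fin n) (Fin n) F)) * M⁻¹ := by rw [hint x hx]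
      _ = (x : Matrix (Fin n) (Fin n) F) * M⁻¹ := by
          rw [← Matrix.mul_assoc, hMM, Matrix.one_mul]
  have hTx : ∀ x ∈ L, ∀ v : Fin n → F,
      Cfsg.Agent.Lib.Helper53.H90.slG σ M⁻¹ ((x : Matrix (Fin n) (Fin n) F) *ᵥ v) =
        (x : Matrix (Fin n) (Fin n) F) *ᵥ Cfsg.Agent.Lib.Helper53.H90.slG σ M⁻¹ v := by
    intro x hx v
    unfold Cfsg.Agent.Lib.Helper53.H90.slG
    rw [DESC2_map_mulVec, Matrix.mulVec_mulVec, h1x x hx, Matrix.mulVec_mulVec]
  have hTxk : ∀ (k : ℕ), ∀ x ∈ L, ∀ v : Fin n → F,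
      (Cfsg.Agent.Lib.Helper53.H90.slG σ M⁻¹)^[k] ((x : Matrix (Fin n) (Fin n) F) *ᵥ v) =
        (x : Matrix (Fin n) (Fin n) F) *ᵥ (Cfsg.Agent.Lib.Helper53.H90.slG σ M⁻¹)^[k] v := by
    intro k x hx v
    induction k with
    | zero => rfl
    | succ k ih =>
      rw [Function.iterate_succ_apply', Function.iterate_succ_apply', ih, hTx x hx]
  -- `T ^ r` is linear, given by a matrix `N` commuting with `L`
  obtain ⟨φ, hφ⟩ : ∃ φ : (Fin n → F) →ₗ[F] (Fin n → F),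
      ∀ v, φ v = (Cfsg.Agent.Lib.Helper53.H90.slG σ M⁻¹)^[r] v :=
    ⟨{ toFun := (Cfsg.Agent.Lib.Helper53.H90.slG σ M⁻¹)^[r]
       map_add' := Cfsg.Agent.Lib.Helper53.H90.iter_add _ hTadd r
       map_smul' := fun c v => by
         rw [Cfsg.Agent.Lib.Helper53.H90.iter_smul σ _ hTsmul r c v, hσr]
         rfl }, fun v => rfl⟩
  obtain ⟨N, hN⟩ : ∃ N : Matrix (Fin n) (Fin n) F,
      ∀ v, N *ᵥ v = (Cfsg.Agent.Lib.Helper53.H90.slG σ M⁻¹)^[r] v := by
    refine ⟨LinearMap.toMatrix' φ, fun v => ?_⟩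
    rw [← hφ, ← Matrix.toLin'_apply, Matrix.toLin'_toMatrix']
  have hmat_ext : ∀ P Q : Matrix (Fin n) (Fin n) F, (∀ v, P *ᵥ v = Q *ᵥ v) → P = Q := by
    intro P Q h
    apply Matrix.toLin'.injective
    apply LinearMap.ext
    intro v
    rw [Matrix.toLin'_apply, Matrix.toLin'_apply, h]
  have hcomm : ∀ s ∈ matrixSet L, N * s = s * N := by
    rintro _ ⟨x, hx, rfl⟩
    apply hmat_ext
    intro v
    rw [← Matrix.mulVec_mulVec, ← Matrix.mulVec_mulVec, hN, hN, hTxk r x hx]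
  obtain ⟨l, hl⟩ := hLa.2 N hcomm
  have hT : ∀ v : Fin n → F,
      (Cfsg.Agent.Lib.Helper53.H90.slG σ M⁻¹)^[r] v = l • v := by
    intro v
    rw [← hN, hl, Matrix.smul_mulVec, Matrix.one_mulVec]
  have hl0 : l ≠ 0 := by
    intro h0
    have hinj : Function.Injective (Cfsg.Agent.Lib.Helper53.H90.slG σ M⁻¹) := by
      intro u v huv
      unfold Cfsg.Agent.Lib.Helper53.H90.slG at huv
      have h2 := congrArg (fun w => M *ᵥ w) huv
      simp only [Matrix.mulVec_mulVec, hMM', Matrix.one_mulVec] at h2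
      funext i
      exact σ.injective (congrFun h2 i)
    have hinjr : Function.Injective ((Cfsg.Agent.Lib.Helper53.H90.slG σ M⁻¹)^[r]) :=
      hinj.iterate r
    have h1 : (Cfsg.Agent.Lib.Helper53.H90.slG σ M⁻¹)^[r] (fun _ => (1 : F)) =
        (Cfsg.Agent.Lib.Helper53.H90.slG σ M⁻¹)^[r] 0 := by
      rw [hT, hT, h0, zero_smul, zero_smul]
    have h2 := congrFun (hinjr h1) (Classical.arbitrary (Fin n))
    simp at h2
  -- Hilbert 90
  obtain ⟨B, c, hBu, hc0, hBc⟩ :=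
    Cfsg.Agent.Lib.Helper53.H90.exists_twistG σ r hr0 hr M⁻¹ l hl0 hT
  have hBσ : B.map σ = c • (M * B) := by
    calc B.map σ = M * (M⁻¹ * B.map σ) := by rw [← Matrix.mul_assoc, hMM', Matrix.one_mul]
      _ = c • (M * B) := by rw [hBc, Matrix.mul_smul]
  have hBB : B⁻¹ * B = 1 := Matrix.nonsing_inv_mul B hBu
  have hBB' : B * B⁻¹ = 1 := Matrix.mul_nonsing_inv B hBu
  -- the conjugates are fixed by `σ`
  refine ⟨⟨B⁻¹, B, hBB, hBB'⟩, ?_⟩
  rintro _ ⟨x, hx, rfl⟩ i j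
  show (B⁻¹ * (x : Matrix (Fin n) (Fin n) F) * B) i j ∈ _
  rw [DESC2_mem_fix]
  obtain ⟨y, hy⟩ : ∃ y : Matrix (Fin n) (Fin n) F,
      y = B⁻¹ * (x : Matrix (Fin n) (Fin n) F) * B := ⟨_, rfl⟩
  rw [← hy]
  have hBy : B * y = (x : Matrix (Fin n) (Fin n) F) * B := by
    rw [hy, ← Matrix.mul_assoc, ← Matrix.mul_assoc, hBB', Matrix.one_mul]
  have h1 : B.map σ * y.map σ = (x : Matrix (Fin n) (Fin n) F).map σ * B.map σ := by
    rw [← hmapmul, ← hmapmul, hBy]
  rw [hBσ, Matrix.smul_mul, Matrix.mul_smul] at h1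
  have h2 : M * B * y.map σ = (x : Matrix (Fin n) (Fin n) F).map σ * (M * B) :=
    smul_right_injective _ hc0 h1
  have h3 : M * (B * y.map σ) = M * (B * y) := by
    rw [hBy, ← Matrix.mul_assoc, h2, ← Matrix.mul_assoc, hint x hx, Matrix.mul_assoc]
  have h4 : B * y.map σ = B * y := by
    calc B * y.map σ = M⁻¹ * (M * (B * y.map σ)) := by
          rw [← Matrix.mul_assoc, hMM, Matrix.one_mul]
      _ = B * y := by rw [h3, ← Matrix.mul_assoc, hMM, Matrix.one_mul]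
  have h5 : y.map σ = y := by
    calc y.map σ = B⁻¹ * (B * y.map σ) := by rw [← Matrix.mul_assoc, hBB, Matrix.one_mul]
      _ = y := by rw [h4, ← Matrix.mul_assoc, hBB, Matrix.one_mul]
  have h6 := congrFun (congrFun h5 i) j
  rw [Matrix.map_apply] at h6
  exact h6

end Cfsg.Agent.Lib.Helper54.SP4O
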