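import Mathlib
import Cfsg.Prelude.Def_GeometricClasses
import Cfsg.Prelude.Def_LieClassical
import Cfsg.Agent.Lib.Helper71.Asch0
import Cfsg.Agent.Lib.Helper71.Asch5

/-! Project SP4O (helper54; S5787, Sp_4(q), q odd): piece `E1`. q = 3: the stabiliser of a pair of totally isotropic planes stabilises a pair of orthogonal non-degenerate planes. -/

set_option autoImplicit false

namespace Cfsg.Agent.Lib.Helper54.SP4O

open Matrix Cfsg.Geo Cfsg.Agent.Lib.Helper71.Asch

variable {F : Type*} [Field F] [Fintype F]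

omit [Fintype F] in
theorem E1_mem2 (x y : Fin 4 → F) (α β : F) :
    α • x + β • y ∈ Submodule.span F ({x, y} : Set (Fin 4 → F)) :=
  add_mem (Submodule.smul_mem _ _ (Submodule.subset_span (by simp)))
    (Submodule.smul_mem _ _ (Submodule.subset_span (by simp)))

omit [Fintype F] in
theorem E1_span_eq (x y x' y' : Fin 4 → F) (α β γ δ α' β' γ' δ' : F)
    (hx : x' = α • x + β • y) (hy : y' = γ • x + δ • y)
    (hx' : x = α' • x' + β' • y') (hy' : y = γ' • x' + δ' • y') :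
    Submodule.span F ({x', y'} : Set (Fin 4 → F)) =
      Submodule.span F ({x, y} : Set (Fin 4 → F)) := by
  apply le_antisymm
  · rw [Submodule.span_le]
    intro z hz
    rcases hz with hz | hz
    · rw [hz, hx]
      exact E1_mem2 x y α β
    · rw [Set.mem_singleton_iff] at hz
      rw [hz, hy]
      exact E1_mem2 x y γ δ
  · rw [Submodule.span_le]
    intro z hz
    rcases hz with hz | hz
    · rw [hz, hx']
      exact E1_mem2 x' y' α' β'
    · rw [Set.mem_singleton_iff] at hz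
      rw [hz, hy']
      exact E1_mem2 x' y' γ' δ'

omit [Fintype F] in
theorem E1_plane (f : (Fin 4 → F) → (Fin 4 → F) → F) (hf : IsSymplecticForm f)
    (x y : Fin 4 → F) (ht : f x y ≠ 0) :
    Module.finrank F (Submodule.span F ({x, y} : Set (Fin 4 → F))) = 2 ∧
      IsNondegenerateOn f (Submodule.span F ({x, y} : Set (Fin 4 → F))) := by
  have hb := hf.bilinear
  have hx : ∀ α β : F, f x (α • x + β • y) = β * f x y := by
    intro α β
    rw [hb.add_right, hb.smul_right, hb.smul_right, hf.alternating x]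
    ring
  have hy : ∀ α β : F, f y (α • x + β • y) = -(α * f x y) := by
    intro α β
    rw [hb.add_right, hb.smul_right, hb.smul_right, hf.alternating y, hf.skew y x]
    ring
  constructor
  · have hli : LinearIndependent F ![x, y] := by
      rw [LinearIndependent.pair_iff]
      intro s t hst
      have h1 := hx s t
      have h2 := hy s t
      rw [hst] at h1 h2
      have hz : ∀ v, f v 0 = 0 := fun v => by
        have h := hb.smul_right 0 v 0
        rwa [zero_smul, zero_mul] at h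
      rw [hz] at h1 h2
      constructor
      · have h3 : s * f x y = 0 := by linear_combination h2
        exact (mul_eq_zero.1 h3).resolve_right ht
      · exact (mul_eq_zero.1 h1.symm).resolve_right ht
    have h4 := finrank_span_eq_card hli
    rw [Matrix.range_cons_cons_empty] at h4
    simpa using h4
  · intro v hv hv0
    obtain ⟨α, β, rfl⟩ := Submodule.mem_span_pair.1 hv
    by_cases hβ : β = 0
    · have hα : α ≠ 0 := by
        rintro rfl
        apply hv0
        rw [hβ, zero_smul, zero_smul, add_zero]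
      have h5 : f y (α • x + β • y) ≠ 0 := by
        rw [hy]
        exact neg_ne_zero.2 (mul_ne_zero hα ht)
      refine ⟨⟨y, Submodule.subset_span (by simp), h5⟩, ⟨y, Submodule.subset_span (by simp), ?_⟩⟩
      rw [hf.skew]
      exact neg_ne_zero.2 h5
    · have h5 : f x (α • x + β • y) ≠ 0 := by
        rw [hx]
        exact mul_ne_zero hβ ht
      refine ⟨⟨x, Submodule.subset_span (by simp), h5⟩, ⟨x, Submodule.subset_span (by simp), ?_⟩⟩
      rw [hf.skew]
      exact neg_ne_zero.2 h5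

omit [Fintype F] in
theorem E1_orth (f : (Fin 4 → F) → (Fin 4 → F) → F) (hb : IsBilinearForm f)
    (x y z t : Fin 4 → F) (h1 : f x z = 0) (h2 : f x t = 0) (h3 : f y z = 0) (h4 : f y t = 0) :
    AreOrthogonalFor f (Submodule.span F ({x, y} : Set (Fin 4 → F)))
      (Submodule.span F ({z, t} : Set (Fin 4 → F))) := by
  intro v hv w hw
  obtain ⟨α, β, rfl⟩ := Submodule.mem_span_pair.1 hv
  obtain ⟨γ, δ, rfl⟩ := Submodule.mem_span_pair.1 hw
  simp only [hb.add_left, hb.add_right, hb.smul_left, hb.smul_right, h1, h2, h3, h4]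
  ring

omit [Fintype F] in
theorem E1_key (hpm : ∀ x : F, x ≠ 0 → x = 1 ∨ x = -1)
    (f : (Fin 4 → F) → (Fin 4 → F) → F) (hb : IsBilinearForm f)
    (g : (Fin 4 → F) →ₗ[F] (Fin 4 → F)) (hg : ∀ x y, f (g x) (g y) = f x y)
    (u₁ u₂ w₁ w₂ U₁ U₂ W₁ W₂ : Fin 4 → F)
    (h11 : f u₁ w₁ = 1) (h12 : f u₁ w₂ = 0) (h21 : f u₂ w₁ = 0) (h22 : f u₂ w₂ = 1)
    (H11 : f U₁ W₁ = 1) (H12 : f U₁ W₂ = 0) (H21 : f U₂ W₁ = 0) (H22 : f U₂ W₂ = 1)
    (a b c d p q r s : F)
    (e1 : g u₁ = a • U₁ + c • U₂) (e2 : g u₂ = b • U₁ + d • U₂)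
    (e3 : g w₁ = p • W₁ + r • W₂) (e4 : g w₂ = q • W₁ + s • W₂) :
    (g (u₁ + w₂) ∈ Submodule.span F ({U₁ + W₂, U₂ - W₁} : Set (Fin 4 → F)) ∧
      g (u₂ - w₁) ∈ Submodule.span F ({U₁ + W₂, U₂ - W₁} : Set (Fin 4 → F)) ∧
      g (u₁ - w₂) ∈ Submodule.span F ({U₁ - W₂, U₂ + W₁} : Set (Fin 4 → F)) ∧
      g (u₂ + w₁) ∈ Submodule.span F ({U₁ - W₂, U₂ + W₁} : Set (Fin 4 → F))) ∨
    (g (u₁ + w₂) ∈ Submodule.span F ({U₁ - W₂, U₂ + W₁} : Set (Fin 4 → F)) ∧
      g (u₂ - w₁) ∈ Submodule.span F ({U₁ - W₂, U₂ + W₁} : Set (Fin 4 → F)) ∧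
      g (u₁ - w₂) ∈ Submodule.span F ({U₁ + W₂, U₂ - W₁} : Set (Fin 4 → F)) ∧
      g (u₂ + w₁) ∈ Submodule.span F ({U₁ + W₂, U₂ - W₁} : Set (Fin 4 → F))) := by
  have k1 : a * p + c * r = 1 := by
    have h := hg u₁ w₁
    rw [e1, e3, h11] at h
    simp only [hb.add_left, hb.add_right, hb.smul_left, hb.smul_right, H11, H12, H21, H22] at h
    linear_combination h
  have k2 : a * q + c * s = 0 := by
    have h := hg u₁ w₂
    rw [e1, e4, h12] at h
    simp only [hb.add_left, hb.add_right, hb.smul_left, hb.smul_right, H11, H12, H21, H22] at h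
    linear_combination h
  have k3 : b * p + d * r = 0 := by
    have h := hg u₂ w₁
    rw [e2, e3, h21] at h
    simp only [hb.add_left, hb.add_right, hb.smul_left, hb.smul_right, H11, H12, H21, H22] at h
    linear_combination h
  have k4 : b * q + d * s = 1 := by
    have h := hg u₂ w₂
    rw [e2, e4, h22] at h
    simp only [hb.add_left, hb.add_right, hb.smul_left, hb.smul_right, H11, H12, H21, H22] at h
    linear_combination h
  have hΔp : (a * d - b * c) * p = d := by linear_combination d * k1 - c * k3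
  have hΔr : (a * d - b * c) * r = -b := by linear_combination a * k3 - b * k1
  have hΔq : (a * d - b * c) * q = -c := by linear_combination d * k2 - c * k4
  have hΔs : (a * d - b * c) * s = a := by linear_combination a * k4 - b * k2
  have hΔ0 : a * d - b * c ≠ 0 := by
    intro h0
    exact one_ne_zero (α := F)
      (by linear_combination (-1 : F) * k1 - p * hΔs + r * hΔq + (p * s - r * q) * h0)
  rcases hpm _ hΔ0 with h1 | h1
  · have hp : p = d := by linear_combination hΔp - p * h1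
    have hr : r = -b := by linear_combination hΔr - r * h1
    have hq' : q = -c := by linear_combination hΔq - q * h1
    have hs : s = a := by linear_combination hΔs - s * h1
    rw [hp, hr] at e3
    rw [hq', hs] at e4
    left
    refine ⟨?_, ?_, ?_, ?_⟩
    · have h5 : g (u₁ + w₂) = a • (U₁ + W₂) + c • (U₂ - W₁) := by
        rw [map_add, e1, e4]
        module
      rw [h5]
      exact E1_mem2 _ _ _ _
    · have h5 : g (u₂ - w₁) = b • (U₁ + W₂) + d • (U₂ - W₁) := by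
        rw [map_sub, e2, e3]
        module
      rw [h5]
      exact E1_mem2 _ _ _ _
    · have h5 : g (u₁ - w₂) = a • (U₁ - W₂) + c • (U₂ + W₁) := by
        rw [map_sub, e1, e4]
        module
      rw [h5]
      exact E1_mem2 _ _ _ _
    · have h5 : g (u₂ + w₁) = b • (U₁ - W₂) + d • (U₂ + W₁) := by
        rw [map_add, e2, e3]
        module
      rw [h5]
      exact E1_mem2 _ _ _ _
  · have hp : p = -d := by linear_combination -hΔp + p * h1
    have hr : r = b := by linear_combination -hΔr + r * h1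
    have hq' : q = c := by linear_combination -hΔq + q * h1
    have hs : s = -a := by linear_combination -hΔs + s * h1
    rw [hp, hr] at e3
    rw [hq', hs] at e4
    right
    refine ⟨?_, ?_, ?_, ?_⟩
    · have h5 : g (u₁ + w₂) = a • (U₁ - W₂) + c • (U₂ + W₁) := by
        rw [map_add, e1, e4]
        module
      rw [h5]
      exact E1_mem2 _ _ _ _
    · have h5 : g (u₂ - w₁) = b • (U₁ - W₂) + d • (U₂ + W₁) := by
        rw [map_sub, e2, e3]
        module
      rw [h5]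
      exact E1_mem2 _ _ _ _
    · have h5 : g (u₁ - w₂) = a • (U₁ + W₂) + c • (U₂ - W₁) := by
        rw [map_sub, e1, e4]
        module
      rw [h5]
      exact E1_mem2 _ _ _ _
    · have h5 : g (u₂ + w₁) = b • (U₁ + W₂) + d • (U₂ - W₁) := by
        rw [map_add, e2, e3]
        module
      rw [h5]
      exact E1_mem2 _ _ _ _

/-- E1 -/
theorem E1 (hq : Fintype.card F = 3) (f : (Fin 4 → F) → (Fin 4 → F) → F)
    (hf : IsSymplecticForm f) (H : Subgroup (GL (Fin 4) F)) (hfix : FixesForm (matrixSet H) f)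
    (D : Fin 2 → Submodule F (Fin 4 → F)) (hD : IsMDecomposition 2 D)
    (hts : ∀ i, IsTotallySingularFor f (D i)) (hHD : H ≤ decompositionStabilizer D) :
    ∃ E : Fin 2 → Submodule F (Fin 4 → F), IsNondegenerateMDecomposition f 2 E ∧
      H ≤ decompositionStabilizer E := by
  have h3 : (3 : F) = 0 := by
    have h := FiniteField.cast_card_eq_zero F
    rw [hq] at h
    exact_mod_cast h
  have h2 : (2 : F) ≠ 0 := fun h => one_ne_zero (α := F) (by linear_combination h3 - h)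
  have hpm : ∀ x : F, x ≠ 0 → x = 1 ∨ x = -1 := by
    intro x hx
    have h := FiniteField.pow_card_sub_one_eq_one x hx
    have e : 3 - 1 = 2 := rfl
    rw [hq, e] at h
    have h4 : (x - 1) * (x + 1) = 0 := by linear_combination h
    rcases mul_eq_zero.1 h4 with h5 | h5
    · exact Or.inl (sub_eq_zero.1 h5)
    · exact Or.inr (eq_neg_of_add_eq_zero_left h5)
  have hb := hf.bilinear
  have hW0 : ∀ x ∈ D 0, ∀ y ∈ D 0, f x y = 0 := hts 0
  have hW1 : ∀ x ∈ D 1, ∀ y ∈ D 1, f x y = 0 := hts 1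
  have hsubl : ∀ x y v, f (x - y) v = f x v - f y v := by
    intro x y v
    have h := hb.add_left (x - y) y v
    rw [sub_add_cancel] at h
    linear_combination (-1 : F) * h
  have hsubr : ∀ v x y, f v (x - y) = f v x - f v y := by
    intro v x y
    have h := hb.add_right v (x - y) y
    rw [sub_add_cancel] at h
    linear_combination (-1 : F) * h
  have hnegr : ∀ v x, f v (-x) = -f v x := by
    intro v x
    have h := hb.smul_right (-1) v x
    rw [neg_one_smul] at h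
    linear_combination h
  -- `V = D 0 + D 1`
  have hsum : ∀ v : Fin 4 → F, ∃ x ∈ D 0, ∃ y ∈ D 1, x + y = v := by
    intro v
    have h5 : v ∈ D 0 ⊔ D 1 := by
      have h6 : iSup D = D 0 ⊔ D 1 :=
        le_antisymm (iSup_le (Fin.forall_fin_two.2 ⟨le_sup_left, le_sup_right⟩))
          (sup_le (le_iSup D 0) (le_iSup D 1))
      rw [← h6, hD.iSup_eq_top]
      trivial
    exact Submodule.mem_sup.1 h5
  -- a basis of `D 0`
  obtain ⟨u₁, u₂, hu₁, hu₂, hspanU⟩ : ∃ u₁ u₂ : Fin 4 → F, u₁ ∈ D 0 ∧ u₂ ∈ D 0 ∧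
      ∀ x ∈ D 0, ∃ α β : F, x = α • u₁ + β • u₂ := by
    let bU := Module.finBasisOfFinrankEq F (↥(D 0)) (hD.finrank_eq 0)
    refine ⟨(bU 0 : Fin 4 → F), (bU 1 : Fin 4 → F), (bU 0).2, (bU 1).2, ?_⟩
    intro x hx
    refine ⟨bU.repr ⟨x, hx⟩ 0, bU.repr ⟨x, hx⟩ 1, ?_⟩
    have h5 := bU.sum_repr ⟨x, hx⟩
    rw [Fin.sum_univ_two] at h5
    have h6 := congrArg (fun z : ↥(D 0) => (z : Fin 4 → F)) h5
    simpa using h6.symm
  -- the pairing of `D 0` with `D 1` is perfect
  have hker : ∀ w ∈ D 1, f u₁ w = 0 → f u₂ w = 0 → w = 0 := by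
    intro w hw h1 h2'
    by_contra hw0
    obtain ⟨x, hx⟩ := (hf.nondegenerate w hw0).1
    obtain ⟨x₁, hx₁, x₂, hx₂, rfl⟩ := hsum x
    obtain ⟨α, β, rfl⟩ := hspanU x₁ hx₁
    apply hx
    rw [hb.add_left, hb.add_left, hb.smul_left, hb.smul_left, h1, h2', hW1 x₂ hx₂ w hw]
    ring
  obtain ⟨w₁, w₂, hw₁, hw₂, h11, h21, h12, h22⟩ : ∃ w₁ w₂ : Fin 4 → F, w₁ ∈ D 1 ∧ w₂ ∈ D 1 ∧
      f u₁ w₁ = 1 ∧ f u₂ w₁ = 0 ∧ f u₁ w₂ = 0 ∧ f u₂ w₂ = 1 := by
    let φ₁ : ↥(D 1) →ₗ[F] F :=
      { toFun := fun w => f u₁ w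
        map_add' := fun w w' => hb.add_right _ _ _
        map_smul' := fun c w => hb.smul_right c _ _ }
    let φ₂ : ↥(D 1) →ₗ[F] F :=
      { toFun := fun w => f u₂ w
        map_add' := fun w w' => hb.add_right _ _ _
        map_smul' := fun c w => hb.smul_right c _ _ }
    have hinj : Function.Injective (φ₁.prod φ₂) := by
      rw [← LinearMap.ker_eq_bot, LinearMap.ker_eq_bot']
      intro w hw
      have h5 : f u₁ (w : Fin 4 → F) = 0 := congrArg Prod.fst hw
      have h6 : f u₂ (w : Fin 4 → F) = 0 := congrArg Prod.snd hw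
      exact Subtype.ext (hker w w.2 h5 h6)
    have hsurj : Function.Surjective (φ₁.prod φ₂) :=
      (LinearMap.injective_iff_surjective_of_finrank_eq_finrank
        (by rw [hD.finrank_eq 1]; simp)).1 hinj
    obtain ⟨w₁, hw₁⟩ := hsurj (1, 0)
    obtain ⟨w₂, hw₂⟩ := hsurj (0, 1)
    exact ⟨w₁, w₂, w₁.2, w₂.2, congrArg Prod.fst hw₁, congrArg Prod.snd hw₁,
      congrArg Prod.fst hw₂, congrArg Prod.snd hw₂⟩
  have hspanW : ∀ w ∈ D 1, w = f u₁ w • w₁ + f u₂ w • w₂ := by
    intro w hw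
    have h5 : w - (f u₁ w • w₁ + f u₂ w • w₂) = 0 := by
      apply hker _ ((D 1).sub_mem hw ((D 1).add_mem ((D 1).smul_mem _ hw₁)
        ((D 1).smul_mem _ hw₂)))
      · rw [hsubr, hb.add_right, hb.smul_right, hb.smul_right, h11, h12]
        ring
      · rw [hsubr, hb.add_right, hb.smul_right, hb.smul_right, h21, h22]
        ring
    exact sub_eq_zero.1 h5
  -- the Gram matrix
  have g11 : f u₁ u₁ = 0 := hf.alternating u₁
  have g12 : f u₁ u₂ = 0 := hW0 u₁ hu₁ u₂ hu₂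
  have g21 : f u₂ u₁ = 0 := hW0 u₂ hu₂ u₁ hu₁
  have g22 : f u₂ u₂ = 0 := hf.alternating u₂
  have k11 : f w₁ w₁ = 0 := hf.alternating w₁
  have k12 : f w₁ w₂ = 0 := hW1 w₁ hw₁ w₂ hw₂
  have k21 : f w₂ w₁ = 0 := hW1 w₂ hw₂ w₁ hw₁
  have k22 : f w₂ w₂ = 0 := hf.alternating w₂
  have s11 : f w₁ u₁ = -1 := by rw [hf.skew, h11]
  have s12 : f w₁ u₂ = 0 := by rw [hf.skew, h21, neg_zero]
  have s21 : f w₂ u₁ = 0 := by rw [hf.skew, h12, neg_zero]
  have s22 : f w₂ u₂ = -1 := by rw [hf.skew, h22]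
  have vP : f (u₁ + w₂) (u₂ - w₁) = -2 := by
    simp only [hb.add_left, hb.add_right, hsubl, hsubr, g11, g12, g21, g22, k11, k12, k21, k22,
      s11, s12, s21, s22, h11, h12, h21, h22]
    ring
  have vM : f (u₁ - w₂) (u₂ + w₁) = 2 := by
    simp only [hb.add_left, hb.add_right, hsubl, hsubr, g11, g12, g21, g22, k11, k12, k21, k22,
      s11, s12, s21, s22, h11, h12, h21, h22]
    ring
  have o13 : f (u₁ + w₂) (u₁ - w₂) = 0 := by
    simp only [hb.add_left, hb.add_right, hsubl, hsubr, g11, g12, g21, g22, k11, k12, k21, k22,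
      s11, s12, s21, s22, h11, h12, h21, h22]
    ring
  have o14 : f (u₁ + w₂) (u₂ + w₁) = 0 := by
    simp only [hb.add_left, hb.add_right, hsubl, hsubr, g11, g12, g21, g22, k11, k12, k21, k22,
      s11, s12, s21, s22, h11, h12, h21, h22]
    ring
  have o23 : f (u₂ - w₁) (u₁ - w₂) = 0 := by
    simp only [hb.add_left, hb.add_right, hsubl, hsubr, g11, g12, g21, g22, k11, k12, k21, k22,
      s11, s12, s21, s22, h11, h12, h21, h22]
    ring
  have o24 : f (u₂ - w₁) (u₂ + w₁) = 0 := by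
    simp only [hb.add_left, hb.add_right, hsubl, hsubr, g11, g12, g21, g22, k11, k12, k21, k22,
      s11, s12, s21, s22, h11, h12, h21, h22]
    ring
  -- the two planes
  obtain ⟨Ep, hEp⟩ : ∃ Ep : Submodule F (Fin 4 → F),
      Ep = Submodule.span F ({u₁ + w₂, u₂ - w₁} : Set (Fin 4 → F)) := ⟨_, rfl⟩
  obtain ⟨Em, hEm⟩ : ∃ Em : Submodule F (Fin 4 → F),
      Em = Submodule.span F ({u₁ - w₂, u₂ + w₁} : Set (Fin 4 → F)) := ⟨_, rfl⟩
  have hvP : f (u₁ + w₂) (u₂ - w₁) ≠ 0 := by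
    rw [vP]
    exact neg_ne_zero.2 h2
  have hvM : f (u₁ - w₂) (u₂ + w₁) ≠ 0 := by
    rw [vM]
    exact h2
  have hPfr : Module.finrank F Ep = 2 := by
    rw [hEp]
    exact (E1_plane f hf _ _ hvP).1
  have hPnd : IsNondegenerateOn f Ep := by
    rw [hEp]
    exact (E1_plane f hf _ _ hvP).2
  have hMfr : Module.finrank F Em = 2 := by
    rw [hEm]
    exact (E1_plane f hf _ _ hvM).1
  have hMnd : IsNondegenerateOn f Em := by
    rw [hEm]
    exact (E1_plane f hf _ _ hvM).2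
  have hPM : AreOrthogonalFor f Ep Em := by
    rw [hEp, hEm]
    exact E1_orth f hb _ _ _ _ o13 o14 o23 o24
  have hMP : AreOrthogonalFor f Em Ep := by
    intro x hx y hy
    rw [hf.skew, hPM y hy x hx, neg_zero]
  have hdisj : Disjoint Ep Em := by
    rw [Submodule.disjoint_def]
    intro x hx1 hx2
    by_contra hx0
    obtain ⟨⟨y, hy, hyx⟩, -⟩ := hPnd x hx1 hx0
    exact hyx (hPM y hy x hx2)
  obtain ⟨E, hE0, hE1⟩ : ∃ E : Fin 2 → Submodule F (Fin 4 → F), E 0 = Ep ∧ E 1 = Em :=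
    ⟨![Ep, Em], rfl, rfl⟩
  have htop : iSup E = ⊤ := by
    have h5 : iSup E = E 0 ⊔ E 1 :=
      le_antisymm (iSup_le (Fin.forall_fin_two.2 ⟨le_sup_left, le_sup_right⟩))
        (sup_le (le_iSup E 0) (le_iSup E 1))
    rw [h5, hE0, hE1]
    apply Submodule.eq_top_of_finrank_eq
    have h6 := Submodule.finrank_sup_add_finrank_inf_eq Ep Em
    rw [hdisj.eq_bot, finrank_bot, add_zero, hPfr, hMfr] at h6
    rw [h6]
    simp
  have hindep : iSupIndep E :=
    (iSupIndep_pair (i := (0 : Fin 2)) (j := 1) (by decide) (by decide)).2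
      (by rw [hE0, hE1]; exact hdisj)
  refine ⟨E, ⟨⟨le_rfl, by norm_num, Fin.forall_fin_two.2 ⟨?_, ?_⟩, hindep, htop⟩,
    Fin.forall_fin_two.2 ⟨?_, ?_⟩,
    Fin.forall_fin_two.2 ⟨Fin.forall_fin_two.2 ⟨fun h => absurd rfl h, fun _ => ?_⟩,
      Fin.forall_fin_two.2 ⟨fun _ => ?_, fun h => absurd rfl h⟩⟩⟩, ?_⟩
  · rw [hE0]; exact hPfr
  · rw [hE1]; exact hMfr
  · rw [hE0]; exact hPnd
  · rw [hE1]; exact hMnd
  · rw [hE0, hE1]; exact hPM
  · rw [hE0, hE1]; exact hMP
  -- the stabiliser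
  intro g hg
  obtain ⟨σ, hσ⟩ := hHD hg
  have hgf : ∀ x y, f (Matrix.toLin' g.1 x) (Matrix.toLin' g.1 y) = f x y := by
    intro x y
    rw [Matrix.toLin'_apply, Matrix.toLin'_apply]
    exact hfix g.1 ⟨g, hg, rfl⟩ x y
  have hmm : ∀ i, ∀ x ∈ D i, Matrix.toLin' g.1 x ∈ D (σ i) := by
    intro i x hx
    rw [← hσ i]
    exact Submodule.mem_map_of_mem hx
  have hginj : Function.Injective (Matrix.toLin' g.1) := by
    intro x y hxy
    rw [Matrix.toLin'_apply, Matrix.toLin'_apply] at hxy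
    have h5 := congrArg (fun z => (g⁻¹ : GL (Fin 4) F).1 *ᵥ z) hxy
    simp only [Matrix.mulVec_mulVec, ← Units.val_mul, inv_mul_cancel, Units.val_one,
      Matrix.one_mulVec] at h5
    exact h5
  have h01 : ∀ i : Fin 2, i = 0 ∨ i = 1 := by decide
  have hσne : σ 0 ≠ σ 1 := fun h => absurd (σ.injective h) (by decide)
  have hQ : (Matrix.toLin' g.1 (u₁ + w₂) ∈ Ep ∧ Matrix.toLin' g.1 (u₂ - w₁) ∈ Ep ∧
      Matrix.toLin' g.1 (u₁ - w₂) ∈ Em ∧ Matrix.toLin' g.1 (u₂ + w₁) ∈ Em) ∨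
      (Matrix.toLin' g.1 (u₁ + w₂) ∈ Em ∧ Matrix.toLin' g.1 (u₂ - w₁) ∈ Em ∧
      Matrix.toLin' g.1 (u₁ - w₂) ∈ Ep ∧ Matrix.toLin' g.1 (u₂ + w₁) ∈ Ep) := by
    rcases h01 (σ 0) with h0 | h0
    · have h1' : σ 1 = 1 := by
        rcases h01 (σ 1) with h | h
        · exact absurd (h0.trans h.symm) hσne
        · exact h
      have m1 : Matrix.toLin' g.1 u₁ ∈ D 0 := by rw [← h0]; exact hmm 0 u₁ hu₁
      have m2 : Matrix.toLin' g.1 u₂ ∈ D 0 := by rw [← h0]; exact hmm 0 u₂ hu₂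
      have m3 : Matrix.toLin' g.1 w₁ ∈ D 1 := by rw [← h1']; exact hmm 1 w₁ hw₁
      have m4 : Matrix.toLin' g.1 w₂ ∈ D 1 := by rw [← h1']; exact hmm 1 w₂ hw₂
      obtain ⟨a, c, e1⟩ := hspanU _ m1
      obtain ⟨b, d, e2⟩ := hspanU _ m2
      have e3 := hspanW _ m3
      have e4 := hspanW _ m4
      rw [hEp, hEm]
      exact E1_key hpm f hb (Matrix.toLin' g.1) hgf u₁ u₂ w₁ w₂ u₁ u₂ w₁ w₂ h11 h12 h21 h22
        h11 h12 h21 h22 a b c d _ _ _ _ e1 e2 e3 e4
    · have h1' : σ 1 = 0 := by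
        rcases h01 (σ 1) with h | h
        · exact h
        · exact absurd (h0.trans h.symm) hσne
      have m1 : Matrix.toLin' g.1 u₁ ∈ D 1 := by rw [← h0]; exact hmm 0 u₁ hu₁
      have m2 : Matrix.toLin' g.1 u₂ ∈ D 1 := by rw [← h0]; exact hmm 0 u₂ hu₂
      have m3 : Matrix.toLin' g.1 w₁ ∈ D 0 := by rw [← h1']; exact hmm 1 w₁ hw₁
      have m4 : Matrix.toLin' g.1 w₂ ∈ D 0 := by rw [← h1']; exact hmm 1 w₂ hw₂
      have e1 := hspanW _ m1
      have e2 := hspanW _ m2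
      obtain ⟨p', r', e3⟩ := hspanU _ m3
      obtain ⟨q', s', e4⟩ := hspanU _ m4
      have H11 : f w₁ (-u₁) = 1 := by rw [hnegr, s11, neg_neg]
      have H12 : f w₁ (-u₂) = 0 := by rw [hnegr, s12, neg_zero]
      have H21 : f w₂ (-u₁) = 0 := by rw [hnegr, s21, neg_zero]
      have H22 : f w₂ (-u₂) = 1 := by rw [hnegr, s22, neg_neg]
      have key := E1_key hpm f hb (Matrix.toLin' g.1) hgf u₁ u₂ w₁ w₂ w₁ w₂ (-u₁) (-u₂)
        h11 h12 h21 h22 H11 H12 H21 H22 _ _ _ _ (-p') (-q') (-r') (-s') e1 e2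
        (by rw [e3]; module) (by rw [e4]; module)
      have hP' : Submodule.span F ({w₁ + -u₂, w₂ - -u₁} : Set (Fin 4 → F)) = Ep := by
        rw [hEp]
        exact E1_span_eq (u₁ + w₂) (u₂ - w₁) (w₁ + -u₂) (w₂ - -u₁) 0 (-1) 1 0 0 1 (-1) 0
          (by module) (by module) (by module) (by module)
      have hM' : Submodule.span F ({w₁ - -u₂, w₂ + -u₁} : Set (Fin 4 → F)) = Em := by
        rw [hEm]
        exact E1_span_eq (u₁ - w₂) (u₂ + w₁) (w₁ - -u₂) (w₂ + -u₁) 0 1 (-1) 0 0 (-1) 1 0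
          (by module) (by module) (by module) (by module)
      rw [hP', hM'] at key
      exact key
  have hmapeq : ∀ (x y : Fin 4 → F) (S T : Submodule F (Fin 4 → F)),
      S = Submodule.span F ({x, y} : Set (Fin 4 → F)) → Module.finrank F S = 2 →
      Module.finrank F T = 2 → Matrix.toLin' g.1 x ∈ T → Matrix.toLin' g.1 y ∈ T →
      S.map (Matrix.toLin' g.1) = T := by
    intro x y S T hS hS2 hT2 hx hy
    apply Submodule.eq_of_le_of_finrank_eq
    · rw [hS, Submodule.map_span_le]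
      intro z hz
      rcases hz with hz | hz
      · rw [hz]
        exact hx
      · rw [Set.mem_singleton_iff] at hz
        rw [hz]
        exact hy
    · rw [hT2, ← (Submodule.equivMapOfInjective _ hginj _).finrank_eq, hS2]
  show ∃ σ' : Equiv.Perm (Fin 2), ∀ i, (E i).map (Matrix.toLin' g.1) = E (σ' i)
  rcases hQ with ⟨q1, q2, q3, q4⟩ | ⟨q1, q2, q3, q4⟩
  · refine ⟨1, Fin.forall_fin_two.2 ⟨?_, ?_⟩⟩
    · show (E 0).map (Matrix.toLin' g.1) = E 0
      rw [hE0]
      exact hmapeq _ _ Ep Ep hEp hPfr hPfr q1 q2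
    · show (E 1).map (Matrix.toLin' g.1) = E 1
      rw [hE1]
      exact hmapeq _ _ Em Em hEm hMfr hMfr q3 q4
  · refine ⟨Equiv.swap 0 1, Fin.forall_fin_two.2 ⟨?_, ?_⟩⟩
    · show (E 0).map (Matrix.toLin' g.1) = E (Equiv.swap (0 : Fin 2) 1 0)
      rw [Equiv.swap_apply_left, hE0, hE1]
      exact hmapeq _ _ Ep Em hEp hPfr hMfr q1 q2
    · show (E 1).map (Matrix.toLin' g.1) = E (Equiv.swap (0 : Fin 2) 1 1)
      rw [Equiv.swap_apply_right, hE1, hE0]
      exact hmapeq _ _ Em Ep hEm hMfr hPfr q3 q4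

end Cfsg.Agent.Lib.Helper54.SP4O
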