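import Mathlib
import Cfsg.Prelude.Def_GeometricClasses

/-! Project SP4O (helper54; S5787): the standard pair `(G₀, j₀)` for the exception `E2`
(`q = 3`, field subalgebra of unitary type): Gram matrix `J ⊕ J` and `j₀ = -(J ⊕ J)`. -/

set_option autoImplicit false

namespace Cfsg.Agent.Lib.Helper54.SP4O

open Matrix Cfsg.Geo

/-- the standard Gram matrix `J ⊕ J`, `J = [[0,1],[-1,0]]` -/
def E2G0 (F : Type*) [Field F] : Matrix (Fin 4) (Fin 4) F :=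
  !![0, 1, 0, 0; -1, 0, 0, 0; 0, 0, 0, 1; 0, 0, -1, 0]

/-- the standard `j₀` (`j₀ e₀ = e₁`, `j₀ e₁ = -e₀`, `j₀ e₂ = e₃`, `j₀ e₃ = -e₂`) -/
def E2j0 (F : Type*) [Field F] : Matrix (Fin 4) (Fin 4) F :=
  !![0, -1, 0, 0; 1, 0, 0, 0; 0, 0, 0, -1; 0, 0, 1, 0]

end Cfsg.Agent.Lib.Helper54.SP4O
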