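import Mathlib
import Cfsg.Prelude.Def_GeometricClasses
import Cfsg.Agent.Lib.Helper54.SP4OE2Defs

/-! Project SP4O (helper54; S5787): definitions for the "lite" treatment of the exception `E2`
(`q = 3`): the group `T = 2^(1+4)_-` is DEFINED by predicates, so that the normaliser `N₀` of
`F[j₀]` in `Sp(G₀)` normalises it for structural reasons. -/

set_option autoImplicit false

namespace Cfsg.Agent.Lib.Helper54.SP4O

open Matrix Cfsg.Geo

/-- `σ = 1 ⊗ [[1,1],[1,-1]]` (over `F_3`: an isometry of `G₀`, `σ² = -1`, `σ j₀ = -j₀ σ`) -/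
def E2sig (F : Type*) [Field F] : Matrix (Fin 4) (Fin 4) F :=
  !![1, 1, 0, 0; 1, -1, 0, 0; 0, 0, 1, 1; 0, 0, 1, -1]

variable {F : Type*} [Field F]

/-- `x` is an isometry of `G₀` commuting or anticommuting with `j₀` (the group `N₀`) -/
def E2Npred (x : Matrix (Fin 4) (Fin 4) F) : Prop :=
  xᵀ * E2G0 F * x = E2G0 F ∧ (x * E2j0 F = E2j0 F * x ∨ x * E2j0 F = -(E2j0 F * x))

/-- `y` is an isometry of `G₀` commuting with `j₀`, with `y² = -1` (the set `S₁`) -/
def E2S1pred (y : Matrix (Fin 4) (Fin 4) F) : Prop :=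
  yᵀ * E2G0 F * y = E2G0 F ∧ y * E2j0 F = E2j0 F * y ∧ y * y = -1

/-- `x ∈ N₀` commutes or anticommutes with every element of `S₁` (the group `T`) -/
def E2Tpred (x : Matrix (Fin 4) (Fin 4) F) : Prop :=
  E2Npred x ∧ ∀ y : Matrix (Fin 4) (Fin 4) F, E2S1pred y → (x * y = y * x ∨ x * y = -(y * x))

end Cfsg.Agent.Lib.Helper54.SP4O
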