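import Mathlib
import Cfsg.Prelude.Def_GeometricClasses
import Cfsg.Agent.Lib.Helper54.SP4OE2Defs
import Cfsg.Agent.Lib.Helper54.SP4OE2LDefs

/-! Project SP4O (helper54; S5787, Sp_4(q), q odd): piece `E2LJ` of the exception q = 3 (lite route). q = 3: g j0 g^-1 in span{1, j0} forces g j0 = +- j0 g. -/

set_option autoImplicit false

namespace Cfsg.Agent.Lib.Helper54.SP4O

open Matrix Cfsg.Geo

variable {F : Type*} [Field F] [Fintype F]

theorem E2LJ_three (hq : Fintype.card F = 3) :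
    (3 : F) = 0 ∧ ∀ x : F, x = 0 ∨ x = 1 ∨ x = -1 := by
  have h3 : (3 : F) = 0 := by
    have h := Nat.cast_card_eq_zero F
    rw [hq] at h
    exact_mod_cast h
  refine ⟨h3, ?_⟩
  intro x
  have hx : x ^ 3 = x := by
    have h := FiniteField.pow_card x
    rwa [hq] at h
  have h0 : x * ((x - 1) * (x + 1)) = 0 := by linear_combination hx
  rcases mul_eq_zero.mp h0 with h | h
  · exact Or.inl h
  · rcases mul_eq_zero.mp h with h | h
    · exact Or.inr (Or.inl (sub_eq_zero.mp h))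
    · exact Or.inr (Or.inr (eq_neg_of_add_eq_zero_left h))

omit [Fintype F] in
theorem E2LJ_sq (a b : F) (i j : Fin 4) :
    ((a • (1 : Matrix (Fin 4) (Fin 4) F) + b • E2j0 F) *
      (a • (1 : Matrix (Fin 4) (Fin 4) F) + b • E2j0 F)) i j =
    ((a * a - b * b) • (1 : Matrix (Fin 4) (Fin 4) F) + (2 * a * b) • E2j0 F) i j := by
  fin_cases i <;> fin_cases j <;>
    simp [E2j0, Matrix.mul_apply, Fin.sum_univ_four] <;> ring

omit [Fintype F] in
theorem E2LJ_j0sq : E2j0 F * E2j0 F = -1 := by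
  ext i j
  fin_cases i <;> fin_cases j <;> simp [E2j0, Matrix.mul_apply, Fin.sum_univ_four]

/-- E2LJ -/
theorem E2LJ (hq : Fintype.card F = 3) (g : GL (Fin 4) F)
    (h : ∃ a b : F, g.1 * E2j0 F * (g⁻¹ : GL (Fin 4) F).1 =
      a • (1 : Matrix (Fin 4) (Fin 4) F) + b • E2j0 F) :
    g.1 * E2j0 F = E2j0 F * g.1 ∨ g.1 * E2j0 F = -(E2j0 F * g.1) := by
  obtain ⟨a, b, hab⟩ := h
  obtain ⟨h3, hF⟩ := E2LJ_three hq
  have h2 : (2 : F) ≠ 0 := by
    intro h2
    have h1 : (1 : F) = 0 := by linear_combination h3 - h2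
    exact one_ne_zero h1
  have hginv : (g⁻¹ : GL (Fin 4) F).1 * g.1 = 1 := by
    rw [← Units.val_mul, inv_mul_cancel, Units.val_one]
  have hcc : (g.1 * E2j0 F * (g⁻¹ : GL (Fin 4) F).1) *
      (g.1 * E2j0 F * (g⁻¹ : GL (Fin 4) F).1) = -1 := by
    calc (g.1 * E2j0 F * (g⁻¹ : GL (Fin 4) F).1) * (g.1 * E2j0 F * (g⁻¹ : GL (Fin 4) F).1)
        = g.1 * E2j0 F * ((g⁻¹ : GL (Fin 4) F).1 * g.1) * E2j0 F * (g⁻¹ : GL (Fin 4) F).1 := by
          simp only [Matrix.mul_assoc]
      _ = g.1 * (E2j0 F * E2j0 F) * (g⁻¹ : GL (Fin 4) F).1 := by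
          rw [hginv, Matrix.mul_one]
          simp only [Matrix.mul_assoc]
      _ = -1 := by
          rw [E2LJ_j0sq, Matrix.mul_neg, Matrix.mul_one, Matrix.neg_mul, ← Units.val_mul,
            mul_inv_cancel, Units.val_one]
  rw [hab] at hcc
  have e00 : a * a - b * b = -1 := by
    have h0 := congrFun (congrFun hcc 0) 0
    rw [E2LJ_sq] at h0
    simpa [E2j0] using h0
  have e10 : 2 * a * b = 0 := by
    have h0 := congrFun (congrFun hcc 1) 0
    rw [E2LJ_sq] at h0
    simpa [E2j0] using h0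
  have ha0 : a = 0 := by
    rcases mul_eq_zero.mp e10 with h | h
    · rcases mul_eq_zero.mp h with h | h
      · exact absurd h h2
      · exact h
    · exfalso
      rw [h] at e00
      rcases hF a with ha | ha | ha
      · rw [ha] at e00
        have h1 : (1 : F) = 0 := by linear_combination e00
        exact one_ne_zero h1
      · rw [ha] at e00
        have h1 : (2 : F) = 0 := by linear_combination e00
        exact h2 h1
      · rw [ha] at e00
        have h1 : (2 : F) = 0 := by linear_combination e00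
        exact h2 h1
  rw [ha0] at e00 hab
  have hconj : ∀ c : F, g.1 * E2j0 F * (g⁻¹ : GL (Fin 4) F).1 = c • E2j0 F →
      g.1 * E2j0 F = c • (E2j0 F * g.1) := by
    intro c hc
    calc g.1 * E2j0 F = g.1 * E2j0 F * ((g⁻¹ : GL (Fin 4) F).1 * g.1) := by
          rw [hginv, Matrix.mul_one]
      _ = (g.1 * E2j0 F * (g⁻¹ : GL (Fin 4) F).1) * g.1 := by simp only [Matrix.mul_assoc]
      _ = c • (E2j0 F * g.1) := by rw [hc, Matrix.smul_mul]
  have hab' : g.1 * E2j0 F * (g⁻¹ : GL (Fin 4) F).1 = b • E2j0 F := by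
    rw [hab, zero_smul, zero_add]
  have hb := hconj b hab'
  rcases hF b with hb0 | hb1 | hb1
  · exfalso
    rw [hb0] at e00
    have h1 : (1 : F) = 0 := by linear_combination e00
    exact one_ne_zero h1
  · left
    rw [hb, hb1, one_smul]
  · right
    rw [hb, hb1, neg_smul, one_smul]

end Cfsg.Agent.Lib.Helper54.SP4O
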