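import Mathlib
import Cfsg.Prelude.Def_GeometricClasses
import Cfsg.Agent.Lib.Helper54.SP4OE2Defs
import Cfsg.Agent.Lib.Helper54.SP4OE2LDefs

/-! Project SP4O (helper54; S5787, Sp_4(q), q odd): piece `E2LX1` of the exception q = 3 (lite route). q = 3: sigma commutes or anticommutes with every element of S1 (enumeration 1). -/

set_option autoImplicit false

namespace Cfsg.Agent.Lib.Helper54.SP4O

open Matrix Cfsg.Geo

variable {F : Type*} [Field F] [Fintype F]

/-- a field with three elements: `3 = 0` and every element is `0`, `1` or `-1` -/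
theorem E2LX1_three (hq : Fintype.card F = 3) :
    (3 : F) = 0 ∧ ∀ x : F, x = 0 ∨ x = 1 ∨ x = -1 := by
  have h3 : (3 : F) = 0 := by
    have h := Nat.cast_card_eq_zero F
    rw [hq] at h
    exact_mod_cast h
  refine ⟨h3, ?_⟩
  intro x
  have hx : x ^ 3 = x := by
    have h := FiniteField.pow_card x
    rwa [hq] at h
  have h0 : x * ((x - 1) * (x + 1)) = 0 := by linear_combination hx
  rcases mul_eq_zero.mp h0 with h | h
  · exact Or.inl h
  · rcases mul_eq_zero.mp h with h | h
    · exact Or.inr (Or.inl (sub_eq_zero.mp h))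
    · exact Or.inr (Or.inr (eq_neg_of_add_eq_zero_left h))

omit [Fintype F] in
/-- in a field with three elements a sum of two squares vanishes only trivially -/
theorem E2LX1_sumsq (h2 : (2 : F) ≠ 0) (hcases : ∀ x : F, x = 0 ∨ x = 1 ∨ x = -1) (p b : F)
    (h : p * p + b * b = 0) : p = 0 ∧ b = 0 := by
  rcases hcases p with rfl | rfl | rfl <;> rcases hcases b with rfl | rfl | rfl
  · exact ⟨rfl, rfl⟩
  · exact absurd (by linear_combination h : (1 : F) = 0) one_ne_zero
  · exact absurd (by linear_combination h : (1 : F) = 0) one_ne_zero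
  · exact absurd (by linear_combination h : (1 : F) = 0) one_ne_zero
  · exact absurd (by linear_combination h : (2 : F) = 0) h2
  · exact absurd (by linear_combination h : (2 : F) = 0) h2
  · exact absurd (by linear_combination h : (1 : F) = 0) one_ne_zero
  · exact absurd (by linear_combination h : (2 : F) = 0) h2
  · exact absurd (by linear_combination h : (2 : F) = 0) h2

omit [Fintype F] in
/-- the explicit shape of an element of `S₁`: entries of the square -/
theorem E2LX1_sq (p a b s : F) :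
    ((!![0, -p, a, -b; p, 0, b, a; -a, -b, 0, -s; b, -a, s, 0] : Matrix (Fin 4) (Fin 4) F) *
        !![0, -p, a, -b; p, 0, b, a; -a, -b, 0, -s; b, -a, s, 0]) 0 0 = -(p * p + a * a + b * b) ∧
    ((!![0, -p, a, -b; p, 0, b, a; -a, -b, 0, -s; b, -a, s, 0] : Matrix (Fin 4) (Fin 4) F) *
        !![0, -p, a, -b; p, 0, b, a; -a, -b, 0, -s; b, -a, s, 0]) 0 3 = -((p + s) * a) := by
  constructor
  · simp [Matrix.mul_apply, Fin.sum_univ_four]
    ring
  · simp [Matrix.mul_apply, Fin.sum_univ_four]
    ring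

omit [Fintype F] in
theorem E2LX1_anti (p b s : F) :
    E2sig F * (!![0, -p, 0, -b; p, 0, b, 0; -0, -b, 0, -s; b, -0, s, 0] : Matrix (Fin 4) (Fin 4) F) =
      -((!![0, -p, 0, -b; p, 0, b, 0; -0, -b, 0, -s; b, -0, s, 0] : Matrix (Fin 4) (Fin 4) F) *
        E2sig F) := by
  ext i j
  fin_cases i <;> fin_cases j <;> simp [E2sig, Matrix.mul_apply, Fin.sum_univ_four]

omit [Fintype F] in
theorem E2LX1_comm (a : F) :
    E2sig F * (!![0, -0, a, -0; 0, 0, 0, a; -a, -0, 0, -0; 0, -a, 0, 0] : Matrix (Fin 4) (Fin 4) F) =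
      (!![0, -0, a, -0; 0, 0, 0, a; -a, -0, 0, -0; 0, -a, 0, 0] : Matrix (Fin 4) (Fin 4) F) *
        E2sig F := by
  ext i j
  fin_cases i <;> fin_cases j <;> simp [E2sig, Matrix.mul_apply, Fin.sum_univ_four]

/-- E2LX1 -/
theorem E2LX1 (hq : Fintype.card F = 3) (y : Matrix (Fin 4) (Fin 4) F) (hy : E2S1pred y) :
    E2sig F * y = y * E2sig F ∨ E2sig F * y = -(y * E2sig F) := by
  obtain ⟨h3, hcases⟩ := E2LX1_three hq
  obtain ⟨hiso, hc, hsq⟩ := hy
  have h2 : (2 : F) ≠ 0 := by
    intro h
    have h1 : (1 : F) = 0 := by linear_combination h3 - h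
    exact one_ne_zero h1
  -- `yᵀ G₀ = -(G₀ y)`
  have hs : yᵀ * E2G0 F = -(E2G0 F * y) := by
    have h1 : yᵀ * E2G0 F * y * y = E2G0 F * y := by rw [hiso]
    rw [Matrix.mul_assoc (yᵀ * E2G0 F) y y, hsq, Matrix.mul_neg, Matrix.mul_one] at h1
    rw [← h1, neg_neg]
  -- entries
  have c00 := congrFun (congrFun hc 0) 0
  have c10 := congrFun (congrFun hc 1) 0
  have c20 := congrFun (congrFun hc 2) 0
  have c30 := congrFun (congrFun hc 3) 0
  have c02 := congrFun (congrFun hc 0) 2
  have c12 := congrFun (congrFun hc 1) 2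
  have c22 := congrFun (congrFun hc 2) 2
  have c32 := congrFun (congrFun hc 3) 2
  have s01 := congrFun (congrFun hs 0) 1
  have s02 := congrFun (congrFun hs 0) 2
  have s03 := congrFun (congrFun hs 0) 3
  have s23 := congrFun (congrFun hs 2) 3
  simp [E2j0, Matrix.mul_apply, Fin.sum_univ_four] at c00 c10 c20 c30 c02 c12 c22 c32
  simp only [Matrix.mul_apply, Fin.sum_univ_four, Matrix.transpose_apply, Matrix.neg_apply]
    at s01 s02 s03 s23
  simp [E2G0] at s01 s02 s03 s23
  have e11 : y 1 1 = y 0 0 := by linear_combination c10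
  have e00 : y 0 0 = 0 := by
    have h : (2 : F) * y 0 0 = 0 := by linear_combination s01 - c10
    exact (mul_eq_zero.mp h).resolve_left h2
  have e33 : y 3 3 = y 2 2 := by linear_combination c32
  have e22 : y 2 2 = 0 := by
    have h : (2 : F) * y 2 2 = 0 := by linear_combination s23 - c32
    exact (mul_eq_zero.mp h).resolve_left h2
  have e01 : y 0 1 = -y 1 0 := by linear_combination c00
  have e03 : y 0 3 = -y 1 2 := by linear_combination c02
  have e13 : y 1 3 = y 0 2 := by linear_combination c12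
  have e30 : y 3 0 = y 1 2 := by linear_combination s02
  have e20 : y 2 0 = -y 0 2 := by linear_combination s03 - c12
  have e21 : y 2 1 = -y 1 2 := by linear_combination c20 - e30
  have e31 : y 3 1 = -y 0 2 := by linear_combination c30 + e20
  have e23 : y 2 3 = -y 3 2 := by linear_combination c22
  obtain ⟨p, hp⟩ : ∃ p, p = y 1 0 := ⟨_, rfl⟩
  obtain ⟨a, ha⟩ : ∃ a, a = y 0 2 := ⟨_, rfl⟩
  obtain ⟨b, hb⟩ : ∃ b, b = y 1 2 := ⟨_, rfl⟩
  obtain ⟨s, hs'⟩ : ∃ s, s = y 3 2 := ⟨_, rfl⟩
  have hyM : y = !![0, -p, a, -b; p, 0, b, a; -a, -b, 0, -s; b, -a, s, 0] := by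
    ext i j
    fin_cases i <;> fin_cases j <;>
      simp [hp, ha, hb, hs', e00, e01, e03, e13, e30, e20, e21, e31, e23, e11, e22, e33]
  rw [hyM] at hsq
  obtain ⟨k00, k03⟩ := E2LX1_sq p a b s
  have q00 := congrFun (congrFun hsq 0) 0
  have q03 := congrFun (congrFun hsq 0) 3
  rw [k00] at q00
  rw [k03] at q03
  simp at q00 q03
  have hN : p * p + a * a + b * b = 1 := by linear_combination -q00
  rw [hyM]
  by_cases ha0 : a = 0
  · right
    rw [ha0]
    exact E2LX1_anti p b s
  · left
    have hps : p + s = 0 := by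
      rcases q03 with h | h
      · exact h
      · exact absurd h ha0
    have haa : a * a = 1 := by
      rcases hcases a with h | h | h
      · exact absurd h ha0
      · rw [h, mul_one]
      · rw [h]
        ring
    have hpb : p * p + b * b = 0 := by linear_combination hN - haa
    obtain ⟨hp0, hb0⟩ := E2LX1_sumsq h2 hcases p b hpb
    have hs0 : s = 0 := by linear_combination hps - hp0
    rw [hp0, hb0, hs0]
    exact E2LX1_comm a

end Cfsg.Agent.Lib.Helper54.SP4O
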