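import Mathlib
import Cfsg.Prelude.Def_GeometricClasses
import Cfsg.Agent.Lib.Helper54.SP4OE2Defs
import Cfsg.Agent.Lib.Helper54.SP4OE2LDefs

/-! Project SP4O (helper54; S5787, Sp_4(q), q odd): piece `E2LX2` of the exception q = 3 (lite route). q = 3: the elements of T commuting with j0 commute or anticommute with sigma (enumeration 2). -/

set_option autoImplicit false

namespace Cfsg.Agent.Lib.Helper54.SP4O

open Matrix Cfsg.Geo

variable {F : Type*} [Field F] [Fintype F]

/-- a field with three elements: `3 = 0` and every element is `0`, `1` or `-1` -/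
theorem E2LX2_three (hq : Fintype.card F = 3) :
    (3 : F) = 0 ∧ ∀ x : F, x = 0 ∨ x = 1 ∨ x = -1 := by
  have h3 : (3 : F) = 0 := by
    have h := Nat.cast_card_eq_zero F
    rw [hq] at h
    exact_mod_cast h
  refine ⟨h3, ?_⟩
  intro x
  have hx : x ^ 3 = x := by
    have h := FiniteField.pow_card x
    rwa [hq] at h
  have h0 : x * ((x - 1) * (x + 1)) = 0 := by linear_combination hx
  rcases mul_eq_zero.mp h0 with h | h
  · exact Or.inl h
  · rcases mul_eq_zero.mp h with h | h
    · exact Or.inr (Or.inl (sub_eq_zero.mp h))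
    · exact Or.inr (Or.inr (eq_neg_of_add_eq_zero_left h))

/-- over `F_3`: `u² + v² = 1` forces `u = 0` or `v = 0` -/
theorem E2LX2_sq (hq : Fintype.card F = 3) (u v : F) (h : u ^ 2 + v ^ 2 = 1) : u = 0 ∨ v = 0 := by
  obtain ⟨h3, hthree⟩ := E2LX2_three hq
  have hcon : ∀ a b : F, a ^ 2 = 1 → b ^ 2 = 1 → a ^ 2 + b ^ 2 = 1 → False := by
    intro a b ha hb hab
    have h10 : (1 : F) = 0 := by linear_combination hab - ha - hb
    exact one_ne_zero h10
  rcases hthree u with hu | hu | hu
  · exact Or.inl hu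
  · rcases hthree v with hv | hv | hv
    · exact Or.inr hv
    · exact (hcon u v (by rw [hu]; ring) (by rw [hv]; ring) h).elim
    · exact (hcon u v (by rw [hu]; ring) (by rw [hv]; ring) h).elim
  · rcases hthree v with hv | hv | hv
    · exact Or.inr hv
    · exact (hcon u v (by rw [hu]; ring) (by rw [hv]; ring) h).elim
    · exact (hcon u v (by rw [hu]; ring) (by rw [hv]; ring) h).elim

omit [Fintype F] in
/-- `y1 = j₀ * diag(1,1,-1,-1)` lies in `S₁` -/
theorem E2LX2_y1 :
    E2S1pred (!![0, -1, 0, 0; 1, 0, 0, 0; 0, 0, 0, 1; 0, 0, -1, 0] : Matrix (Fin 4) (Fin 4) F) := by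
  refine ⟨?_, ?_, ?_⟩ <;>
  · ext i j
    fin_cases i <;> fin_cases j <;>
      simp [E2G0, E2j0, Matrix.mul_apply, Fin.sum_univ_four, Matrix.transpose_apply]

omit [Fintype F] in
/-- `y2 = j₀ * (swap ⊗ 1)` lies in `S₁` -/
theorem E2LX2_y2 :
    E2S1pred (!![0, 0, 0, -1; 0, 0, 1, 0; 0, -1, 0, 0; 1, 0, 0, 0] : Matrix (Fin 4) (Fin 4) F) := by
  refine ⟨?_, ?_, ?_⟩ <;>
  · ext i j
    fin_cases i <;> fin_cases j <;>
      simp [E2G0, E2j0, Matrix.mul_apply, Fin.sum_univ_four, Matrix.transpose_apply]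

omit [Fintype F] in
/-- a `j₀`-linear matrix with "real" entries commutes with `σ` -/
theorem E2LX2_comm (x : Matrix (Fin 4) (Fin 4) F)
    (e00 : x 0 1 = -x 1 0) (e10 : x 1 1 = x 0 0) (e20 : x 2 1 = -x 3 0) (e30 : x 3 1 = x 2 0)
    (e02 : x 0 3 = -x 1 2) (e12 : x 1 3 = x 0 2) (e22 : x 2 3 = -x 3 2) (e32 : x 3 3 = x 2 2)
    (b0 : x 1 0 = 0) (b1 : x 1 2 = 0) (b2 : x 3 0 = 0) (b3 : x 3 2 = 0) :
    x * E2sig F = E2sig F * x := by
  ext i j
  simp only [Matrix.mul_apply, Fin.sum_univ_four]
  fin_cases i <;> fin_cases j <;>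
    simp [E2sig, e00, e10, e20, e30, e02, e12, e22, e32, b0, b1, b2, b3]

omit [Fintype F] in
/-- a `j₀`-linear matrix with "imaginary" entries anticommutes with `σ` -/
theorem E2LX2_anti (x : Matrix (Fin 4) (Fin 4) F)
    (e00 : x 0 1 = -x 1 0) (e10 : x 1 1 = x 0 0) (e20 : x 2 1 = -x 3 0) (e30 : x 3 1 = x 2 0)
    (e02 : x 0 3 = -x 1 2) (e12 : x 1 3 = x 0 2) (e22 : x 2 3 = -x 3 2) (e32 : x 3 3 = x 2 2)
    (a0 : x 0 0 = 0) (a1 : x 0 2 = 0) (a2 : x 2 0 = 0) (a3 : x 2 2 = 0) :
    x * E2sig F = -(E2sig F * x) := by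
  ext i j
  simp only [Matrix.neg_apply, Matrix.mul_apply, Fin.sum_univ_four]
  fin_cases i <;> fin_cases j <;>
    simp [E2sig, e00, e10, e20, e30, e02, e12, e22, e32, a0, a1, a2, a3]

/-- E2LX2 -/
theorem E2LX2 (hq : Fintype.card F = 3) (x : Matrix (Fin 4) (Fin 4) F) (hx : E2Tpred x)
    (hlin : x * E2j0 F = E2j0 F * x) :
    x * E2sig F = E2sig F * x ∨ x * E2sig F = -(E2sig F * x) := by
  obtain ⟨h3, hthree⟩ := E2LX2_three hq
  have h2 : (2 : F) ≠ 0 := by
    intro h'
    have h10 : (1 : F) = 0 := by linear_combination h3 - h'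
    exact one_ne_zero h10
  have hz : ∀ a : F, 2 * a = 0 → a = 0 := fun a ha => (mul_eq_zero.mp ha).resolve_left h2
  have hiso := hx.1.1
  have hy1 := hx.2 _ E2LX2_y1
  have hy2 := hx.2 _ E2LX2_y2
  -- the shape of `x`
  have e00 := congrFun (congrFun hlin 0) 0
  have e10 := congrFun (congrFun hlin 1) 0
  have e20 := congrFun (congrFun hlin 2) 0
  have e30 := congrFun (congrFun hlin 3) 0
  have e02 := congrFun (congrFun hlin 0) 2
  have e12 := congrFun (congrFun hlin 1) 2
  have e22 := congrFun (congrFun hlin 2) 2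
  have e32 := congrFun (congrFun hlin 3) 2
  simp [E2j0, Matrix.mul_apply, Fin.sum_univ_four] at e00 e10 e20 e30 e02 e12 e22 e32
  -- the norm of the first column
  have n01 := congrFun (congrFun hiso 0) 1
  simp [E2G0, Matrix.mul_apply, Fin.sum_univ_four, Matrix.transpose_apply] at n01
  rw [e00, e10, e20, e30] at n01
  have N0 : x 0 0 ^ 2 + x 1 0 ^ 2 + x 2 0 ^ 2 + x 3 0 ^ 2 = 1 := by linear_combination n01
  -- `y2`
  have hA : x 2 0 = 0 → x 0 2 = 0 := by
    intro h0
    rcases hy2 with h | h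
    · have f10 := congrFun (congrFun h 1) 0
      simp [Matrix.mul_apply, Fin.sum_univ_four] at f10
      linear_combination f10 - e12 + h0
    · have g10 := congrFun (congrFun h 1) 0
      simp only [Matrix.neg_apply, Matrix.mul_apply, Fin.sum_univ_four] at g10
      simp at g10
      linear_combination g10 - e12 - h0
  have hB : x 3 0 = 0 → x 1 2 = 0 := by
    intro h0
    rcases hy2 with h | h
    · have f00 := congrFun (congrFun h 0) 0
      simp [Matrix.mul_apply, Fin.sum_univ_four] at f00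
      linear_combination e02 - f00 + h0
    · have g00 := congrFun (congrFun h 0) 0
      simp only [Matrix.neg_apply, Matrix.mul_apply, Fin.sum_univ_four] at g00
      simp at g00
      linear_combination e02 - g00 - h0
  have hC : x 0 0 = 0 → x 2 2 = 0 := by
    intro h0
    rcases hy2 with h | h
    · have f12 := congrFun (congrFun h 1) 2
      simp [Matrix.mul_apply, Fin.sum_univ_four] at f12
      linear_combination h0 + e10 - f12
    · have g12 := congrFun (congrFun h 1) 2
      simp only [Matrix.neg_apply, Matrix.mul_apply, Fin.sum_univ_four] at g12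
      simp at g12
      linear_combination g12 - e10 - h0
  have hE : x 1 0 = 0 → x 3 2 = 0 := by
    intro h0
    rcases hy2 with h | h
    · have f02 := congrFun (congrFun h 0) 2
      simp [Matrix.mul_apply, Fin.sum_univ_four] at f02
      linear_combination h0 - e00 + f02
    · have g02 := congrFun (congrFun h 0) 2
      simp only [Matrix.neg_apply, Matrix.mul_apply, Fin.sum_univ_four] at g02
      simp at g02
      linear_combination e00 - g02 - h0
  -- `y1`
  rcases hy1 with h | h
  · -- block diagonal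
    have f02 := congrFun (congrFun h 0) 2
    have f12 := congrFun (congrFun h 1) 2
    have f20 := congrFun (congrFun h 2) 0
    have f30 := congrFun (congrFun h 3) 0
    simp [Matrix.mul_apply, Fin.sum_univ_four] at f02 f12 f20 f30
    have b1 : x 1 2 = 0 := hz _ (by linear_combination e02 - f02)
    have a1 : x 0 2 = 0 := hz _ (by linear_combination -e12 - f12)
    have b2 : x 3 0 = 0 := hz _ (by linear_combination e20 - f20)
    have a2 : x 2 0 = 0 := hz _ (by linear_combination f30 - e30)
    have hN : x 0 0 ^ 2 + x 1 0 ^ 2 = 1 := by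
      rw [a2, b2] at N0
      linear_combination N0
    rcases E2LX2_sq hq _ _ hN with h0 | h0
    · right
      exact E2LX2_anti x e00 e10 e20 e30 e02 e12 e22 e32 h0 a1 a2 (hC h0)
    · left
      exact E2LX2_comm x e00 e10 e20 e30 e02 e12 e22 e32 h0 b1 b2 (hE h0)
  · -- block antidiagonal
    have g00 := congrFun (congrFun h 0) 0
    have g10 := congrFun (congrFun h 1) 0
    have g22 := congrFun (congrFun h 2) 2
    have g32 := congrFun (congrFun h 3) 2
    simp only [Matrix.neg_apply, Matrix.mul_apply, Fin.sum_univ_four] at g00 g10 g22 g32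
    simp at g00 g10 g22 g32
    have b0 : x 1 0 = 0 := hz _ (by linear_combination e00 - g00)
    have a0 : x 0 0 = 0 := hz _ (by linear_combination g10 - e10)
    have b3 : x 3 2 = 0 := hz _ (by linear_combination e22 - g22)
    have a3 : x 2 2 = 0 := hz _ (by linear_combination -e32 - g32)
    have hN : x 2 0 ^ 2 + x 3 0 ^ 2 = 1 := by
      rw [a0, b0] at N0
      linear_combination N0
    rcases E2LX2_sq hq _ _ hN with h0 | h0
    · right
      exact E2LX2_anti x e00 e10 e20 e30 e02 e12 e22 e32 a0 (hA h0) h0 a3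
    · left
      exact E2LX2_comm x e00 e10 e20 e30 e02 e12 e22 e32 b0 (hB h0) h0 b3

end Cfsg.Agent.Lib.Helper54.SP4O
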