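import Mathlib
import Cfsg.Prelude.Def_GeometricClasses
import Cfsg.Agent.Lib.Helper54.SP4OE2Defs
import Cfsg.Agent.Lib.Helper54.SP4OE2LDefs
import Cfsg.Agent.Lib.Helper54.SP4OE2LX1
import Cfsg.Agent.Lib.Helper54.SP4OE2LX2

/-! Project SP4O (helper54; S5787, Sp_4(q), q odd): piece `E2LBETA` of the exception q = 3 (lite route). q = 3: every element of T commutes or anticommutes with sigma. (filled by helper74) -/

set_option autoImplicit false

namespace Cfsg.Agent.Lib.Helper54.SP4O

open Matrix Cfsg.Geo

variable {F : Type*} [Field F] [Fintype F]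

theorem E2LBETA_three (hq : Fintype.card F = 3) : (3 : F) = 0 := by
  have h := Nat.cast_card_eq_zero F
  rw [hq] at h
  exact_mod_cast h

omit [Fintype F] in
theorem E2LBETA_sigj : E2sig F * E2j0 F = -(E2j0 F * E2sig F) := by
  ext i j
  fin_cases i <;> fin_cases j <;>
    simp [E2j0, E2sig, Matrix.mul_apply, Fin.sum_univ_four]

omit [Fintype F] in
theorem E2LBETA_sigiso (h3 : (3 : F) = 0) : (E2sig F)ᵀ * E2G0 F * E2sig F = E2G0 F := by
  ext i j
  fin_cases i <;> fin_cases j <;>
    simp [E2G0, E2sig, Matrix.mul_apply, Fin.sum_univ_four, Matrix.transpose_apply]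
  all_goals
    first
      | linear_combination (0 : F) * h3
      | linear_combination h3
      | linear_combination (-1 : F) * h3

omit [Fintype F] in
theorem E2LBETA_sigsq (h3 : (3 : F) = 0) : E2sig F * E2sig F = -1 := by
  ext i j
  fin_cases i <;> fin_cases j <;>
    simp [E2sig, Matrix.mul_apply, Fin.sum_univ_four]
  all_goals
    first
      | linear_combination (0 : F) * h3
      | linear_combination h3

/-- E2LBETA -/
theorem E2LBETA (hq : Fintype.card F = 3) (x : Matrix (Fin 4) (Fin 4) F) (hx : E2Tpred x) :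
    x * E2sig F = E2sig F * x ∨ x * E2sig F = -(E2sig F * x) := by
  have h3 := E2LBETA_three hq
  have hsj : E2sig F * E2j0 F = -(E2j0 F * E2sig F) := E2LBETA_sigj
  have hsi := E2LBETA_sigiso h3
  have hss := E2LBETA_sigsq h3
  obtain ⟨⟨hiso, hj⟩, hS⟩ := hx
  rcases hj with hj | hj
  · exact E2LX2 hq x ⟨⟨hiso, Or.inl hj⟩, hS⟩ hj
  · have hlin' : x * E2sig F * E2j0 F = E2j0 F * (x * E2sig F) := by
      calc x * E2sig F * E2j0 F = x * (E2sig F * E2j0 F) := by rw [Matrix.mul_assoc]
        _ = -(x * E2j0 F * E2sig F) := by rw [hsj, Matrix.mul_neg, Matrix.mul_assoc]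
        _ = E2j0 F * (x * E2sig F) := by rw [hj, Matrix.neg_mul, neg_neg, Matrix.mul_assoc]
    have hx' : E2Tpred (x * E2sig F) := by
      refine ⟨⟨?_, Or.inl hlin'⟩, ?_⟩
      · rw [Matrix.transpose_mul]
        calc (E2sig F)ᵀ * xᵀ * E2G0 F * (x * E2sig F)
            = (E2sig F)ᵀ * (xᵀ * E2G0 F * x) * E2sig F := by simp only [Matrix.mul_assoc]
          _ = E2G0 F := by rw [hiso, hsi]
      · intro y hy
        have h1 := E2LX1 hq y hy
        have h2 := hS y hy
        rcases h1 with h1 | h1 <;> rcases h2 with h2 | h2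
        · left
          calc x * E2sig F * y = x * (E2sig F * y) := by rw [Matrix.mul_assoc]
            _ = x * y * E2sig F := by rw [h1, Matrix.mul_assoc]
            _ = y * (x * E2sig F) := by rw [h2, Matrix.mul_assoc]
        · right
          calc x * E2sig F * y = x * (E2sig F * y) := by rw [Matrix.mul_assoc]
            _ = x * y * E2sig F := by rw [h1, Matrix.mul_assoc]
            _ = -(y * (x * E2sig F)) := by rw [h2, Matrix.neg_mul, Matrix.mul_assoc]
        · right
          calc x * E2sig F * y = x * (E2sig F * y) := by rw [Matrix.mul_assoc]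
            _ = -(x * y * E2sig F) := by rw [h1, Matrix.mul_neg, Matrix.mul_assoc]
            _ = -(y * (x * E2sig F)) := by rw [h2, Matrix.mul_assoc]
        · left
          calc x * E2sig F * y = x * (E2sig F * y) := by rw [Matrix.mul_assoc]
            _ = -(x * y * E2sig F) := by rw [h1, Matrix.mul_neg, Matrix.mul_assoc]
            _ = y * (x * E2sig F) := by rw [h2, Matrix.neg_mul, neg_neg, Matrix.mul_assoc]
    have key := E2LX2 hq (x * E2sig F) hx' hlin'
    have e1 : x * E2sig F * E2sig F = -x := by
      rw [Matrix.mul_assoc, hss, Matrix.mul_neg, Matrix.mul_one]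
    rcases key with key | key
    · left
      rw [e1] at key
      have e2 : -x * E2sig F = E2sig F * (x * E2sig F) * E2sig F := by rw [key]
      have e3 : E2sig F * (x * E2sig F) * E2sig F = -(E2sig F * x) := by
        rw [Matrix.mul_assoc, Matrix.mul_assoc, hss, Matrix.mul_neg, Matrix.mul_one,
          Matrix.mul_neg]
      rw [e3, Matrix.neg_mul] at e2
      exact neg_injective e2
    · right
      rw [e1] at key
      have e2 : -x * E2sig F = -(E2sig F * (x * E2sig F)) * E2sig F := by rw [key]
      have e3 : -(E2sig F * (x * E2sig F)) * E2sig F = E2sig F * x := by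
        rw [Matrix.neg_mul, Matrix.mul_assoc, Matrix.mul_assoc, hss, Matrix.mul_neg,
          Matrix.mul_one, Matrix.mul_neg, neg_neg]
      rw [e3, Matrix.neg_mul] at e2
      rw [← e2, neg_neg]

end Cfsg.Agent.Lib.Helper54.SP4O
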