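import Mathlib
import Cfsg.Prelude.Def_GeometricClasses
import Cfsg.Agent.Lib.Helper54.SP4OE2Defs
import Cfsg.Agent.Lib.Helper54.SP4OE2LDefs
import Cfsg.Agent.Lib.Helper54.SP4OE2LX1
import Cfsg.Agent.Lib.Helper54.SP4OE2LBETA

/-! Project SP4O (helper54; S5787, Sp_4(q), q odd): piece `E2LM` of the exception q = 3 (lite route). q = 3: the isometry m = 1 (x) [[1,1],[0,1]] = (1 + j0)(1 + sigma) normalises T but not F[j0]. -/

set_option autoImplicit false

namespace Cfsg.Agent.Lib.Helper54.SP4O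

open Matrix Cfsg.Geo

variable {F : Type*} [Field F] [Fintype F]

/-- generic identities in a ring with `1 + 1 + 1 = 0`, commuting case -/
theorem E2LM_gen_comm {R : Type*} [Ring R] (h3 : (1 + 1 + 1 : R) = 0) (c h : R)
    (hc : c * c = -1) (hh : h * c = c * h) :
    (1 + c) * h * (c - 1) = h ∧ (c - 1) * h * (1 + c) = h := by
  have hc' : c * c + 1 = 0 := by rw [hc, neg_add_cancel]
  have hh' : h * c - c * h = 0 := by rw [hh, sub_self]
  constructor
  · have e : (1 + c) * h * (c - 1)
        = h + ((1 + c) * (h * c - c * h) + (c * c + 1) * h - (1 + 1 + 1) * h) := by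
      noncomm_ring
    rw [e, hh', hc', h3]; simp
  · have e : (c - 1) * h * (1 + c)
        = h + ((c - 1) * (h * c - c * h) + (c * c + 1) * h - (1 + 1 + 1) * h) := by
      noncomm_ring
    rw [e, hh', hc', h3]; simp

/-- generic identities in a ring with `1 + 1 + 1 = 0`, anticommuting case -/
theorem E2LM_gen_anti {R : Type*} [Ring R] (h3 : (1 + 1 + 1 : R) = 0) (c h : R)
    (hc : c * c = -1) (hh : h * c = -(c * h)) :
    (1 + c) * h * (c - 1) = c * h ∧ (c - 1) * h * (1 + c) = -(c * h) := by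
  have hc' : c * c + 1 = 0 := by rw [hc, neg_add_cancel]
  have hh' : h * c + c * h = 0 := by rw [hh, neg_add_cancel]
  constructor
  · have e : (1 + c) * h * (c - 1)
        = c * h + ((1 + c) * (h * c + c * h) - (c * c + 1) * h - (1 + 1 + 1) * (c * h)) := by
      noncomm_ring
    rw [e, hh', hc', h3]; simp
  · have e : (c - 1) * h * (1 + c)
        = -(c * h) + ((c - 1) * (h * c + c * h) + (1 + 1 + 1) * (c * h) - (c * c + 1) * h) := by
      noncomm_ring
    rw [e, hh', hc', h3]; simp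

/-- `u = 1 + c` normalises `T` when `c ∈ T`, `c² = -1` and all of `T` (anti)commutes with `c` -/
theorem E2LM_norm (h3 : (1 + 1 + 1 : Matrix (Fin 4) (Fin 4) F) = 0)
    (T : Subgroup (GL (Fin 4) F)) (c : GL (Fin 4) F) (hcT : c ∈ T) (hcc : c.1 * c.1 = -1)
    (hall : ∀ g ∈ T, g.1 * c.1 = c.1 * g.1 ∨ g.1 * c.1 = -(c.1 * g.1))
    (u : GL (Fin 4) F) (hu : u.1 = 1 + c.1) (hui : (u⁻¹ : GL (Fin 4) F).1 = c.1 - 1) :
    u ∈ subgroupNormalizer T := by
  have hci : (c⁻¹ : GL (Fin 4) F).1 = -c.1 := by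
    apply Units.inv_eq_of_mul_eq_one_right
    rw [mul_neg, hcc, neg_neg]
  unfold subgroupNormalizer
  rw [Subgroup.mem_normalizer_iff]
  intro g
  constructor
  · intro hg
    rcases hall g hg with h | h
    · have e : u * g * u⁻¹ = g := by
        apply Units.ext
        rw [Units.val_mul, Units.val_mul, hu, hui]
        exact (E2LM_gen_comm h3 c.1 g.1 hcc h).1
      rw [e]; exact hg
    · have e : u * g * u⁻¹ = c * g := by
        apply Units.ext
        rw [Units.val_mul, Units.val_mul, Units.val_mul, hu, hui]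
        exact (E2LM_gen_anti h3 c.1 g.1 hcc h).1
      rw [e]; exact T.mul_mem hcT hg
  · intro hg
    have e0 : g = u⁻¹ * (u * g * u⁻¹) * u := by group
    rcases hall _ hg with h | h
    · have e : u⁻¹ * (u * g * u⁻¹) * u = u * g * u⁻¹ := by
        apply Units.ext
        rw [Units.val_mul, Units.val_mul, hu, hui]
        exact (E2LM_gen_comm h3 c.1 _ hcc h).2
      rw [e0, e]; exact hg
    · have e : u⁻¹ * (u * g * u⁻¹) * u = c⁻¹ * (u * g * u⁻¹) := by
        apply Units.ext
        rw [Units.val_mul, Units.val_mul, Units.val_mul (c⁻¹), hu, hui, hci, neg_mul]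
        exact (E2LM_gen_anti h3 c.1 _ hcc h).2
      rw [e0, e]; exact T.mul_mem (T.inv_mem hcT) hg

/-- E2LM -/
theorem E2LM (hq : Fintype.card F = 3) (T : Subgroup (GL (Fin 4) F))
    (hT : ∀ g : GL (Fin 4) F, g ∈ T ↔ E2Tpred g.1) :
    ∃ m : GL (Fin 4) F, m.1ᵀ * E2G0 F * m.1 = E2G0 F ∧ m ∈ subgroupNormalizer T ∧
      ¬ ∃ a b : F, m.1 * E2j0 F * (m⁻¹ : GL (Fin 4) F).1 =
        a • (1 : Matrix (Fin 4) (Fin 4) F) + b • E2j0 F := by
  have h3 : (3 : F) = 0 := by
    have h := Nat.cast_card_eq_zero F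
    rw [hq] at h
    exact_mod_cast h
  have h3' : (1 + 1 + 1 : F) = 0 := by rw [← h3]; norm_num
  have h3M : (1 + 1 + 1 : Matrix (Fin 4) (Fin 4) F) = 0 := by
    ext i j
    by_cases hij : i = j
    · simp [hij, h3']
    · simp [hij]
  have hjj : E2j0 F * E2j0 F = -1 := by
    ext i j
    fin_cases i <;> fin_cases j <;>
      simp [E2j0, Matrix.mul_apply, Fin.sum_univ_four, Matrix.one_apply]
  have hss : E2sig F * E2sig F = -1 := by
    ext i j
    fin_cases i <;> fin_cases j <;>
      simp [E2sig, Matrix.mul_apply, Fin.sum_univ_four, Matrix.one_apply] <;>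
      first | linear_combination h3 | linear_combination -h3 | linear_combination 2 * h3 | linear_combination (-2 : F) * h3
  -- the GL elements `j₀`, `σ`
  let jg : GL (Fin 4) F := ⟨E2j0 F, -E2j0 F, by rw [mul_neg, hjj, neg_neg],
    by rw [neg_mul, hjj, neg_neg]⟩
  let sg : GL (Fin 4) F := ⟨E2sig F, -E2sig F, by rw [mul_neg, hss, neg_neg],
    by rw [neg_mul, hss, neg_neg]⟩
  have hjgT : jg ∈ T := by
    rw [hT]
    refine ⟨⟨?_, Or.inl rfl⟩, fun y hy => Or.inl hy.2.1.symm⟩
    show (E2j0 F)ᵀ * E2G0 F * E2j0 F = E2G0 F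
    ext i j
    fin_cases i <;> fin_cases j <;>
      simp [E2j0, E2G0, Matrix.mul_apply, Fin.sum_univ_four, Matrix.transpose_apply]
  have hsgT : sg ∈ T := by
    rw [hT]
    refine ⟨⟨?_, Or.inr ?_⟩, fun y hy => E2LX1 hq y hy⟩
    · show (E2sig F)ᵀ * E2G0 F * E2sig F = E2G0 F
      ext i j
      fin_cases i <;> fin_cases j <;>
        simp [E2sig, E2G0, Matrix.mul_apply, Fin.sum_univ_four, Matrix.transpose_apply] <;>
        first | linear_combination h3 | linear_combination -h3 | linear_combination 2 * h3 | linear_combination (-2 : F) * h3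
    · show E2sig F * E2j0 F = -(E2j0 F * E2sig F)
      ext i j
      fin_cases i <;> fin_cases j <;>
        simp [E2sig, E2j0, Matrix.mul_apply, Fin.sum_univ_four]
  -- the units `1 + j₀`, `1 + σ`
  have hone : ∀ c : Matrix (Fin 4) (Fin 4) F, c * c = -1 →
      (1 + c) * (c - 1) = 1 ∧ (c - 1) * (1 + c) = 1 := by
    intro c hc
    have := E2LM_gen_comm h3M c 1 hc (by rw [one_mul, mul_one])
    simpa using this
  let uj : GL (Fin 4) F := ⟨1 + E2j0 F, E2j0 F - 1, (hone _ hjj).1, (hone _ hjj).2⟩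
  let us : GL (Fin 4) F := ⟨1 + E2sig F, E2sig F - 1, (hone _ hss).1, (hone _ hss).2⟩
  have hujN : uj ∈ subgroupNormalizer T :=
    E2LM_norm h3M T jg hjgT hjj (fun g hg => ((hT g).1 hg).1.2) uj rfl rfl
  have husN : us ∈ subgroupNormalizer T :=
    E2LM_norm h3M T sg hsgT hss (fun g hg => E2LBETA hq g.1 ((hT g).1 hg)) us rfl rfl
  have hmval : (uj * us).1 = !![1, 1, 0, 0; 0, 1, 0, 0; 0, 0, 1, 1; 0, 0, 0, 1] := by
    show (1 + E2j0 F) * (1 + E2sig F) = _
    ext i j
    fin_cases i <;> fin_cases j <;>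
      simp [E2sig, E2j0, Matrix.mul_apply, Fin.sum_univ_four, Matrix.one_apply] <;>
      first | linear_combination h3 | linear_combination -h3 | linear_combination 2 * h3 | linear_combination (-2 : F) * h3
  have hminv : ((uj * us)⁻¹ : GL (Fin 4) F).1
      = !![1, -1, 0, 0; 0, 1, 0, 0; 0, 0, 1, -1; 0, 0, 0, 1] := by
    rw [_root_.mul_inv_rev]
    show (E2sig F - 1) * (E2j0 F - 1) = _
    ext i j
    fin_cases i <;> fin_cases j <;>
      simp [E2sig, E2j0, Matrix.mul_apply, Fin.sum_univ_four, Matrix.one_apply] <;>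
      first | linear_combination h3 | linear_combination -h3 | linear_combination 2 * h3 | linear_combination (-2 : F) * h3
  refine ⟨uj * us, ?_, (subgroupNormalizer T).mul_mem hujN husN, ?_⟩
  · rw [hmval]
    ext i j
    fin_cases i <;> fin_cases j <;>
      simp [E2G0, Matrix.mul_apply, Fin.sum_univ_four, Matrix.transpose_apply]
  · rintro ⟨a, b, hab⟩
    rw [hmval, hminv] at hab
    have h00 := congrFun (congrFun hab 0) 0
    have h11 := congrFun (congrFun hab 1) 1
    simp [E2j0, Matrix.mul_apply, Fin.sum_univ_four, Matrix.one_apply] at h00 h11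
    have h1 : (1 : F) = 0 := by linear_combination h3 - h00 + h11
    exact one_ne_zero h1

end Cfsg.Agent.Lib.Helper54.SP4O
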