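import Mathlib
import Cfsg.Prelude.Def_GeometricClasses
import Cfsg.Agent.Lib.Helper54.SP4OE2Defs
import Cfsg.Agent.Lib.Helper54.SP4OE2LDefs

/-! Project SP4O (helper54; S5787, Sp_4(q), q odd): piece `E2LNRM` of the exception q = 3 (lite route). Every element of N0 normalises T (structural). -/

set_option autoImplicit false

namespace Cfsg.Agent.Lib.Helper54.SP4O

open Matrix Cfsg.Geo

variable {F : Type*} [Field F] [Fintype F]

omit [Fintype F] in
theorem E2LNRM_invG {g gi : Matrix (Fin 4) (Fin 4) F} (h1 : g * gi = 1)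
    (hG : gᵀ * E2G0 F * g = E2G0 F) : giᵀ * E2G0 F * gi = E2G0 F := by
  calc giᵀ * E2G0 F * gi = giᵀ * (gᵀ * E2G0 F * g) * gi := by rw [hG]
    _ = (g * gi)ᵀ * E2G0 F * (g * gi) := by
        rw [Matrix.transpose_mul]; simp only [Matrix.mul_assoc]
    _ = E2G0 F := by rw [h1]; simp

omit [Fintype F] in
theorem E2LNRM_invComm {g gi j : Matrix (Fin 4) (Fin 4) F} (h1 : g * gi = 1) (h2 : gi * g = 1)
    (hj : g * j = j * g) : gi * j = j * gi := by
  calc gi * j = gi * j * (g * gi) := by rw [h1, Matrix.mul_one]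
    _ = gi * (j * g) * gi := by simp only [Matrix.mul_assoc]
    _ = gi * (g * j) * gi := by rw [hj]
    _ = (gi * g) * j * gi := by simp only [Matrix.mul_assoc]
    _ = j * gi := by rw [h2, Matrix.one_mul]

omit [Fintype F] in
theorem E2LNRM_invAnti {g gi j : Matrix (Fin 4) (Fin 4) F} (h1 : g * gi = 1) (h2 : gi * g = 1)
    (hj : g * j = -(j * g)) : gi * j = -(j * gi) := by
  have hj' : j * g = -(g * j) := by rw [hj, neg_neg]
  calc gi * j = gi * j * (g * gi) := by rw [h1, Matrix.mul_one]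
    _ = gi * (j * g) * gi := by simp only [Matrix.mul_assoc]
    _ = gi * (-(g * j)) * gi := by rw [hj']
    _ = -((gi * g) * j * gi) := by simp only [Matrix.mul_assoc, Matrix.mul_neg, Matrix.neg_mul]
    _ = -(j * gi) := by rw [h2, Matrix.one_mul]

omit [Fintype F] in
theorem E2LNRM_inv {g gi : Matrix (Fin 4) (Fin 4) F} (h1 : g * gi = 1) (h2 : gi * g = 1)
    (hg : E2Npred g) : E2Npred gi := by
  obtain ⟨hG, hj⟩ := hg
  refine ⟨E2LNRM_invG h1 hG, ?_⟩
  rcases hj with hj | hj
  · exact Or.inl (E2LNRM_invComm h1 h2 hj)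
  · exact Or.inr (E2LNRM_invAnti h1 h2 hj)

omit [Fintype F] in
theorem E2LNRM_mul {a b : Matrix (Fin 4) (Fin 4) F} (ha : E2Npred a) (hb : E2Npred b) :
    E2Npred (a * b) := by
  obtain ⟨haG, haj⟩ := ha
  obtain ⟨hbG, hbj⟩ := hb
  refine ⟨?_, ?_⟩
  · calc (a * b)ᵀ * E2G0 F * (a * b) = bᵀ * (aᵀ * E2G0 F * a) * b := by
          rw [Matrix.transpose_mul]; simp only [Matrix.mul_assoc]
      _ = E2G0 F := by rw [haG, hbG]
  · have e1 : a * b * E2j0 F = a * (b * E2j0 F) := Matrix.mul_assoc _ _ _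
    rcases haj with haj | haj <;> rcases hbj with hbj | hbj
    · left; rw [e1, hbj, ← Matrix.mul_assoc, haj, Matrix.mul_assoc]
    · right; rw [e1, hbj, Matrix.mul_neg, ← Matrix.mul_assoc, haj, Matrix.mul_assoc]
    · right; rw [e1, hbj, ← Matrix.mul_assoc, haj, Matrix.neg_mul, Matrix.mul_assoc]
    · left
      rw [e1, hbj, Matrix.mul_neg, ← Matrix.mul_assoc, haj, Matrix.neg_mul, neg_neg,
        Matrix.mul_assoc]

omit [Fintype F] in
theorem E2LNRM_S1 {g gi y : Matrix (Fin 4) (Fin 4) F} (h1 : g * gi = 1) (h2 : gi * g = 1)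
    (hg : E2Npred g) (hy : E2S1pred y) : E2S1pred (gi * y * g) := by
  obtain ⟨hG, hj⟩ := hg
  have hGi := E2LNRM_invG h1 hG
  obtain ⟨hyG, hyj, hyy⟩ := hy
  refine ⟨?_, ?_, ?_⟩
  · calc (gi * y * g)ᵀ * E2G0 F * (gi * y * g)
        = gᵀ * (yᵀ * (giᵀ * E2G0 F * gi) * y) * g := by
          simp only [Matrix.transpose_mul, Matrix.mul_assoc]
      _ = E2G0 F := by rw [hGi, hyG, hG]
  · rcases hj with hj | hj
    · have hji := E2LNRM_invComm h1 h2 hj
      calc gi * y * g * E2j0 F = gi * y * (g * E2j0 F) := by simp only [Matrix.mul_assoc]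
        _ = gi * (y * E2j0 F) * g := by rw [hj]; simp only [Matrix.mul_assoc]
        _ = (gi * E2j0 F) * y * g := by rw [hyj]; simp only [Matrix.mul_assoc]
        _ = E2j0 F * (gi * y * g) := by rw [hji]; simp only [Matrix.mul_assoc]
    · have hji := E2LNRM_invAnti h1 h2 hj
      calc gi * y * g * E2j0 F = gi * y * (g * E2j0 F) := by simp only [Matrix.mul_assoc]
        _ = -(gi * (y * E2j0 F) * g) := by
            rw [hj]; simp only [Matrix.mul_assoc, Matrix.mul_neg, Matrix.neg_mul]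
        _ = -((gi * E2j0 F) * y * g) := by rw [hyj]; simp only [Matrix.mul_assoc]
        _ = E2j0 F * (gi * y * g) := by
            rw [hji]; simp only [Matrix.mul_assoc, Matrix.mul_neg, Matrix.neg_mul, neg_neg]
  · calc gi * y * g * (gi * y * g) = gi * y * (g * gi) * y * g := by
          simp only [Matrix.mul_assoc]
      _ = gi * (y * y) * g := by rw [h1, Matrix.mul_one]; simp only [Matrix.mul_assoc]
      _ = -(gi * g) := by rw [hyy]; simp only [Matrix.mul_neg, Matrix.neg_mul, Matrix.mul_one]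
      _ = -1 := by rw [h2]

omit [Fintype F] in
theorem E2LNRM_conj {g gi h : Matrix (Fin 4) (Fin 4) F} (h1 : g * gi = 1) (h2 : gi * g = 1)
    (hg : E2Npred g) (hh : E2Tpred h) : E2Tpred (g * h * gi) := by
  have hgi := E2LNRM_inv h1 h2 hg
  refine ⟨E2LNRM_mul (E2LNRM_mul hg hh.1) hgi, ?_⟩
  intro y hy
  have hy' := E2LNRM_S1 h1 h2 hg hy
  have e1 : g * h * gi * y = g * (h * (gi * y * g)) * gi := by
    calc g * h * gi * y = g * h * gi * y * (g * gi) := by rw [h1, Matrix.mul_one]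
      _ = g * (h * (gi * y * g)) * gi := by simp only [Matrix.mul_assoc]
  have e2 : y * (g * h * gi) = g * ((gi * y * g) * h) * gi := by
    calc y * (g * h * gi) = (g * gi) * y * (g * h * gi) := by rw [h1, Matrix.one_mul]
      _ = g * ((gi * y * g) * h) * gi := by simp only [Matrix.mul_assoc]
  rcases hh.2 _ hy' with hc | hc
  · left; rw [e1, e2, hc]
  · right; rw [e1, e2, hc]; simp only [Matrix.mul_neg, Matrix.neg_mul]

/-- E2LNRM -/
theorem E2LNRM (T : Subgroup (GL (Fin 4) F)) (hT : ∀ g : GL (Fin 4) F, g ∈ T ↔ E2Tpred g.1)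
    (g : GL (Fin 4) F) (hg : E2Npred g.1) : g ∈ subgroupNormalizer T := by
  have h1 : g.1 * (g⁻¹).1 = 1 := by rw [← Units.val_mul, mul_inv_cancel]; rfl
  have h2 : (g⁻¹).1 * g.1 = 1 := by rw [← Units.val_mul, inv_mul_cancel]; rfl
  unfold subgroupNormalizer
  rw [Subgroup.mem_normalizer_iff]
  intro h
  constructor
  · intro hh
    have hh' : E2Tpred h.1 := (hT h).mp hh
    have := E2LNRM_conj h1 h2 hg hh'
    exact (hT _).mpr (by simpa [Units.val_mul] using this)
  · intro hh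
    have hh' : E2Tpred (g * h * g⁻¹).1 := (hT _).mp hh
    have hgi := E2LNRM_inv h1 h2 hg
    have := E2LNRM_conj h2 h1 hgi hh'
    have e : (g⁻¹).1 * (g * h * g⁻¹).1 * g.1 = h.1 := by
      rw [← Units.val_mul, ← Units.val_mul]; congr 1; group
    rw [e] at this
    exact (hT h).mpr this

end Cfsg.Agent.Lib.Helper54.SP4O
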