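import Mathlib
import Cfsg.Prelude.Def_GeometricClasses
import Cfsg.Agent.Lib.Helper54.SP4OE2Defs
import Cfsg.Agent.Lib.Helper54.SP4OE2LDefs

/-! Project SP4O (helper54; S5787, Sp_4(q), q odd): piece `E2LSUB` of the exception q = 3 (lite route). The predicate E2Tpred defines a subgroup. -/

set_option autoImplicit false

namespace Cfsg.Agent.Lib.Helper54.SP4O

open Matrix Cfsg.Geo

variable {F : Type*} [Field F] [Fintype F]

omit [Fintype F] in
theorem E2LSUB_comm_mul {x x' y : Matrix (Fin 4) (Fin 4) F}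
    (h : x * y = y * x ∨ x * y = -(y * x)) (h' : x' * y = y * x' ∨ x' * y = -(y * x')) :
    (x * x') * y = y * (x * x') ∨ (x * x') * y = -(y * (x * x')) := by
  rcases h with h | h <;> rcases h' with h' | h'
  · left
    rw [Matrix.mul_assoc, h', ← Matrix.mul_assoc, h, Matrix.mul_assoc]
  · right
    rw [Matrix.mul_assoc, h', Matrix.mul_neg, ← Matrix.mul_assoc, h, Matrix.mul_assoc]
  · right
    rw [Matrix.mul_assoc, h', ← Matrix.mul_assoc, h, Matrix.neg_mul, Matrix.mul_assoc]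
  · left
    rw [Matrix.mul_assoc, h', Matrix.mul_neg, ← Matrix.mul_assoc, h, Matrix.neg_mul, neg_neg,
      Matrix.mul_assoc]

omit [Fintype F] in
theorem E2LSUB_comm_inv {x xi y : Matrix (Fin 4) (Fin 4) F} (hx : x * xi = 1) (hxi : xi * x = 1)
    (h : x * y = y * x ∨ x * y = -(y * x)) : xi * y = y * xi ∨ xi * y = -(y * xi) := by
  have e1 : xi * y = xi * (y * x) * xi := by
    rw [Matrix.mul_assoc, Matrix.mul_assoc, hx, Matrix.mul_one]
  have e2 : xi * (x * y) * xi = y * xi := by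
    rw [← Matrix.mul_assoc, hxi, Matrix.one_mul]
  rcases h with h | h
  · left
    rw [e1, ← h, e2]
  · right
    have h2 : y * x = -(x * y) := by rw [h, neg_neg]
    rw [e1, h2, Matrix.mul_neg, Matrix.neg_mul, e2]

omit [Fintype F] in
theorem E2LSUB_iso_mul {G x x' : Matrix (Fin 4) (Fin 4) F} (h : xᵀ * G * x = G)
    (h' : x'ᵀ * G * x' = G) : (x * x')ᵀ * G * (x * x') = G := by
  rw [Matrix.transpose_mul]
  calc x'ᵀ * xᵀ * G * (x * x') = x'ᵀ * (xᵀ * G * x) * x' := by simp only [Matrix.mul_assoc]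
    _ = G := by rw [h, h']

omit [Fintype F] in
theorem E2LSUB_iso_inv {G x xi : Matrix (Fin 4) (Fin 4) F} (hx : x * xi = 1)
    (h : xᵀ * G * x = G) : xiᵀ * G * xi = G := by
  have e : xiᵀ * xᵀ = 1 := by rw [← Matrix.transpose_mul, hx, Matrix.transpose_one]
  calc xiᵀ * G * xi = xiᵀ * (xᵀ * G * x) * xi := by rw [h]
    _ = (xiᵀ * xᵀ) * G * (x * xi) := by simp only [Matrix.mul_assoc]
    _ = G := by rw [e, hx, Matrix.one_mul, Matrix.mul_one]

/-- E2LSUB -/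
theorem E2LSUB : ∃ T : Subgroup (GL (Fin 4) F), ∀ g : GL (Fin 4) F, g ∈ T ↔ E2Tpred g.1 := by
  have hmul : ∀ {a b : GL (Fin 4) F}, a ∈ {g : GL (Fin 4) F | E2Tpred g.1} →
      b ∈ {g : GL (Fin 4) F | E2Tpred g.1} → a * b ∈ {g : GL (Fin 4) F | E2Tpred g.1} := by
    intro a b ha hb
    obtain ⟨⟨ha1, ha2⟩, ha3⟩ := ha
    obtain ⟨⟨hb1, hb2⟩, hb3⟩ := hb
    refine ⟨⟨?_, ?_⟩, ?_⟩
    · exact E2LSUB_iso_mul ha1 hb1
    · exact E2LSUB_comm_mul ha2 hb2
    · intro y hy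
      exact E2LSUB_comm_mul (ha3 y hy) (hb3 y hy)
  have hone : (1 : GL (Fin 4) F) ∈ {g : GL (Fin 4) F | E2Tpred g.1} := by
    refine ⟨⟨?_, ?_⟩, ?_⟩
    · show (1 : Matrix (Fin 4) (Fin 4) F)ᵀ * E2G0 F * 1 = E2G0 F
      rw [Matrix.transpose_one, Matrix.one_mul, Matrix.mul_one]
    · left
      show (1 : Matrix (Fin 4) (Fin 4) F) * E2j0 F = E2j0 F * 1
      rw [Matrix.one_mul, Matrix.mul_one]
    · intro y _
      left
      show (1 : Matrix (Fin 4) (Fin 4) F) * y = y * 1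
      rw [Matrix.one_mul, Matrix.mul_one]
  have hinv : ∀ {a : GL (Fin 4) F}, a ∈ {g : GL (Fin 4) F | E2Tpred g.1} →
      a⁻¹ ∈ {g : GL (Fin 4) F | E2Tpred g.1} := by
    intro a ha
    obtain ⟨⟨ha1, ha2⟩, ha3⟩ := ha
    have hx : a.1 * (a⁻¹).1 = 1 := Units.mul_inv a
    have hxi : (a⁻¹).1 * a.1 = 1 := Units.inv_mul a
    refine ⟨⟨?_, ?_⟩, ?_⟩
    · exact E2LSUB_iso_inv hx ha1
    · exact E2LSUB_comm_inv hx hxi ha2
    · intro y hy
      exact E2LSUB_comm_inv hx hxi (ha3 y hy)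
  exact ⟨⟨⟨⟨{g : GL (Fin 4) F | E2Tpred g.1}, hmul⟩, hone⟩, hinv⟩, fun g => Iff.rfl⟩

end Cfsg.Agent.Lib.Helper54.SP4O
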