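import Mathlib
import Cfsg.Prelude.Def_GeometricClasses
import Cfsg.Prelude.Def_LieClassical
import Cfsg.Agent.Lib.Helper71.Asch0
import Cfsg.Agent.Lib.Helper71.Asch5
import Cfsg.Agent.Lib.Helper54.SP4OE2Defs

/-! Project SP4O (helper54; S5787, Sp_4(q), q odd): piece `E2N1`. q = 3: a non-self-adjoint adjoint-closed quadratic field subalgebra is F[j] with j^2 = -1 and j skew-adjoint. -/

set_option autoImplicit false

namespace Cfsg.Agent.Lib.Helper54.SP4O

open Matrix Cfsg.Geo Cfsg.Agent.Lib.Helper71.Asch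

variable {F : Type*} [Field F] [Fintype F]

theorem E2N1_zero (M : Matrix (Fin 4) (Fin 4) F) (h : ∀ v : Fin 4 → F, M *ᵥ v = 0) : M = 0 := by
  ext i k
  have h1 := congrFun (h (Pi.single k 1)) i
  simpa [Matrix.mulVec, dotProduct, Pi.single_apply] using h1

theorem E2N1_lin (x : Matrix (Fin 4) (Fin 4) F)
    (hx : ∀ c : F, x ≠ c • (1 : Matrix (Fin 4) (Fin 4) F)) :
    ∀ α β : F, α • (1 : Matrix (Fin 4) (Fin 4) F) + β • x = 0 → α = 0 ∧ β = 0 := by
  intro α β h
  have hβ : β = 0 := by
    by_contra hβ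
    apply hx (-(β⁻¹ * α))
    have h' : β • x = -(α • (1 : Matrix (Fin 4) (Fin 4) F)) := eq_neg_of_add_eq_zero_right h
    calc x = β⁻¹ • (β • x) := by rw [smul_smul, inv_mul_cancel₀ hβ, one_smul]
      _ = -(β⁻¹ * α) • (1 : Matrix (Fin 4) (Fin 4) F) := by
        rw [h', smul_neg, smul_smul, neg_smul]
  refine ⟨?_, hβ⟩
  rw [hβ, zero_smul, add_zero] at h
  rcases smul_eq_zero.1 h with h | h
  · exact h
  · exact absurd h one_ne_zero

theorem E2N1_exists (K : Subalgebra F (Matrix (Fin 4) (Fin 4) F))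
    (h2 : Module.finrank F K = 2) :
    ∃ x ∈ K, ∀ c : F, x ≠ c • (1 : Matrix (Fin 4) (Fin 4) F) := by
  by_contra hcon
  have hcon' : ∀ x ∈ K, ∃ c : F, x = c • (1 : Matrix (Fin 4) (Fin 4) F) := by
    intro x hx
    by_contra h
    exact hcon ⟨x, hx, fun c hc => h ⟨c, hc⟩⟩
  have hle : Subalgebra.toSubmodule K ≤
      Submodule.span F {(1 : Matrix (Fin 4) (Fin 4) F)} := by
    intro x hx
    obtain ⟨c, hc⟩ := hcon' x hx
    rw [hc]
    exact Submodule.smul_mem _ c (Submodule.subset_span rfl)
  have h1 := Submodule.finrank_mono hle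
  have h3 : Module.finrank F (Submodule.span F {(1 : Matrix (Fin 4) (Fin 4) F)}) = 1 :=
    finrank_span_singleton one_ne_zero
  have h4 : Module.finrank F (Subalgebra.toSubmodule K) = 2 := h2
  omega

theorem E2N1_span (K : Subalgebra F (Matrix (Fin 4) (Fin 4) F))
    (h2 : Module.finrank F K = 2) (x : Matrix (Fin 4) (Fin 4) F) (hxK : x ∈ K)
    (hx : ∀ c : F, x ≠ c • (1 : Matrix (Fin 4) (Fin 4) F)) :
    ∀ k ∈ K, ∃ a b : F, k = a • (1 : Matrix (Fin 4) (Fin 4) F) + b • x := by
  have hli : LinearIndependent F ![(1 : Matrix (Fin 4) (Fin 4) F), x] := by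
    rw [LinearIndependent.pair_iff]
    exact E2N1_lin x hx
  have hspan_le : Submodule.span F (Set.range ![(1 : Matrix (Fin 4) (Fin 4) F), x]) ≤
      Subalgebra.toSubmodule K := by
    rw [Submodule.span_le, Matrix.range_cons_cons_empty]
    intro y hy
    rcases hy with rfl | rfl
    · exact K.one_mem
    · exact hxK
  have hfr : Module.finrank F
      (Submodule.span F (Set.range ![(1 : Matrix (Fin 4) (Fin 4) F), x])) = 2 := by
    rw [finrank_span_eq_card hli, Fintype.card_fin]
  have h4 : Module.finrank F (Subalgebra.toSubmodule K) = 2 := h2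
  have heq : Submodule.span F (Set.range ![(1 : Matrix (Fin 4) (Fin 4) F), x]) =
      Subalgebra.toSubmodule K :=
    Submodule.eq_of_le_of_finrank_eq hspan_le (hfr.trans h4.symm)
  intro k hk
  have hk' : k ∈ Submodule.span F (Set.range ![(1 : Matrix (Fin 4) (Fin 4) F), x]) := by
    rw [heq]
    exact hk
  rw [Matrix.range_cons_cons_empty, Submodule.mem_span_pair] at hk'
  obtain ⟨a, b, h⟩ := hk'
  exact ⟨a, b, h.symm⟩

theorem E2N1_nzd (K : Subalgebra F (Matrix (Fin 4) (Fin 4) F)) (hK : IsFieldSubalgebra 2 K)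
    {x y : Matrix (Fin 4) (Fin 4) F} (hx : x ∈ K) (_hy : y ∈ K) (hxy : x * y = 0) :
    x = 0 ∨ y = 0 := by
  by_cases h : x = 0
  · exact Or.inl h
  · right
    obtain ⟨x', hx', e⟩ := hK.inv x hx h
    have e' : x' * x = 1 := by
      rw [hK.comm x' hx' x hx]
      exact e
    calc y = (x' * x) * y := by rw [e', one_mul]
      _ = x' * (x * y) := mul_assoc _ _ _
      _ = 0 := by rw [hxy, mul_zero]

/-- E2N1 -/
theorem E2N1 (hq : Fintype.card F = 3) (f : (Fin 4 → F) → (Fin 4 → F) → F)
    (hf : IsSymplecticForm f) (K : Subalgebra F (Matrix (Fin 4) (Fin 4) F))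
    (hK : IsFieldSubalgebra 2 K) (hadj : IsAdjointClosedFor f K) (hsa : ¬ IsSelfAdjointFor f K) :
    ∃ j : Matrix (Fin 4) (Fin 4) F, j * j = -1 ∧
      (∀ u v : Fin 4 → F, f (j *ᵥ u) v = - f u (j *ᵥ v)) ∧
      ∀ k : Matrix (Fin 4) (Fin 4) F, k ∈ K ↔ ∃ a b : F, k = a • (1 : Matrix (Fin 4) (Fin 4) F) + b • j := by
  classical
  have e := ZMod.ringEquivOfPrime F Nat.prime_three hq
  have h3 : ∀ y : ZMod 3, y = 0 ∨ y = 1 ∨ y = -1 := by decide
  have tri : ∀ x : F, x = 0 ∨ x = 1 ∨ x = -1 := by
    intro x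
    obtain ⟨y, rfl⟩ := e.surjective x
    rcases h3 y with rfl | rfl | rfl
    · left
      exact map_zero e
    · right
      left
      exact map_one e
    · right
      right
      rw [map_neg, map_one]
  have hthree : ∀ s : F, s + s + s = 0 := by
    intro s
    have h : (1 : F) + 1 + 1 = 0 := by
      have h' : (1 : ZMod 3) + 1 + 1 = 0 := by decide
      have h'' := congrArg e h'
      rwa [map_add, map_add, map_one, map_zero] at h''
    calc s + s + s = s * (1 + 1 + 1) := by ring
      _ = 0 := by rw [h, mul_zero]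
  have hneg1 : (-1 : F) ≠ 1 := by
    intro h
    have h' : e (-1) = e 1 := by
      rw [map_neg, map_one]
      exact h
    have h'' := e.injective h'
    revert h''
    decide
  have hneg0 : (-1 : F) ≠ 0 := neg_ne_zero.2 one_ne_zero
  have sq01 : ∀ a : F, a * a = 0 ∨ a * a = 1 := by
    intro a
    rcases tri a with rfl | rfl | rfl
    · left
      ring
    · right
      ring
    · right
      ring
  obtain ⟨k₀, hk₀K, hk₀⟩ := E2N1_exists K hK.finrank_eq
  have hsp0 := E2N1_span K hK.finrank_eq k₀ hk₀K hk₀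
  obtain ⟨t, s, hts⟩ := hsp0 (k₀ * k₀) (K.mul_mem hk₀K hk₀K)
  obtain ⟨j, hj⟩ : ∃ j : Matrix (Fin 4) (Fin 4) F, j = k₀ + s • 1 := ⟨_, rfl⟩
  have hjK : j ∈ K := by
    rw [hj]
    exact K.add_mem hk₀K (K.smul_mem K.one_mem s)
  have hjns : ∀ c : F, j ≠ c • (1 : Matrix (Fin 4) (Fin 4) F) := by
    intro c hc
    apply hk₀ (c - s)
    have h1 : k₀ = j - s • 1 := by
      rw [hj, add_sub_cancel_right]
    rw [h1, hc, sub_smul]
  have hjj : j * j = (t + s * s) • (1 : Matrix (Fin 4) (Fin 4) F) := by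
    have h1 : j * j = k₀ * k₀ + s • k₀ + (s • k₀ + (s * s) • 1) := by
      rw [hj]
      simp only [add_mul, mul_add, mul_smul_comm, smul_mul_assoc, mul_one, one_mul]
      module
    rw [h1, hts]
    have h2 : t • (1 : Matrix (Fin 4) (Fin 4) F) + s • k₀ + s • k₀ + (s • k₀ + (s * s) • 1) =
        (t + s * s) • (1 : Matrix (Fin 4) (Fin 4) F) + (s + s + s) • k₀ := by module
    rw [h2, hthree, zero_smul, add_zero]
  have hsp := E2N1_span K hK.finrank_eq j hjK hjns
  have hδ : t + s * s = -1 := by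
    have hns : ∀ c : F, t + s * s ≠ c * c := by
      intro c hc
      have hprod : (j - c • 1) * (j + c • 1) = 0 := by
        have h1 : (j - c • 1) * (j + c • 1) =
            j * j - (c * c) • (1 : Matrix (Fin 4) (Fin 4) F) := by
          simp only [sub_mul, mul_add, mul_smul_comm, smul_mul_assoc, mul_one, one_mul]
          module
        rw [h1, hjj, hc, sub_self]
      rcases E2N1_nzd K hK (K.sub_mem hjK (K.smul_mem K.one_mem c))
        (K.add_mem hjK (K.smul_mem K.one_mem c)) hprod with h | h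
      · exact hjns c (sub_eq_zero.1 h)
      · apply hjns (-c)
        rw [neg_smul]
        exact eq_neg_of_add_eq_zero_left h
    rcases tri (t + s * s) with h | h | h
    · exact absurd (by rw [h]; ring) (hns 0)
    · exact absurd (by rw [h]; ring) (hns 1)
    · exact h
  have hjj' : j * j = -1 := by
    rw [hjj, hδ, neg_smul, one_smul]
  have hfneg : ∀ u v : Fin 4 → F, f (-u) v = - f u v := by
    intro u v
    have h := hf.bilinear.smul_left (-1) u v
    rwa [neg_one_smul, neg_one_mul] at h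
  have hfneg' : ∀ u v : Fin 4 → F, f u (-v) = - f u v := by
    intro u v
    have h := hf.bilinear.smul_right (-1) u v
    rwa [neg_one_smul, neg_one_mul] at h
  have hexpand : ∀ (α β : F) (u : Fin 4 → F),
      (α • (1 : Matrix (Fin 4) (Fin 4) F) + β • j) *ᵥ u = α • u + β • (j *ᵥ u) := by
    intro α β u
    rw [Matrix.add_mulVec, Matrix.smul_mulVec, Matrix.smul_mulVec, Matrix.one_mulVec]
  refine ⟨j, hjj', ?_, ?_⟩
  · obtain ⟨j', hj'K, hj'⟩ := hadj j hjK
    obtain ⟨a, b, hab⟩ := hsp j' hj'K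
    have hsq : j' * j' = -1 := by
      have hz : ∀ v : Fin 4 → F, (j' * j' + 1) *ᵥ v = 0 := by
        intro v
        by_contra hv
        obtain ⟨⟨x, hx⟩, _⟩ := hf.nondegenerate _ hv
        apply hx
        have h1 : f (j *ᵥ (j *ᵥ x)) v = f x (j' *ᵥ (j' *ᵥ v)) :=
          (hj' (j *ᵥ x) v).trans (hj' x (j' *ᵥ v))
        rw [Matrix.mulVec_mulVec, hjj', Matrix.neg_mulVec, Matrix.one_mulVec] at h1
        rw [Matrix.add_mulVec, Matrix.one_mulVec, hf.bilinear.add_right, ← Matrix.mulVec_mulVec,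
          ← h1, hfneg, neg_add_cancel]
      exact eq_neg_of_add_eq_zero_left (E2N1_zero (j' * j' + 1) hz)
    have hexp : j' * j' = (a * a - b * b) • (1 : Matrix (Fin 4) (Fin 4) F) +
        (a * b + a * b) • j := by
      rw [hab]
      simp only [add_mul, mul_add, mul_smul_comm, smul_mul_assoc, mul_one, one_mul, hjj']
      module
    have h0 : (a * a - b * b + 1) • (1 : Matrix (Fin 4) (Fin 4) F) + (a * b + a * b) • j = 0 := by
      have h1 : j' * j' + 1 = 0 := by
        rw [hsq]
        exact neg_add_cancel 1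
      rw [hexp] at h1
      rw [← h1]
      module
    obtain ⟨hA, hB⟩ := E2N1_lin j hjns _ _ h0
    have hab0 : a * b = 0 := by
      have h := hthree (a * b)
      rw [hB, zero_add] at h
      exact h
    rcases mul_eq_zero.1 hab0 with ha | hb
    · -- a = 0
      rw [ha] at hA
      have hbb : b * b = 1 := by
        linear_combination (-1 : F) * hA
      rcases tri b with hb | hb | hb
      · exfalso
        rw [hb] at hbb
        simp at hbb
      · exfalso
        apply hsa
        intro k hk u v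
        obtain ⟨α, β, rfl⟩ := hsp k hk
        have hju : f (j *ᵥ u) v = f u (j *ᵥ v) := by
          rw [hj' u v, hab, ha, hb, zero_smul, zero_add, one_smul]
        rw [hexpand, hexpand, hf.bilinear.add_left, hf.bilinear.smul_left, hf.bilinear.smul_left,
          hf.bilinear.add_right, hf.bilinear.smul_right, hf.bilinear.smul_right, hju]
      · intro u v
        rw [hj' u v, hab, ha, hb, zero_smul, zero_add, neg_smul, one_smul, Matrix.neg_mulVec,
          hfneg']
    · -- b = 0
      exfalso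
      rw [hb] at hA
      have haa : a * a = -1 := by linear_combination hA
      rcases sq01 a with h | h
      · rw [h] at haa
        exact hneg0 haa.symm
      · rw [h] at haa
        exact hneg1 haa.symm
  · intro k
    constructor
    · intro hk
      exact hsp k hk
    · rintro ⟨a, b, rfl⟩
      exact K.add_mem (K.smul_mem K.one_mem a) (K.smul_mem hjK b)

end Cfsg.Agent.Lib.Helper54.SP4O
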