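import Mathlib
import Cfsg.Prelude.Def_GeometricClasses
import Cfsg.Prelude.Def_LieClassical
import Cfsg.Agent.Lib.Helper71.Asch0
import Cfsg.Agent.Lib.Helper71.Asch5
import Cfsg.Agent.Lib.Helper54.SP4OE2Defs

/-! Project SP4O (helper54; S5787, Sp_4(q), q odd): piece `E2N2`. q = 3: normal form of a symplectic form with a skew-adjoint j, j^2 = -1: a basis v1, j v1, v2, j v2 with Gram matrix J + J. -/

set_option autoImplicit false

namespace Cfsg.Agent.Lib.Helper54.SP4O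

open Matrix Cfsg.Geo Cfsg.Agent.Lib.Helper71.Asch

variable {F : Type*} [Field F] [Fintype F]

/-- a field with three elements: `3 = 0` and every element is `0`, `1` or `-1` -/
theorem E2N2_three (hq : Fintype.card F = 3) :
    (3 : F) = 0 ∧ ∀ x : F, x = 0 ∨ x = 1 ∨ x = -1 := by
  have h3 : (3 : F) = 0 := by
    have h := Nat.cast_card_eq_zero F
    rw [hq] at h
    exact_mod_cast h
  refine ⟨h3, ?_⟩
  intro x
  have hx : x ^ 3 = x := by
    have h := FiniteField.pow_card x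
    rwa [hq] at h
  have h0 : x * ((x - 1) * (x + 1)) = 0 := by linear_combination hx
  rcases mul_eq_zero.mp h0 with h | h
  · exact Or.inl h
  · rcases mul_eq_zero.mp h with h | h
    · exact Or.inr (Or.inl (sub_eq_zero.mp h))
    · exact Or.inr (Or.inr (eq_neg_of_add_eq_zero_left h))

/-- a vector of norm `1` in a `J`-stable family on which the form does not vanish -/
theorem E2N2_norm (hq : Fintype.card F = 3) (f : (Fin 4 → F) → (Fin 4 → F) → F)
    (hf : IsSymplecticForm f) (J : (Fin 4 → F) → (Fin 4 → F))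
    (hJadd : ∀ u v, J (u + v) = J u + J v) (hJJ : ∀ u, J (J u) = -u)
    (hJf : ∀ u v, f (J u) v = - f u (J v))
    (W : (Fin 4 → F) → Prop) (hWadd : ∀ u v, W u → W v → W (u + v)) (hWJ : ∀ u, W u → W (J u))
    (u w : Fin 4 → F) (hu : W u) (hw : W w) (huw : f u w ≠ 0) :
    ∃ v, W v ∧ f v (J v) = 1 := by
  obtain ⟨h3, hcases⟩ := E2N2_three hq
  have hnegr : ∀ x y, f x (-y) = - f x y := by
    intro x y
    have h := hf.bilinear.smul_right (-1) x y
    rw [neg_one_smul, neg_one_mul] at h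
    exact h
  have hex : ∃ v, W v ∧ f v (J v) ≠ 0 := by
    by_cases h1 : f u (J u) = 0
    swap
    · exact ⟨u, hu, h1⟩
    obtain ⟨w', hw'⟩ : ∃ w', w' = J (J (J w)) := ⟨_, rfl⟩
    have hWw' : W w' := by
      rw [hw']
      exact hWJ _ (hWJ _ (hWJ _ hw))
    have hJw' : J w' = w := by rw [hw', hJJ, hJJ, neg_neg]
    by_cases h2 : f w' (J w') = 0
    swap
    · exact ⟨w', hWw', h2⟩
    refine ⟨u + w', hWadd u w' hu hWw', ?_⟩
    have e1 : f w' (J u) = f u w := by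
      have h := hJf w' u
      rw [hJw'] at h
      rw [hf.skew u w, h, neg_neg]
    rw [hJadd, hf.bilinear.add_left, hf.bilinear.add_right, hf.bilinear.add_right, h1, h2, e1,
      hJw']
    intro h
    apply huw
    have h2' : (2 : F) * f u w = 0 := by linear_combination h
    have h22 : (2 : F) ≠ 0 := by
      intro h'
      have h10 : (1 : F) = 0 := by linear_combination h3 - h'
      exact one_ne_zero h10
    exact (mul_eq_zero.mp h2').resolve_left h22
  obtain ⟨v, hWv, hv⟩ := hex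
  rcases hcases (f v (J v)) with h | h | h
  · exact absurd h hv
  · exact ⟨v, hWv, h⟩
  · refine ⟨v + J v, hWadd v (J v) hWv (hWJ v hWv), ?_⟩
    rw [hJadd, hJJ, hf.bilinear.add_left, hf.bilinear.add_right, hf.bilinear.add_right, hnegr,
      hnegr, hf.alternating, hf.alternating, hf.skew (J v) v, h]
    linear_combination (-1 : F) * h3

/-- E2N2 -/
theorem E2N2 (hq : Fintype.card F = 3) (f : (Fin 4 → F) → (Fin 4 → F) → F)
    (hf : IsSymplecticForm f) (j : Matrix (Fin 4) (Fin 4) F) (hj : j * j = -1)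
    (hskew : ∀ u v : Fin 4 → F, f (j *ᵥ u) v = - f u (j *ᵥ v)) :
    ∃ P : GL (Fin 4) F,
      (∀ u v : Fin 4 → F, f (P.1 *ᵥ u) (P.1 *ᵥ v) = u ⬝ᵥ (E2G0 F *ᵥ v)) ∧
      j * P.1 = P.1 * E2j0 F := by
  classical
  obtain ⟨J, hJ⟩ : ∃ J : (Fin 4 → F) → (Fin 4 → F), ∀ u, J u = j *ᵥ u := ⟨_, fun _ => rfl⟩
  have hJadd : ∀ u v, J (u + v) = J u + J v := by
    intro u v
    rw [hJ, hJ, hJ, Matrix.mulVec_add]
  have hJsmul : ∀ (c : F) (u : Fin 4 → F), J (c • u) = c • J u := by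
    intro c u
    rw [hJ, hJ, Matrix.mulVec_smul]
  have hJJ : ∀ u, J (J u) = -u := by
    intro u
    rw [hJ, hJ, Matrix.mulVec_mulVec, hj, Matrix.neg_mulVec, Matrix.one_mulVec]
  have hJf : ∀ u v, f (J u) v = - f u (J v) := by
    intro u v
    rw [hJ, hJ]
    exact hskew u v
  have hnegr : ∀ x y, f x (-y) = - f x y := by
    intro x y
    have h := hf.bilinear.smul_right (-1) x y
    rw [neg_one_smul, neg_one_mul] at h
    exact h
  -- the first vector
  obtain ⟨v₁, -, hv₁⟩ : ∃ v, True ∧ f v (J v) = 1 := by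
    have hne : (fun _ : Fin 4 => (1 : F)) ≠ 0 := by
      intro h
      have h' := congrFun h 0
      exact one_ne_zero h'
    obtain ⟨⟨x, hx⟩, -⟩ := hf.nondegenerate _ hne
    exact E2N2_norm hq f hf J hJadd hJJ hJf (fun _ => True) (fun _ _ _ _ => trivial)
      (fun _ _ => trivial) x _ trivial trivial hx
  have hJv₁ : f (J v₁) v₁ = -1 := by rw [hf.skew, hv₁]
  have hJJv₁ : f (J v₁) (J v₁) = 0 := hf.alternating _
  have hv₁v₁ : f v₁ v₁ = 0 := hf.alternating _
  -- a nonzero vector orthogonal to `v₁`, `J v₁`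
  obtain ⟨w₀, hw₀ne, hw₀1, hw₀2⟩ :
      ∃ w₀ : Fin 4 → F, w₀ ≠ 0 ∧ f w₀ v₁ = 0 ∧ f w₀ (J v₁) = 0 := by
    let L : (Fin 4 → F) →ₗ[F] (F × F) :=
      { toFun := fun w => (f w v₁, f w (J v₁))
        map_add' := fun x y => by
          show (f (x + y) v₁, f (x + y) (J v₁)) = (f x v₁, f x (J v₁)) + (f y v₁, f y (J v₁))
          rw [hf.bilinear.add_left, hf.bilinear.add_left]
          rfl
        map_smul' := fun c x => by
          show (f (c • x) v₁, f (c • x) (J v₁)) = c • (f x v₁, f x (J v₁))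
          rw [hf.bilinear.smul_left, hf.bilinear.smul_left]
          rfl }
    have hker : LinearMap.ker L ≠ ⊥ := by
      apply LinearMap.ker_ne_bot_of_finrank_lt
      rw [Module.finrank_prod, Module.finrank_self, Module.finrank_fin_fun]
      norm_num
    obtain ⟨w₀, hw₀, hne⟩ := (Submodule.ne_bot_iff _).mp hker
    have h := LinearMap.mem_ker.mp hw₀
    have h' : (f w₀ v₁, f w₀ (J v₁)) = (0, 0) := h
    exact ⟨w₀, hne, (Prod.mk.inj h').1, (Prod.mk.inj h').2⟩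
  obtain ⟨x, hx⟩ := (hf.nondegenerate w₀ hw₀ne).1
  obtain ⟨u₀, hu₀⟩ : ∃ u₀ : Fin 4 → F,
      u₀ = x + (-(f x (J v₁))) • v₁ + (f x v₁) • J v₁ := ⟨_, rfl⟩
  have hu₀f : ∀ y, f u₀ y = f x y + (-(f x (J v₁))) * f v₁ y + (f x v₁) * f (J v₁) y := by
    intro y
    rw [hu₀, hf.bilinear.add_left, hf.bilinear.add_left, hf.bilinear.smul_left,
      hf.bilinear.smul_left]
  have hu₀1 : f u₀ v₁ = 0 := by
    rw [hu₀f, hv₁v₁, hJv₁]
    ring
  have hu₀2 : f u₀ (J v₁) = 0 := by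
    rw [hu₀f, hv₁, hJJv₁]
    ring
  have hu₀w : f u₀ w₀ ≠ 0 := by
    rw [hu₀f, hf.skew v₁ w₀, hf.skew (J v₁) w₀, hw₀1, hw₀2]
    intro h
    apply hx
    linear_combination h
  obtain ⟨v₂, ⟨hv₂1, hv₂2⟩, hv₂⟩ : ∃ v, (f v v₁ = 0 ∧ f v (J v₁) = 0) ∧ f v (J v) = 1 :=
    E2N2_norm hq f hf J hJadd hJJ hJf (fun w => f w v₁ = 0 ∧ f w (J v₁) = 0)
      (fun a b ha hb => by
        constructor
        · rw [hf.bilinear.add_left, ha.1, hb.1, add_zero]
        · rw [hf.bilinear.add_left, ha.2, hb.2, add_zero])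
      (fun a ha => by
        constructor
        · rw [hJf, ha.2, neg_zero]
        · rw [hJf, hJJ, hnegr, ha.1]
          simp)
      u₀ w₀ ⟨hu₀1, hu₀2⟩ ⟨hw₀1, hw₀2⟩ hu₀w
  -- the matrix
  obtain ⟨Pm, hPm⟩ : ∃ Pm : Matrix (Fin 4) (Fin 4) F, ∀ u : Fin 4 → F,
      Pm *ᵥ u = u 0 • v₁ + u 1 • J v₁ + u 2 • v₂ + u 3 • J v₂ := by
    refine ⟨Matrix.of fun i c => ![v₁, J v₁, v₂, J v₂] c i, fun u => ?_⟩
    funext i
    simp [Matrix.mulVec, dotProduct, Fin.sum_univ_four]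
    ring
  have g12 : f v₁ v₂ = 0 := by rw [hf.skew, hv₂1, neg_zero]
  have g14 : f v₁ (J v₂) = 0 := by
    have h := hJf v₁ v₂
    rw [hf.skew (J v₁) v₂, hv₂2, neg_zero] at h
    exact neg_eq_zero.mp h.symm
  have g23 : f (J v₁) v₂ = 0 := by rw [hf.skew, hv₂2, neg_zero]
  have g24 : f (J v₁) (J v₂) = 0 := by
    rw [hJf, hJJ, hnegr, g12]
    simp
  have g41 : f (J v₂) v₁ = 0 := by rw [hJf, hv₂2, neg_zero]
  have g42 : f (J v₂) (J v₁) = 0 := by
    rw [hJf, hJJ, hnegr, hv₂1]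
    simp
  have g43 : f (J v₂) v₂ = -1 := by rw [hf.skew, hv₂]
  have hgram : ∀ u v : Fin 4 → F, f (Pm *ᵥ u) (Pm *ᵥ v) = u ⬝ᵥ (E2G0 F *ᵥ v) := by
    intro u v
    rw [hPm, hPm]
    simp only [hf.bilinear.add_left, hf.bilinear.smul_left, hf.bilinear.add_right,
      hf.bilinear.smul_right, hf.alternating, hv₁, hv₂, g12, g14, hJv₁, g23, g24, g41, g42, g43,
      hv₂1, hv₂2]
    simp [E2G0, Matrix.mulVec, dotProduct, Fin.sum_univ_four]
  have hinj : Function.Injective Pm.mulVec := by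
    intro a b hab
    have hab' : Pm *ᵥ a = Pm *ᵥ b := hab
    have key : ∀ v : Fin 4 → F, a ⬝ᵥ (E2G0 F *ᵥ v) = b ⬝ᵥ (E2G0 F *ᵥ v) := by
      intro v
      rw [← hgram, ← hgram, hab']
    have k0 := key (Pi.single 0 1)
    have k1 := key (Pi.single 1 1)
    have k2 := key (Pi.single 2 1)
    have k3 := key (Pi.single 3 1)
    simp [E2G0, Matrix.mulVec, dotProduct, Fin.sum_univ_four] at k0 k1 k2 k3
    funext i
    fin_cases i
    · exact k1
    · exact k0
    · exact k3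
    · exact k2
  obtain ⟨P, hP⟩ := Matrix.mulVec_injective_iff_isUnit.mp hinj
  refine ⟨P, ?_, ?_⟩
  · intro u v
    rw [hP]
    exact hgram u v
  · rw [hP]
    apply Matrix.toLin'.injective
    apply LinearMap.ext
    intro u
    rw [Matrix.toLin'_apply, Matrix.toLin'_apply, ← Matrix.mulVec_mulVec, ← Matrix.mulVec_mulVec,
      hPm, hPm]
    have e0 : (E2j0 F *ᵥ u) 0 = - u 1 := by
      simp [E2j0, Matrix.mulVec, dotProduct, Fin.sum_univ_four]
    have e1 : (E2j0 F *ᵥ u) 1 = u 0 := by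
      simp [E2j0, Matrix.mulVec, dotProduct, Fin.sum_univ_four]
    have e2 : (E2j0 F *ᵥ u) 2 = - u 3 := by
      simp [E2j0, Matrix.mulVec, dotProduct, Fin.sum_univ_four]
    have e3 : (E2j0 F *ᵥ u) 3 = u 2 := by
      simp [E2j0, Matrix.mulVec, dotProduct, Fin.sum_univ_four]
    rw [e0, e1, e2, e3, ← hJ, hJadd, hJadd, hJadd, hJsmul, hJsmul, hJsmul, hJsmul, hJJ, hJJ]
    simp only [smul_neg, neg_smul]
    abel

end Cfsg.Agent.Lib.Helper54.SP4O
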