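import Mathlib
import Cfsg.Prelude.Def_GeometricClasses
import Cfsg.Prelude.Def_LieClassical
import Cfsg.Agent.Lib.Helper71.Asch0
import Cfsg.Agent.Lib.Helper71.Asch5
import Cfsg.Agent.Lib.Helper54.SP4OE2Defs
import Cfsg.Agent.Lib.Helper54.SP4OE2LDefs
import Cfsg.Agent.Lib.Helper54.SP4OE2N1
import Cfsg.Agent.Lib.Helper54.SP4OE2N2
import Cfsg.Agent.Lib.Helper54.SP4OE2LSUB
import Cfsg.Agent.Lib.Helper54.SP4OE2LNRM
import Cfsg.Agent.Lib.Helper54.SP4OE2LTR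
import Cfsg.Agent.Lib.Helper54.SP4OE2LJ
import Cfsg.Agent.Lib.Helper54.SP4OE2LM

/-! Project SP4O (helper54; S5787, Sp_4(q), q odd): the exception `q = 3`, lite route (glue).
For a quadratic field subalgebra `K` of unitary type and `q = 3` there are a subgroup `M`
containing every isometry normalising `K`, an isometry `m ∈ M` not normalising `K`, and an
isometry `t ∉ M`: so the normaliser of `K` in `Sp_4(3)` is not maximal. -/

set_option autoImplicit false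
set_option linter.unusedSectionVars false

namespace Cfsg.Agent.Lib.Helper54.SP4O

open Matrix Cfsg.Geo Cfsg.Agent.Lib.Helper71.Asch

variable {F : Type*} [Field F] [Fintype F]

/-- E2LS: the standard configuration -/
theorem E2LS (hq : Fintype.card F = 3) (h2 : (2 : F) ≠ 0) :
    ∃ (T : Subgroup (GL (Fin 4) F)) (m t : GL (Fin 4) F),
      (∀ g : GL (Fin 4) F, g.1ᵀ * E2G0 F * g.1 = E2G0 F →
        (∃ a b : F, g.1 * E2j0 F * (g⁻¹ : GL (Fin 4) F).1 =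
          a • (1 : Matrix (Fin 4) (Fin 4) F) + b • E2j0 F) → g ∈ subgroupNormalizer T) ∧
      m.1ᵀ * E2G0 F * m.1 = E2G0 F ∧ m ∈ subgroupNormalizer T ∧
      (¬ ∃ a b : F, m.1 * E2j0 F * (m⁻¹ : GL (Fin 4) F).1 =
        a • (1 : Matrix (Fin 4) (Fin 4) F) + b • E2j0 F) ∧
      t.1ᵀ * E2G0 F * t.1 = E2G0 F ∧ t ∉ subgroupNormalizer T := by
  obtain ⟨T, hT⟩ := E2LSUB (F := F)
  obtain ⟨m, hm1, hm2, hm3⟩ := E2LM hq T hT
  obtain ⟨t, ht1, ht2⟩ := E2LTR h2 T hT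
  exact ⟨T, m, t, fun g h1 h2' => E2LNRM T hT g ⟨h1, E2LJ hq g h2'⟩, hm1, hm2, hm3, ht1, ht2⟩

theorem E2L_dot (x G : Matrix (Fin 4) (Fin 4) F) (a b : Fin 4 → F) :
    (x *ᵥ a) ⬝ᵥ (G *ᵥ (x *ᵥ b)) = a ⬝ᵥ ((xᵀ * G * x) *ᵥ b) := by
  rw [← Matrix.mulVec_mulVec, ← Matrix.mulVec_mulVec, Matrix.dotProduct_mulVec a xᵀ,
    Matrix.vecMul_transpose]

theorem E2L_ext (A B : Matrix (Fin 4) (Fin 4) F)
    (h : ∀ u v : Fin 4 → F, u ⬝ᵥ (A *ᵥ v) = u ⬝ᵥ (B *ᵥ v)) : A = B := by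
  ext i j
  have := h (Pi.single i 1) (Pi.single j 1)
  simpa [Matrix.mulVec_single_one, single_one_dotProduct] using this

theorem E2L_mem_map (P : GL (Fin 4) F) (R₀ : Subgroup (GL (Fin 4) F)) (h : GL (Fin 4) F) :
    h ∈ R₀.map (MulAut.conj P).toMonoidHom ↔ P⁻¹ * h * P ∈ R₀ := by
  constructor
  · rintro ⟨x, hx, rfl⟩
    have : P⁻¹ * ((MulAut.conj P).toMonoidHom x) * P = x := by
      show P⁻¹ * (P * x * P⁻¹) * P = x
      group
    rw [this]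
    exact hx
  · intro hx
    refine ⟨P⁻¹ * h * P, hx, ?_⟩
    show P * (P⁻¹ * h * P) * P⁻¹ = h
    group

/-- conjugating the normaliser -/
theorem E2L_nrm (P : GL (Fin 4) F) (T : Subgroup (GL (Fin 4) F)) (x : GL (Fin 4) F) :
    P * x * P⁻¹ ∈ subgroupNormalizer (T.map (MulAut.conj P).toMonoidHom) ↔
      x ∈ subgroupNormalizer T := by
  unfold subgroupNormalizer
  rw [Subgroup.mem_normalizer_iff, Subgroup.mem_normalizer_iff]
  constructor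
  · intro h k
    have h1 := h (P * k * P⁻¹)
    have e1 : P * k * P⁻¹ ∈ ((T.map (MulAut.conj P).toMonoidHom : Subgroup (GL (Fin 4) F)) :
        Set (GL (Fin 4) F)) ↔ k ∈ T := by
      show P * k * P⁻¹ ∈ T.map (MulAut.conj P).toMonoidHom ↔ k ∈ T
      rw [E2L_mem_map]
      have : P⁻¹ * (P * k * P⁻¹) * P = k := by group
      rw [this]
    have e2 : P * x * P⁻¹ * (P * k * P⁻¹) * (P * x * P⁻¹)⁻¹ ∈
        ((T.map (MulAut.conj P).toMonoidHom : Subgroup (GL (Fin 4) F)) : Set (GL (Fin 4) F)) ↔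
        x * k * x⁻¹ ∈ T := by
      show P * x * P⁻¹ * (P * k * P⁻¹) * (P * x * P⁻¹)⁻¹ ∈ T.map (MulAut.conj P).toMonoidHom ↔ _
      rw [E2L_mem_map]
      have : P⁻¹ * (P * x * P⁻¹ * (P * k * P⁻¹) * (P * x * P⁻¹)⁻¹) * P = x * k * x⁻¹ := by group
      rw [this]
    exact e1.symm.trans (h1.trans e2)
  · intro h k
    have h1 := h (P⁻¹ * k * P)
    have e1 : k ∈ ((T.map (MulAut.conj P).toMonoidHom : Subgroup (GL (Fin 4) F)) :
        Set (GL (Fin 4) F)) ↔ P⁻¹ * k * P ∈ T := by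
      show k ∈ T.map (MulAut.conj P).toMonoidHom ↔ _
      rw [E2L_mem_map]
    have e2 : P * x * P⁻¹ * k * (P * x * P⁻¹)⁻¹ ∈
        ((T.map (MulAut.conj P).toMonoidHom : Subgroup (GL (Fin 4) F)) : Set (GL (Fin 4) F)) ↔
        x * (P⁻¹ * k * P) * x⁻¹ ∈ T := by
      show P * x * P⁻¹ * k * (P * x * P⁻¹)⁻¹ ∈ T.map (MulAut.conj P).toMonoidHom ↔ _
      rw [E2L_mem_map]
      have : P⁻¹ * (P * x * P⁻¹ * k * (P * x * P⁻¹)⁻¹) * P = x * (P⁻¹ * k * P) * x⁻¹ := by group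
      rw [this]
    exact e1.trans (h1.trans e2.symm)

/-- E2L -/
theorem E2L (hq : Fintype.card F = 3) (h2 : (2 : F) ≠ 0) (f : (Fin 4 → F) → (Fin 4 → F) → F)
    (hf : IsSymplecticForm f)
    (K : Subalgebra F (Matrix (Fin 4) (Fin 4) F)) (hK : IsFieldSubalgebra 2 K)
    (hadj : IsAdjointClosedFor f K) (hsa : ¬ IsSelfAdjointFor f K) :
    ∃ (M : Subgroup (GL (Fin 4) F)) (m t : GL (Fin 4) F),
      (∀ g : GL (Fin 4) F, (∀ u v : Fin 4 → F, f (g.1 *ᵥ u) (g.1 *ᵥ v) = f u v) →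
        g ∈ subalgebraNormalizer K → g ∈ M) ∧
      (∀ u v : Fin 4 → F, f (m.1 *ᵥ u) (m.1 *ᵥ v) = f u v) ∧ m ∈ M ∧
      m ∉ subalgebraNormalizer K ∧
      (∀ u v : Fin 4 → F, f (t.1 *ᵥ u) (t.1 *ᵥ v) = f u v) ∧ t ∉ M := by
  classical
  obtain ⟨j, hj, hskew, hKj⟩ := E2N1 hq f hf K hK hadj hsa
  obtain ⟨P, hP, hjP⟩ := E2N2 hq f hf j hj hskew
  obtain ⟨T, m₀, t₀, hnorm, hm1, hm2, hm3, ht1, ht2⟩ := E2LS (F := F) hq h2
  have hPi : (P⁻¹ : GL (Fin 4) F).1 * P.1 = 1 := by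
    rw [← Units.val_mul, inv_mul_cancel, Units.val_one]
  have hPi' : P.1 * (P⁻¹ : GL (Fin 4) F).1 = 1 := by
    rw [← Units.val_mul, mul_inv_cancel, Units.val_one]
  have hjK : j ∈ K := (hKj j).2 ⟨0, 1, by rw [zero_smul, one_smul, zero_add]⟩
  have hjj : j = P.1 * E2j0 F * (P⁻¹ : GL (Fin 4) F).1 := by
    rw [← hjP, Matrix.mul_assoc, hPi', Matrix.mul_one]
  have hj0 : (P⁻¹ : GL (Fin 4) F).1 * j * P.1 = E2j0 F := by
    rw [Matrix.mul_assoc, hjP, ← Matrix.mul_assoc, hPi, Matrix.one_mul]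
  -- isometries of the standard form give isometries of `f`
  have hfixc : ∀ x : GL (Fin 4) F, x.1ᵀ * E2G0 F * x.1 = E2G0 F →
      ∀ u v : Fin 4 → F, f ((P * x * P⁻¹ : GL (Fin 4) F).1 *ᵥ u)
        ((P * x * P⁻¹ : GL (Fin 4) F).1 *ᵥ v) = f u v := by
    intro x hx u v
    have hu : ∀ w : Fin 4 → F, (P * x * P⁻¹ : GL (Fin 4) F).1 *ᵥ w =
        P.1 *ᵥ (x.1 *ᵥ ((P⁻¹ : GL (Fin 4) F).1 *ᵥ w)) := by
      intro w
      rw [Units.val_mul, Units.val_mul, Matrix.mulVec_mulVec, Matrix.mulVec_mulVec,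
        Matrix.mul_assoc]
    have hw : ∀ w : Fin 4 → F, P.1 *ᵥ ((P⁻¹ : GL (Fin 4) F).1 *ᵥ w) = w := by
      intro w
      rw [Matrix.mulVec_mulVec, hPi', Matrix.one_mulVec]
    rw [hu, hu, hP, E2L_dot, hx, ← hP, hw, hw]
  -- an element normalising `K` gives, in standard coordinates, an element with `x j₀ x⁻¹ ∈ ⟨1, j₀⟩`
  have hKc : ∀ g : GL (Fin 4) F, g ∈ subalgebraNormalizer K →
      ∃ a b : F, (P⁻¹ * g * P : GL (Fin 4) F).1 * E2j0 F *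
        ((P⁻¹ * g * P)⁻¹ : GL (Fin 4) F).1 = a • (1 : Matrix (Fin 4) (Fin 4) F) + b • E2j0 F := by
    intro g hgK
    obtain ⟨a, b, hab⟩ := (hKj _).1 ((hgK j).1 hjK)
    refine ⟨a, b, ?_⟩
    have hg'i : ((P⁻¹ * g * P)⁻¹ : GL (Fin 4) F).1 =
        (P⁻¹ : GL (Fin 4) F).1 * (g⁻¹ : GL (Fin 4) F).1 * P.1 := by
      simp [mul_assoc]
    have hg'v : (P⁻¹ * g * P : GL (Fin 4) F).1 = (P⁻¹ : GL (Fin 4) F).1 * g.1 * P.1 := by
      simp
    calc (P⁻¹ * g * P : GL (Fin 4) F).1 * E2j0 F * ((P⁻¹ * g * P)⁻¹ : GL (Fin 4) F).1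
        = (P⁻¹ : GL (Fin 4) F).1 * (g.1 * (P.1 * E2j0 F * (P⁻¹ : GL (Fin 4) F).1) *
            (g⁻¹ : GL (Fin 4) F).1) * P.1 := by
          rw [hg'i, hg'v]
          simp only [Matrix.mul_assoc]
      _ = (P⁻¹ : GL (Fin 4) F).1 * (a • (1 : Matrix (Fin 4) (Fin 4) F) + b • j) * P.1 := by
          rw [← hjj, hab]
      _ = a • (1 : Matrix (Fin 4) (Fin 4) F) + b • E2j0 F := by
          rw [Matrix.mul_add, Matrix.add_mul, Matrix.mul_smul, Matrix.smul_mul, Matrix.mul_one,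
            hPi, Matrix.mul_smul, Matrix.smul_mul, hj0]
  have hconj : ∀ g : GL (Fin 4) F, P * (P⁻¹ * g * P) * P⁻¹ = g := by
    intro g
    group
  have hconj' : ∀ x : GL (Fin 4) F, P⁻¹ * (P * x * P⁻¹) * P = x := by
    intro x
    group
  refine ⟨subgroupNormalizer (T.map (MulAut.conj P).toMonoidHom), P * m₀ * P⁻¹, P * t₀ * P⁻¹,
    ?_, hfixc m₀ hm1, (E2L_nrm P T m₀).2 hm2, ?_, hfixc t₀ ht1, fun h => ht2 ((E2L_nrm P T t₀).1 h)⟩
  · intro g hgf hgK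
    obtain ⟨g', hg'⟩ : ∃ g' : GL (Fin 4) F, g' = P⁻¹ * g * P := ⟨_, rfl⟩
    have hPg : P.1 * g'.1 = g.1 * P.1 := by
      rw [hg', Units.val_mul, Units.val_mul, ← Matrix.mul_assoc, ← Matrix.mul_assoc, hPi',
        Matrix.one_mul]
    have h1 : g'.1ᵀ * E2G0 F * g'.1 = E2G0 F := by
      apply E2L_ext
      intro u v
      rw [← E2L_dot, ← hP, Matrix.mulVec_mulVec, Matrix.mulVec_mulVec, hPg,
        ← Matrix.mulVec_mulVec, ← Matrix.mulVec_mulVec, hgf, hP]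
    have h3 := hnorm g' h1 (by rw [hg']; exact hKc g hgK)
    have h4 := (E2L_nrm P T g').2 h3
    rw [hg', hconj] at h4
    exact h4
  · intro hmK
    apply hm3
    have := hKc (P * m₀ * P⁻¹) hmK
    rw [hconj'] at this
    exact this

end Cfsg.Agent.Lib.Helper54.SP4O
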