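import Mathlib
import Cfsg.Prelude.Def_GeometricClasses
import Cfsg.Agent.Lib.Helper54.SP4OE2Defs
import Cfsg.Agent.Lib.Helper54.SP4OE2LDefs

/-! Project SP4O (helper54; S5787, Sp_4(q), q odd): piece `E2LTR` of the exception q = 3 (lite route). A transvection of Sp(G0) which does not normalise T. -/

set_option autoImplicit false

namespace Cfsg.Agent.Lib.Helper54.SP4O

open Matrix Cfsg.Geo

variable {F : Type*} [Field F] [Fintype F]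

omit [Fintype F] in
theorem E2LTR_t_inv : (!![1, 1, 0, 0; 0, 1, 0, 0; 0, 0, 1, 0; 0, 0, 0, 1] : Matrix (Fin 4) (Fin 4) F) * (!![1, -1, 0, 0; 0, 1, 0, 0; 0, 0, 1, 0; 0, 0, 0, 1] : Matrix (Fin 4) (Fin 4) F) = 1 := by
  ext i j
  fin_cases i <;> fin_cases j <;> simp [Matrix.mul_apply, Fin.sum_univ_four]

omit [Fintype F] in
theorem E2LTR_inv_t : (!![1, -1, 0, 0; 0, 1, 0, 0; 0, 0, 1, 0; 0, 0, 0, 1] : Matrix (Fin 4) (Fin 4) F) * (!![1, 1, 0, 0; 0, 1, 0, 0; 0, 0, 1, 0; 0, 0, 0, 1] : Matrix (Fin 4) (Fin 4) F) = 1 := by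
  ext i j
  fin_cases i <;> fin_cases j <;> simp [Matrix.mul_apply, Fin.sum_univ_four]

omit [Fintype F] in
theorem E2LTR_iso : (!![1, 1, 0, 0; 0, 1, 0, 0; 0, 0, 1, 0; 0, 0, 0, 1] : Matrix (Fin 4) (Fin 4) F)ᵀ * E2G0 F * (!![1, 1, 0, 0; 0, 1, 0, 0; 0, 0, 1, 0; 0, 0, 0, 1] : Matrix (Fin 4) (Fin 4) F) = E2G0 F := by
  ext i j
  fin_cases i <;> fin_cases j <;>
    simp [E2G0, Matrix.mul_apply, Fin.sum_univ_four, Matrix.transpose_apply]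

omit [Fintype F] in
theorem E2LTR_j0_iso : (E2j0 F)ᵀ * E2G0 F * E2j0 F = E2G0 F := by
  ext i j
  fin_cases i <;> fin_cases j <;>
    simp [E2G0, E2j0, Matrix.mul_apply, Fin.sum_univ_four, Matrix.transpose_apply]

omit [Fintype F] in
theorem E2LTR_j0_inv : E2j0 F * -E2j0 F = 1 := by
  ext i j
  fin_cases i <;> fin_cases j <;> simp [E2j0, Matrix.mul_apply, Fin.sum_univ_four]

omit [Fintype F] in
theorem E2LTR_inv_j0 : -E2j0 F * E2j0 F = 1 := by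
  ext i j
  fin_cases i <;> fin_cases j <;> simp [E2j0, Matrix.mul_apply, Fin.sum_univ_four]

omit [Fintype F] in
theorem E2LTR_dj : ((!![1, 1, 0, 0; 0, 1, 0, 0; 0, 0, 1, 0; 0, 0, 0, 1] : Matrix (Fin 4) (Fin 4) F) * E2j0 F * (!![1, -1, 0, 0; 0, 1, 0, 0; 0, 0, 1, 0; 0, 0, 0, 1] : Matrix (Fin 4) (Fin 4) F)) * E2j0 F =
    !![-2, -1, 0, 0; -1, -1, 0, 0; 0, 0, -1, 0; 0, 0, 0, -1] := by
  ext i j
  fin_cases i <;> fin_cases j <;>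
    simp [E2j0, Matrix.mul_apply, Fin.sum_univ_four] <;> norm_num

omit [Fintype F] in
theorem E2LTR_jd : E2j0 F * ((!![1, 1, 0, 0; 0, 1, 0, 0; 0, 0, 1, 0; 0, 0, 0, 1] : Matrix (Fin 4) (Fin 4) F) * E2j0 F * (!![1, -1, 0, 0; 0, 1, 0, 0; 0, 0, 1, 0; 0, 0, 0, 1] : Matrix (Fin 4) (Fin 4) F)) =
    !![-1, 1, 0, 0; 1, -2, 0, 0; 0, 0, -1, 0; 0, 0, 0, -1] := by
  ext i j
  fin_cases i <;> fin_cases j <;>
    simp [E2j0, Matrix.mul_apply, Fin.sum_univ_four] <;> norm_num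

omit [Fintype F] in
theorem E2LTR_e00a : (((!![1, 1, 0, 0; 0, 1, 0, 0; 0, 0, 1, 0; 0, 0, 0, 1] : Matrix (Fin 4) (Fin 4) F) * E2j0 F * (!![1, -1, 0, 0; 0, 1, 0, 0; 0, 0, 1, 0; 0, 0, 0, 1] : Matrix (Fin 4) (Fin 4) F)) * E2j0 F) 0 0 = -2 := by
  rw [E2LTR_dj]
  rfl

omit [Fintype F] in
theorem E2LTR_e00b : (E2j0 F * ((!![1, 1, 0, 0; 0, 1, 0, 0; 0, 0, 1, 0; 0, 0, 0, 1] : Matrix (Fin 4) (Fin 4) F) * E2j0 F * (!![1, -1, 0, 0; 0, 1, 0, 0; 0, 0, 1, 0; 0, 0, 0, 1] : Matrix (Fin 4) (Fin 4) F))) 0 0 = -1 := by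
  rw [E2LTR_jd]
  rfl

omit [Fintype F] in
theorem E2LTR_e22a : (((!![1, 1, 0, 0; 0, 1, 0, 0; 0, 0, 1, 0; 0, 0, 0, 1] : Matrix (Fin 4) (Fin 4) F) * E2j0 F * (!![1, -1, 0, 0; 0, 1, 0, 0; 0, 0, 1, 0; 0, 0, 0, 1] : Matrix (Fin 4) (Fin 4) F)) * E2j0 F) 2 2 = -1 := by
  rw [E2LTR_dj]
  rfl

omit [Fintype F] in
theorem E2LTR_e22b : (E2j0 F * ((!![1, 1, 0, 0; 0, 1, 0, 0; 0, 0, 1, 0; 0, 0, 0, 1] : Matrix (Fin 4) (Fin 4) F) * E2j0 F * (!![1, -1, 0, 0; 0, 1, 0, 0; 0, 0, 1, 0; 0, 0, 0, 1] : Matrix (Fin 4) (Fin 4) F))) 2 2 = -1 := by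
  rw [E2LTR_jd]
  rfl

/-- E2LTR -/
theorem E2LTR (h2 : (2 : F) ≠ 0) (T : Subgroup (GL (Fin 4) F))
    (hT : ∀ g : GL (Fin 4) F, g ∈ T ↔ E2Tpred g.1) :
    ∃ t : GL (Fin 4) F, t.1ᵀ * E2G0 F * t.1 = E2G0 F ∧ t ∉ subgroupNormalizer T := by
  refine ⟨⟨(!![1, 1, 0, 0; 0, 1, 0, 0; 0, 0, 1, 0; 0, 0, 0, 1] : Matrix (Fin 4) (Fin 4) F), (!![1, -1, 0, 0; 0, 1, 0, 0; 0, 0, 1, 0; 0, 0, 0, 1] : Matrix (Fin 4) (Fin 4) F), E2LTR_t_inv, E2LTR_inv_t⟩, E2LTR_iso, ?_⟩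
  intro hn
  have hn' := Subgroup.mem_normalizer_iff.1 hn
  have hj : (⟨E2j0 F, -E2j0 F, E2LTR_j0_inv, E2LTR_inv_j0⟩ : GL (Fin 4) F) ∈ T := by
    rw [hT]
    exact ⟨⟨E2LTR_j0_iso, Or.inl rfl⟩, fun y hy => Or.inl hy.2.1.symm⟩
  have h1 := (hn' _).1 hj
  rw [hT] at h1
  have h3 : ((!![1, 1, 0, 0; 0, 1, 0, 0; 0, 0, 1, 0; 0, 0, 0, 1] : Matrix (Fin 4) (Fin 4) F) * E2j0 F * (!![1, -1, 0, 0; 0, 1, 0, 0; 0, 0, 1, 0; 0, 0, 0, 1] : Matrix (Fin 4) (Fin 4) F)) * E2j0 F = E2j0 F * ((!![1, 1, 0, 0; 0, 1, 0, 0; 0, 0, 1, 0; 0, 0, 0, 1] : Matrix (Fin 4) (Fin 4) F) * E2j0 F * (!![1, -1, 0, 0; 0, 1, 0, 0; 0, 0, 1, 0; 0, 0, 0, 1] : Matrix (Fin 4) (Fin 4) F)) ∨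
      ((!![1, 1, 0, 0; 0, 1, 0, 0; 0, 0, 1, 0; 0, 0, 0, 1] : Matrix (Fin 4) (Fin 4) F) * E2j0 F * (!![1, -1, 0, 0; 0, 1, 0, 0; 0, 0, 1, 0; 0, 0, 0, 1] : Matrix (Fin 4) (Fin 4) F)) * E2j0 F = -(E2j0 F * ((!![1, 1, 0, 0; 0, 1, 0, 0; 0, 0, 1, 0; 0, 0, 0, 1] : Matrix (Fin 4) (Fin 4) F) * E2j0 F * (!![1, -1, 0, 0; 0, 1, 0, 0; 0, 0, 1, 0; 0, 0, 0, 1] : Matrix (Fin 4) (Fin 4) F))) := h1.1.2
  rcases h3 with hc | hc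
  · have h0 := congrFun (congrFun hc 0) 0
    rw [E2LTR_e00a, E2LTR_e00b] at h0
    have h4 : (1 : F) = 0 := by linear_combination -h0
    exact one_ne_zero h4
  · have h0 := congrFun (congrFun hc 2) 2
    rw [Matrix.neg_apply, E2LTR_e22a, E2LTR_e22b] at h0
    have h4 : (2 : F) = 0 := by linear_combination -h0
    exact h2 h4

end Cfsg.Agent.Lib.Helper54.SP4O
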