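import Mathlib
import Cfsg.Prelude.Def_GeometricClasses
import Cfsg.Prelude.Def_LieClassical
import Cfsg.Agent.Lib.Helper71.Asch0
import Cfsg.Agent.Lib.Helper71.Asch5
import Cfsg.Agent.Lib.Helper75.SPPEVEN

/-! Project SP4O (helper54; S5787, Sp_4(q), q odd): piece `MINUS`. A group of isometries of a symplectic form in dimension 4, q odd, has no elementary abelian 2-subgroup of order 8. -/

set_option autoImplicit false

namespace Cfsg.Agent.Lib.Helper54.SP4O

open Matrix Cfsg.Geo Cfsg.Agent.Lib.Helper71.Asch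

variable {F : Type*} [Field F] [Fintype F]

/-- The `ε`-eigenspace of the matrix `b` inside the subspace `W`. -/
def MINUS_E {n : ℕ} (b : Matrix (Fin n) (Fin n) F) (W : Submodule F (Fin n → F)) (ε : F) :
    Submodule F (Fin n → F) where
  carrier := {w | w ∈ W ∧ b *ᵥ w = ε • w}
  add_mem' := by
    rintro x y ⟨hx, hx'⟩ ⟨hy, hy'⟩
    refine ⟨W.add_mem hx hy, ?_⟩
    rw [Matrix.mulVec_add, hx', hy', smul_add]
  zero_mem' := ⟨W.zero_mem, by rw [Matrix.mulVec_zero, smul_zero]⟩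
  smul_mem' := by
    rintro c x ⟨hx, hx'⟩
    refine ⟨W.smul_mem c hx, ?_⟩
    rw [Matrix.mulVec_smul, hx', smul_comm]

theorem MINUS_mem_E {n : ℕ} (b : Matrix (Fin n) (Fin n) F) (W : Submodule F (Fin n → F)) (ε : F)
    (w : Fin n → F) : w ∈ MINUS_E b W ε ↔ w ∈ W ∧ b *ᵥ w = ε • w := Iff.rfl

theorem MINUS_E_le {n : ℕ} (b : Matrix (Fin n) (Fin n) F) (W : Submodule F (Fin n → F)) (ε : F) :
    MINUS_E b W ε ≤ W := fun _ hw => hw.1

/-- The eigenspaces (for `ε = 1` or `ε = -1`) of an isometric involution inside an invariant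
non-degenerate subspace are non-degenerate. -/
theorem MINUS_nd {n : ℕ} (h2 : (2 : F) ≠ 0) (f : (Fin n → F) → (Fin n → F) → F)
    (hb : IsBilinearForm f) (b : Matrix (Fin n) (Fin n) F) (hbb : b * b = 1)
    (hiso : ∀ u v, f (b *ᵥ u) (b *ᵥ v) = f u v)
    (W : Submodule F (Fin n → F)) (hW : IsNondegenerateOn f W)
    (hinv : ∀ w ∈ W, b *ᵥ w ∈ W) (ε : F) (hε : ε * ε = 1) :
    IsNondegenerateOn f (MINUS_E b W ε) := by
  have hbbv : ∀ v, b *ᵥ (b *ᵥ v) = v := by
    intro v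
    rw [Matrix.mulVec_mulVec, hbb, Matrix.one_mulVec]
  -- projection `x ↦ x + ε • b x`
  have hproj : ∀ x ∈ W, x + ε • (b *ᵥ x) ∈ MINUS_E b W ε := by
    intro x hx
    refine ⟨W.add_mem hx (W.smul_mem _ (hinv x hx)), ?_⟩
    rw [Matrix.mulVec_add, Matrix.mulVec_smul, hbbv, smul_add, smul_smul, hε, one_smul, add_comm]
  have hεinv : ∀ w, b *ᵥ w = ε • w → w = ε • (b *ᵥ w) := by
    intro w hw
    rw [hw, smul_smul, hε, one_smul]
  intro w hw hw0
  obtain ⟨hwW, hwb⟩ := hw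
  obtain ⟨⟨x, hxW, hx⟩, ⟨y, hyW, hy⟩⟩ := hW w hwW hw0
  refine ⟨⟨x + ε • (b *ᵥ x), hproj x hxW, ?_⟩, ⟨y + ε • (b *ᵥ y), hproj y hyW, ?_⟩⟩
  · have h1 : f (ε • (b *ᵥ x)) w = f x w := by
      rw [hb.smul_left]
      have h3 : f (b *ᵥ x) w = ε * f x w := by
        conv_lhs => rw [hεinv w hwb]
        rw [hb.smul_right, hiso]
      rw [h3, ← mul_assoc, hε, one_mul]
    rw [hb.add_left, h1]
    intro h0
    apply hx
    have : (2 : F) * f x w = 0 := by linear_combination h0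
    rcases mul_eq_zero.mp this with h | h
    · exact absurd h h2
    · exact h
  · have h1 : f w (ε • (b *ᵥ y)) = f w y := by
      rw [hb.smul_right]
      have h3 : f w (b *ᵥ y) = ε * f w y := by
        conv_lhs => rw [hεinv w hwb]
        rw [hb.smul_left, hiso]
      rw [h3, ← mul_assoc, hε, one_mul]
    rw [hb.add_right, h1]
    intro h0
    apply hy
    have : (2 : F) * f w y = 0 := by linear_combination h0
    rcases mul_eq_zero.mp this with h | h
    · exact absurd h h2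
    · exact h

/-- The dimensions of the two eigenspaces add up to the dimension of `W`. -/
theorem MINUS_dim {n : ℕ} (h2 : (2 : F) ≠ 0)
    (b : Matrix (Fin n) (Fin n) F) (hbb : b * b = 1)
    (W : Submodule F (Fin n → F)) (hinv : ∀ w ∈ W, b *ᵥ w ∈ W) :
    Module.finrank F (MINUS_E b W 1) + Module.finrank F (MINUS_E b W (-1)) = Module.finrank F W := by
  have hbbv : ∀ v, b *ᵥ (b *ᵥ v) = v := by
    intro v
    rw [Matrix.mulVec_mulVec, hbb, Matrix.one_mulVec]
  have hinf : MINUS_E b W 1 ⊓ MINUS_E b W (-1) = ⊥ := by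
    rw [eq_bot_iff]
    rintro w ⟨⟨_, h1⟩, ⟨_, h2'⟩⟩
    rw [Submodule.mem_bot]
    rw [h1] at h2'
    have h3 : (2 : F) • w = 0 := by
      rw [two_smul]
      have : (1 : F) • w = w := one_smul _ _
      rw [this] at h2'
      nth_rewrite 1 [h2']
      rw [neg_smul, one_smul, neg_add_cancel]
    rcases smul_eq_zero.mp h3 with h | h
    · exact absurd h h2
    · exact h
  have hsup : MINUS_E b W 1 ⊔ MINUS_E b W (-1) = W := by
    apply le_antisymm (sup_le (MINUS_E_le b W 1) (MINUS_E_le b W (-1)))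
    intro w hw
    have hp : (2 : F)⁻¹ • (w + b *ᵥ w) ∈ MINUS_E b W 1 := by
      refine Submodule.smul_mem _ _ ⟨W.add_mem hw (hinv w hw), ?_⟩
      rw [Matrix.mulVec_add, hbbv, one_smul, add_comm]
    have hm : (2 : F)⁻¹ • (w - b *ᵥ w) ∈ MINUS_E b W (-1) := by
      refine Submodule.smul_mem _ _ ⟨W.sub_mem hw (hinv w hw), ?_⟩
      rw [Matrix.mulVec_sub, hbbv, neg_smul, one_smul, neg_sub]
    have hsum : w = (2 : F)⁻¹ • (w + b *ᵥ w) + (2 : F)⁻¹ • (w - b *ᵥ w) := by
      rw [← smul_add, add_add_sub_cancel, ← two_smul F w, smul_smul, inv_mul_cancel₀ h2, one_smul]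
    rw [hsum]
    exact Submodule.add_mem _ (Submodule.mem_sup_left hp) (Submodule.mem_sup_right hm)
  have h := Submodule.finrank_sup_add_finrank_inf_eq (MINUS_E b W 1) (MINUS_E b W (-1))
  rw [hinf, hsup, finrank_bot, add_zero] at h
  exact h.symm

/-- On an invariant non-degenerate plane an isometric involution is `1` or `-1`. -/
theorem MINUS_plane {n : ℕ} (h2 : (2 : F) ≠ 0) (f : (Fin n → F) → (Fin n → F) → F)
    (hb : IsBilinearForm f) (halt : ∀ v, f v v = 0)
    (b : Matrix (Fin n) (Fin n) F) (hbb : b * b = 1)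
    (hiso : ∀ u v, f (b *ᵥ u) (b *ᵥ v) = f u v)
    (W : Submodule F (Fin n → F)) (hW : IsNondegenerateOn f W)
    (hinv : ∀ w ∈ W, b *ᵥ w ∈ W) (hd : Module.finrank F W = 2) :
    (∀ w ∈ W, b *ᵥ w = w) ∨ (∀ w ∈ W, b *ᵥ w = -w) := by
  have hdim := MINUS_dim h2 b hbb W hinv
  have he1 := Cfsg.Agent.Lib.Helper75.SPPEVEN.EVEN f hb halt _
    (MINUS_nd h2 f hb b hbb hiso W hW hinv 1 (by norm_num))
  have he2 := Cfsg.Agent.Lib.Helper75.SPPEVEN.EVEN f hb halt _
    (MINUS_nd h2 f hb b hbb hiso W hW hinv (-1) (by norm_num))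
  rw [hd] at hdim
  obtain ⟨k1, hk1⟩ := he1
  obtain ⟨k2, hk2⟩ := he2
  have hcase : Module.finrank F (MINUS_E b W 1) = 2 ∨ Module.finrank F (MINUS_E b W (-1)) = 2 := by
    omega
  rcases hcase with h | h
  · left
    have heq : MINUS_E b W 1 = W :=
      Submodule.eq_of_le_of_finrank_eq (MINUS_E_le b W 1) (by rw [h, hd])
    intro w hw
    rw [← heq] at hw
    have := hw.2
    rwa [one_smul] at this
  · right
    have heq : MINUS_E b W (-1) = W :=
      Submodule.eq_of_le_of_finrank_eq (MINUS_E_le b W (-1)) (by rw [h, hd])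
    intro w hw
    rw [← heq] at hw
    have := hw.2
    rwa [neg_smul, one_smul] at this

/-- MINUS -/
theorem MINUS (h2 : (2 : F) ≠ 0) (f : (Fin 4 → F) → (Fin 4 → F) → F) (hf : IsSymplecticForm f)
    (L : Subgroup (GL (Fin 4) F)) (hfix : FixesForm (matrixSet L) f) : IsOfMinusType 2 L := by
  classical
  intro A hA hexp
  have hb := hf.bilinear
  have halt := hf.alternating
  -- basic facts about elements of `A`
  have hsq : ∀ x ∈ A, (x.1 : Matrix (Fin 4) (Fin 4) F) * (x.1 : Matrix (Fin 4) (Fin 4) F) = 1 := by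
    intro x hx
    have h := hexp x hx
    have h' : (x.1 : GL (Fin 4) F) * x.1 = 1 := by
      have := congrArg (fun y : L => (y : GL (Fin 4) F)) h
      simpa using this
    have := congrArg (fun y : GL (Fin 4) F => (y : Matrix (Fin 4) (Fin 4) F)) h'
    simpa using this
  have hiso : ∀ x : L, ∀ u v, f ((x.1 : Matrix (Fin 4) (Fin 4) F) *ᵥ u)
      ((x.1 : Matrix (Fin 4) (Fin 4) F) *ᵥ v) = f u v := by
    intro x u v
    exact hfix _ ⟨x.1, x.2, rfl⟩ u v
  have hcomm : ∀ x ∈ A, ∀ y ∈ A, (x.1 : Matrix (Fin 4) (Fin 4) F) * (y.1 : Matrix (Fin 4) (Fin 4) F)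
      = (y.1 : Matrix (Fin 4) (Fin 4) F) * (x.1 : Matrix (Fin 4) (Fin 4) F) := by
    intro x hx y hy
    have h := hA.is_comm.comm (⟨x, hx⟩ : A) ⟨y, hy⟩
    have h1 : x * y = y * x := by
      have := congrArg (fun z : A => (z : L)) h
      simpa using this
    have h2' : (x.1 : GL (Fin 4) F) * y.1 = y.1 * x.1 := by
      have := congrArg (fun z : L => (z : GL (Fin 4) F)) h1
      simpa using this
    have := congrArg (fun z : GL (Fin 4) F => (z : Matrix (Fin 4) (Fin 4) F)) h2'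
    simpa using this
  have hmatinj : ∀ x y : A, ((x.1.1 : GL (Fin 4) F) : Matrix (Fin 4) (Fin 4) F)
      = ((y.1.1 : GL (Fin 4) F) : Matrix (Fin 4) (Fin 4) F) → x = y := by
    intro x y h
    exact Subtype.ext (Subtype.ext (Units.ext h))
  have htop : IsNondegenerateOn f (⊤ : Submodule F (Fin 4 → F)) := by
    intro w _ hw0
    obtain ⟨⟨x, hx⟩, ⟨y, hy⟩⟩ := hf.nondegenerate w hw0
    exact ⟨⟨x, Submodule.mem_top, hx⟩, ⟨y, Submodule.mem_top, hy⟩⟩
  have hmulVec_ext : ∀ M N : Matrix (Fin 4) (Fin 4) F, (∀ v, M *ᵥ v = N *ᵥ v) → M = N := by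
    intro M N h
    apply Matrix.toLin'.injective
    apply LinearMap.ext
    intro v
    rw [Matrix.toLin'_apply, Matrix.toLin'_apply, h]
  by_cases hall : ∀ x ∈ A, (x.1 : Matrix (Fin 4) (Fin 4) F) = 1 ∨ (x.1 : Matrix (Fin 4) (Fin 4) F) = -1
  · -- all elements are `±1`
    have hinj : Function.Injective
        (fun x : A => decide (((x.1.1 : GL (Fin 4) F) : Matrix (Fin 4) (Fin 4) F) = 1)) := by
      intro x y hxy
      apply hmatinj
      simp only [decide_eq_decide] at hxy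
      rcases hall x.1 x.2 with hx | hx
      · rw [hx, hxy.mp hx]
      · rcases hall y.1 y.2 with hy | hy
        · rw [hy, hxy.mpr hy]
        · rw [hx, hy]
    have hle := Nat.card_le_card_of_injective _ hinj
    have hcb : Nat.card Bool = 2 := by rw [Nat.card_eq_fintype_card, Fintype.card_bool]
    rw [hcb] at hle
    omega
  · push Not at hall
    obtain ⟨a, haA, ha1, ham1⟩ := hall
    obtain ⟨am, ham⟩ : ∃ am : Matrix (Fin 4) (Fin 4) F, am = (a.1 : Matrix (Fin 4) (Fin 4) F) :=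
      ⟨_, rfl⟩
    rw [← ham] at ha1 ham1
    have haa : am * am = 1 := by rw [ham]; exact hsq a haA
    have hisoa : ∀ u v, f (am *ᵥ u) (am *ᵥ v) = f u v := by rw [ham]; exact hiso a
    have hinvtop : ∀ w ∈ (⊤ : Submodule F (Fin 4 → F)), am *ᵥ w ∈ (⊤ : Submodule F (Fin 4 → F)) :=
      fun _ _ => Submodule.mem_top
    have hdim := MINUS_dim h2 am haa ⊤ hinvtop
    have hndp := MINUS_nd h2 f hb am haa hisoa ⊤ htop hinvtop 1 (by norm_num)
    have hndm := MINUS_nd h2 f hb am haa hisoa ⊤ htop hinvtop (-1) (by norm_num)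
    have hep := Cfsg.Agent.Lib.Helper75.SPPEVEN.EVEN f hb halt _ hndp
    have hem := Cfsg.Agent.Lib.Helper75.SPPEVEN.EVEN f hb halt _ hndm
    have htopdim : Module.finrank F (⊤ : Submodule F (Fin 4 → F)) = 4 := by
      rw [finrank_top, Module.finrank_fin_fun]
    rw [htopdim] at hdim
    obtain ⟨Wp, hWp⟩ : ∃ Wp, Wp = MINUS_E am ⊤ 1 := ⟨_, rfl⟩
    obtain ⟨Wm, hWm⟩ : ∃ Wm, Wm = MINUS_E am ⊤ (-1) := ⟨_, rfl⟩
    rw [← hWp] at hdim hndp hep
    rw [← hWm] at hdim hndm hem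
    -- neither eigenspace is everything
    have hp4 : Module.finrank F Wp ≠ 4 := by
      intro h4
      have heq : Wp = ⊤ := Submodule.eq_top_of_finrank_eq (by rw [h4, Module.finrank_fin_fun])
      apply ha1
      apply hmulVec_ext
      intro v
      have hv : v ∈ Wp := by rw [heq]; exact Submodule.mem_top
      rw [hWp] at hv
      rw [hv.2, one_smul, Matrix.one_mulVec]
    have hm4 : Module.finrank F Wm ≠ 4 := by
      intro h4
      have heq : Wm = ⊤ := Submodule.eq_top_of_finrank_eq (by rw [h4, Module.finrank_fin_fun])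
      apply ham1
      apply hmulVec_ext
      intro v
      have hv : v ∈ Wm := by rw [heq]; exact Submodule.mem_top
      rw [hWm] at hv
      rw [hv.2, neg_smul, one_smul, Matrix.neg_mulVec, Matrix.one_mulVec]
    obtain ⟨k1, hk1⟩ := hep
    obtain ⟨k2, hk2⟩ := hem
    have hdp : Module.finrank F Wp = 2 := by omega
    have hdm : Module.finrank F Wm = 2 := by omega
    -- every element of `A` preserves both eigenspaces and is `±1` on each
    have hpres : ∀ x ∈ A, ∀ ε : F, ∀ w ∈ MINUS_E am ⊤ ε,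
        (x.1 : Matrix (Fin 4) (Fin 4) F) *ᵥ w ∈ MINUS_E am ⊤ ε := by
      intro x hx ε w hw
      refine ⟨Submodule.mem_top, ?_⟩
      rw [Matrix.mulVec_mulVec, ham, hcomm a haA x hx, ← Matrix.mulVec_mulVec, ← ham, hw.2,
        Matrix.mulVec_smul]
    have hpmP : ∀ x ∈ A, (∀ w ∈ Wp, (x.1 : Matrix (Fin 4) (Fin 4) F) *ᵥ w = w) ∨
        (∀ w ∈ Wp, (x.1 : Matrix (Fin 4) (Fin 4) F) *ᵥ w = -w) := by
      intro x hx
      exact MINUS_plane h2 f hb halt _ (hsq x hx) (hiso x) Wp hndp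
        (by rw [hWp]; exact hpres x hx 1) hdp
    have hpmM : ∀ x ∈ A, (∀ w ∈ Wm, (x.1 : Matrix (Fin 4) (Fin 4) F) *ᵥ w = w) ∨
        (∀ w ∈ Wm, (x.1 : Matrix (Fin 4) (Fin 4) F) *ᵥ w = -w) := by
      intro x hx
      exact MINUS_plane h2 f hb halt _ (hsq x hx) (hiso x) Wm hndm
        (by rw [hWm]; exact hpres x hx (-1)) hdm
    -- decomposition of a vector
    have hdecP : ∀ v : Fin 4 → F, (2 : F)⁻¹ • (v + am *ᵥ v) ∈ Wp := by
      intro v
      rw [hWp]
      refine Submodule.smul_mem _ _ ⟨Submodule.mem_top, ?_⟩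
      rw [Matrix.mulVec_add, Matrix.mulVec_mulVec, haa, Matrix.one_mulVec, one_smul, add_comm]
    have hdecM : ∀ v : Fin 4 → F, (2 : F)⁻¹ • (v - am *ᵥ v) ∈ Wm := by
      intro v
      rw [hWm]
      refine Submodule.smul_mem _ _ ⟨Submodule.mem_top, ?_⟩
      rw [Matrix.mulVec_sub, Matrix.mulVec_mulVec, haa, Matrix.one_mulVec, neg_smul, one_smul,
        neg_sub]
    have hsum : ∀ v : Fin 4 → F, v = (2 : F)⁻¹ • (v + am *ᵥ v) + (2 : F)⁻¹ • (v - am *ᵥ v) := by
      intro v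
      rw [← smul_add, add_add_sub_cancel, ← two_smul F v, smul_smul, inv_mul_cancel₀ h2, one_smul]
    have hinj : Function.Injective
        (fun x : A => (decide (∀ w ∈ Wp, ((x.1.1 : GL (Fin 4) F) : Matrix (Fin 4) (Fin 4) F) *ᵥ w = w),
          decide (∀ w ∈ Wm, ((x.1.1 : GL (Fin 4) F) : Matrix (Fin 4) (Fin 4) F) *ᵥ w = w))) := by
      intro x y hxy
      simp only [Prod.mk.injEq, decide_eq_decide] at hxy
      obtain ⟨hP, hM⟩ := hxy
      apply hmatinj
      have hagreeP : ∀ w ∈ Wp, ((x.1.1 : GL (Fin 4) F) : Matrix (Fin 4) (Fin 4) F) *ᵥ w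
          = ((y.1.1 : GL (Fin 4) F) : Matrix (Fin 4) (Fin 4) F) *ᵥ w := by
        intro w hw
        by_cases hc : ∀ w ∈ Wp, ((x.1.1 : GL (Fin 4) F) : Matrix (Fin 4) (Fin 4) F) *ᵥ w = w
        · rw [hc w hw, hP.mp hc w hw]
        · have hx' := (hpmP x.1 x.2).resolve_left hc
          have hy' := (hpmP y.1 y.2).resolve_left (fun h => hc (hP.mpr h))
          rw [hx' w hw, hy' w hw]
      have hagreeM : ∀ w ∈ Wm, ((x.1.1 : GL (Fin 4) F) : Matrix (Fin 4) (Fin 4) F) *ᵥ w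
          = ((y.1.1 : GL (Fin 4) F) : Matrix (Fin 4) (Fin 4) F) *ᵥ w := by
        intro w hw
        by_cases hc : ∀ w ∈ Wm, ((x.1.1 : GL (Fin 4) F) : Matrix (Fin 4) (Fin 4) F) *ᵥ w = w
        · rw [hc w hw, hM.mp hc w hw]
        · have hx' := (hpmM x.1 x.2).resolve_left hc
          have hy' := (hpmM y.1 y.2).resolve_left (fun h => hc (hM.mpr h))
          rw [hx' w hw, hy' w hw]
      apply hmulVec_ext
      intro v
      rw [hsum v, Matrix.mulVec_add, Matrix.mulVec_add, hagreeP _ (hdecP v), hagreeM _ (hdecM v)]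
    have hle := Nat.card_le_card_of_injective _ hinj
    have hcb : Nat.card (Bool × Bool) = 4 := by
      rw [Nat.card_eq_fintype_card, Fintype.card_prod, Fintype.card_bool]
    rw [hcb] at hle
    omega

end Cfsg.Agent.Lib.Helper54.SP4O
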