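import Mathlib
import Cfsg.Prelude.Def_GeometricClasses
import Cfsg.Prelude.Def_LieClassical
import Cfsg.Agent.Lib.Helper71.Asch0
import Cfsg.Agent.Lib.Helper71.Asch5

/-! Project SP4O (helper54; S5787, Sp_4(q), q odd): piece `PERFD`. A perfect group stabilising a decomposition into two blocks is reducible. -/

set_option autoImplicit false

namespace Cfsg.Agent.Lib.Helper54.SP4O

open Matrix Cfsg.Geo Cfsg.Agent.Lib.Helper71.Asch

variable {F : Type*} [Field F] [Fintype F]

omit [Fintype F] in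
/-- products of block-permuting matrices -/
theorem PERFD_act_mul {n t : ℕ} (D : Fin t → Submodule F (Fin n → F)) (g h : GL (Fin n) F)
    (σ τ : Equiv.Perm (Fin t))
    (hg : ∀ i, (D i).map (Matrix.toLin' (g : Matrix (Fin n) (Fin n) F)) = D (σ i))
    (hh : ∀ i, (D i).map (Matrix.toLin' (h : Matrix (Fin n) (Fin n) F)) = D (τ i)) :
    ∀ i, (D i).map (Matrix.toLin' ((g * h : GL (Fin n) F) : Matrix (Fin n) (Fin n) F)) =
      D ((σ * τ) i) := by
  intro i
  rw [Units.val_mul, Matrix.toLin'_mul, Submodule.map_comp, hh, hg, Equiv.Perm.mul_apply]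

omit [Fintype F] in
/-- inverses of block-permuting matrices -/
theorem PERFD_act_inv {n t : ℕ} (D : Fin t → Submodule F (Fin n → F)) (g : GL (Fin n) F)
    (σ : Equiv.Perm (Fin t))
    (hg : ∀ i, (D i).map (Matrix.toLin' (g : Matrix (Fin n) (Fin n) F)) = D (σ i)) :
    ∀ i, (D i).map (Matrix.toLin' ((g⁻¹ : GL (Fin n) F) : Matrix (Fin n) (Fin n) F)) =
      D (σ⁻¹ i) := by
  intro i
  have h := hg (σ⁻¹ i)
  have h2 : σ (σ⁻¹ i) = i := by simp
  rw [h2] at h
  rw [← h, ← Submodule.map_comp, ← Matrix.toLin'_mul, ← Units.val_mul, inv_mul_cancel,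
    Units.val_one, Matrix.toLin'_one, Submodule.map_id]

/-- commutators in `Perm (Fin 2)` are trivial -/
theorem PERFD_perm_comm (σ τ : Equiv.Perm (Fin 2)) : σ * τ * σ⁻¹ * τ⁻¹ = 1 := by
  revert σ τ
  decide

/-- the subgroup fixing every block -/
def PERFD_fix {n t : ℕ} (D : Fin t → Submodule F (Fin n → F)) : Subgroup (GL (Fin n) F) where
  carrier := {g | ∀ i, (D i).map (Matrix.toLin' (g : Matrix (Fin n) (Fin n) F)) = D i}
  mul_mem' {a b} ha hb := by
    have h := PERFD_act_mul D a b 1 1 ha hb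
    simpa using h
  one_mem' := fun i => by simp
  inv_mem' {a} ha := by
    have h := PERFD_act_inv D a 1 ha
    simpa using h

/-- PERFD -/
theorem PERFD {n m : ℕ} (L : Subgroup (GL (Fin n) F)) (hc : ⁅L, L⁆ = L)
    (D : Fin 2 → Submodule F (Fin n → F)) (hD : IsMDecomposition m D)
    (hL : L ≤ decompositionStabilizer D) : ¬ ActsIrreducibly (matrixSet L) := by
  intro hirr
  have hLS : L ≤ PERFD_fix D := by
    rw [← hc, Subgroup.commutator_le]
    intro g hg h hh
    obtain ⟨σ, hσ⟩ := hL hg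
    obtain ⟨τ, hτ⟩ := hL hh
    have h1 := PERFD_act_mul D _ _ _ _ (PERFD_act_mul D _ _ _ _ (PERFD_act_mul D g h σ τ hσ hτ)
      (PERFD_act_inv D g σ hσ)) (PERFD_act_inv D h τ hτ)
    rw [PERFD_perm_comm] at h1
    rw [commutatorElement_def]
    intro i
    simpa using h1 i
  have hinv : ∀ s ∈ matrixSet L, (D 0).map (Matrix.toLin' s) ≤ D 0 := by
    rintro _ ⟨g, hg, rfl⟩
    exact le_of_eq (hLS hg 0)
  rcases hirr (D 0) hinv with h0 | h0
  · have h1 := hD.finrank_eq 0
    rw [h0, finrank_bot] at h1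
    exact absurd h1 hD.pos.ne
  · have hdis : Disjoint (D 1) (D 0) := hD.indep.pairwiseDisjoint (by decide)
    rw [h0, disjoint_top] at hdis
    have h1 := hD.finrank_eq 1
    rw [hdis, finrank_bot] at h1
    exact absurd h1 hD.pos.ne

end Cfsg.Agent.Lib.Helper54.SP4O
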