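import Mathlib
import Cfsg.Prelude.Def_GeometricClasses
import Cfsg.Prelude.Def_LieClassical
import Cfsg.Agent.Lib.Helper71.Asch0
import Cfsg.Agent.Lib.Helper71.Asch5

/-! Project SP4O (helper54; S5787, Sp_4(q), q odd): piece `PERFK`. A perfect group normalising a quadratic field subalgebra centralises it, so is not absolutely irreducible (odd characteristic). -/

set_option autoImplicit false

namespace Cfsg.Agent.Lib.Helper54.SP4O

open Matrix Cfsg.Geo Cfsg.Agent.Lib.Helper71.Asch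

variable {F : Type*} [Field F] [Fintype F]

/-- centraliser of a matrix in `GL` -/
def PERFK_cent {n : ℕ} (d : Matrix (Fin n) (Fin n) F) : Subgroup (GL (Fin n) F) where
  carrier := {g | g.1 * d = d * g.1}
  mul_mem' := by
    intro a b ha hb
    show (a * b).1 * d = d * (a * b).1
    have ha' : a.1 * d = d * a.1 := ha
    have hb' : b.1 * d = d * b.1 := hb
    rw [Units.val_mul, mul_assoc, hb', ← mul_assoc, ha', mul_assoc]
  one_mem' := by
    show (1 : GL (Fin n) F).1 * d = d * (1 : GL (Fin n) F).1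
    rw [Units.val_one, one_mul, mul_one]
  inv_mem' := by
    intro a ha
    have ha' : a.1 * d = d * a.1 := ha
    show (a⁻¹ : GL (Fin n) F).1 * d = d * (a⁻¹ : GL (Fin n) F).1
    calc (a⁻¹ : GL (Fin n) F).1 * d
        = (a⁻¹ : GL (Fin n) F).1 * d * (a.1 * (a⁻¹ : GL (Fin n) F).1) := by
          rw [Units.mul_inv, mul_one]
      _ = (a⁻¹ : GL (Fin n) F).1 * (d * a.1) * (a⁻¹ : GL (Fin n) F).1 := by
          simp only [mul_assoc]
      _ = (a⁻¹ : GL (Fin n) F).1 * (a.1 * d) * (a⁻¹ : GL (Fin n) F).1 := by rw [ha']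
      _ = ((a⁻¹ : GL (Fin n) F).1 * a.1) * d * (a⁻¹ : GL (Fin n) F).1 := by
          simp only [mul_assoc]
      _ = d * (a⁻¹ : GL (Fin n) F).1 := by rw [Units.inv_mul, one_mul]

omit [Fintype F] in
theorem PERFK_conj_sq {R : Type*} [Ring R] [Algebra F R] (A A' k : R) (s t : F)
    (h1 : A' * A = 1) (h2 : A * A' = 1) (hk : k * k = s • k + t • (1 : R)) :
    (A * k * A') * (A * k * A') = s • (A * k * A') + t • (1 : R) := by
  calc (A * k * A') * (A * k * A') = A * k * (A' * A) * k * A' := by simp only [mul_assoc]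
    _ = A * (k * k) * A' := by rw [h1, mul_one]; simp only [mul_assoc]
    _ = A * (s • k + t • (1 : R)) * A' := by rw [hk]
    _ = s • (A * k * A') + t • (A * A') := by
        simp only [mul_add, add_mul, mul_smul_comm, smul_mul_assoc, mul_one]
    _ = s • (A * k * A') + t • (1 : R) := by rw [h2]

omit [Fintype F] in
theorem PERFK_root {R : Type*} [Ring R] [Algebra F R] (x k : R) (s t : F)
    (hx : x * x = s • x + t • (1 : R)) (hk : k * k = s • k + t • (1 : R))
    (hc : x * k = k * x) : (x - k) * (x - (s • (1 : R) - k)) = 0 := by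
  have e : (x - k) * (x - (s • (1 : R) - k))
      = x * x - s • x + (x * k - k * x) + s • k - k * k := by
    simp only [mul_sub, sub_mul, mul_smul_comm, mul_one, smul_sub]
    abel
  rw [e, hx, hk, hc]
  abel

omit [Fintype F] in
theorem PERFK_eps {R : Type*} [Ring R] [Algebra F R] (A A' k : R) (s : F)
    (h1 : A' * A = 1) (hx : A * k * A' = k ∨ A * k * A' = s • (1 : R) - k) :
    ∃ ε : F, ε ≠ 0 ∧ A * (k + k - s • (1 : R)) = ε • ((k + k - s • (1 : R)) * A) := by
  have hAk : A * k = (A * k * A') * A := by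
    rw [mul_assoc (A * k), h1, mul_one]
  rcases hx with h | h
  · refine ⟨1, one_ne_zero, ?_⟩
    rw [h] at hAk
    rw [one_smul]
    simp only [mul_add, mul_sub, add_mul, sub_mul, mul_smul_comm, smul_mul_assoc, mul_one,
      one_mul]
    rw [hAk]
  · refine ⟨-1, neg_ne_zero.mpr one_ne_zero, ?_⟩
    rw [h] at hAk
    simp only [mul_add, mul_sub, add_mul, sub_mul, mul_smul_comm, smul_mul_assoc, mul_one,
      one_mul, neg_smul, one_smul]
    rw [hAk]
    simp only [sub_mul, smul_mul_assoc, one_mul]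
    abel

omit [Fintype F] in
theorem PERFK_rel_mul {R : Type*} [Ring R] [Algebra F R] (A B d : R) (ε η : F)
    (hA : A * d = ε • (d * A)) (hB : B * d = η • (d * B)) :
    (A * B) * d = (ε * η) • (d * (A * B)) := by
  calc (A * B) * d = A * (B * d) := mul_assoc _ _ _
    _ = η • ((A * d) * B) := by rw [hB, mul_smul_comm, mul_assoc]
    _ = (ε * η) • (d * (A * B)) := by
        rw [hA, smul_mul_assoc, smul_smul, mul_comm η ε, mul_assoc]

omit [Fintype F] in
theorem PERFK_rel_inv {R : Type*} [Ring R] [Algebra F R] (A A' d : R) (ε : F) (hε : ε ≠ 0)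
    (h1 : A' * A = 1) (h2 : A * A' = 1) (hA : A * d = ε • (d * A)) :
    A' * d = ε⁻¹ • (d * A') := by
  have hdA : d * A = ε⁻¹ • (A * d) := by
    rw [hA, smul_smul, inv_mul_cancel₀ hε, one_smul]
  calc A' * d = A' * (d * A) * A' := by
        rw [mul_assoc, mul_assoc, h2, mul_one]
    _ = ε⁻¹ • ((A' * A) * d * A') := by
        rw [hdA, mul_smul_comm, smul_mul_assoc]
        simp only [mul_assoc]
    _ = ε⁻¹ • (d * A') := by rw [h1, one_mul]

omit [Fintype F] in
theorem PERFK_nzd {n : ℕ} (K : Subalgebra F (Matrix (Fin n) (Fin n) F))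
    (hK : IsFieldSubalgebra 2 K) (a b : Matrix (Fin n) (Fin n) F) (ha : a ∈ K)
    (hab : a * b = 0) : a = 0 ∨ b = 0 := by
  by_cases h : a = 0
  · exact Or.inl h
  · right
    obtain ⟨a', ha', haa'⟩ := hK.inv a ha h
    have h1 : a' * a = 1 := by
      rw [hK.comm a' ha' a ha]
      exact haa'
    calc b = (a' * a) * b := by rw [h1, one_mul]
      _ = a' * (a * b) := mul_assoc _ _ _
      _ = 0 := by rw [hab, mul_zero]

omit [Fintype F] in
/-- a non-scalar element of `K` -/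
theorem PERFK_nonscalar {n : ℕ} (K : Subalgebra F (Matrix (Fin n) (Fin n) F))
    (hK : IsFieldSubalgebra 2 K) :
    ∃ k₀ ∈ K, ∀ c : F, k₀ ≠ c • (1 : Matrix (Fin n) (Fin n) F) := by
  by_contra hcon
  have hcon' : ∀ k₀ ∈ K, ∃ c : F, k₀ = c • (1 : Matrix (Fin n) (Fin n) F) := by
    intro k₀ hk₀
    by_contra h
    exact hcon ⟨k₀, hk₀, fun c hc => h ⟨c, hc⟩⟩
  have hle : Subalgebra.toSubmodule K
      ≤ Submodule.span F {(1 : Matrix (Fin n) (Fin n) F)} := by
    intro x hx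
    obtain ⟨c, hc⟩ := hcon' x hx
    rw [hc]
    exact Submodule.smul_mem _ _ (Submodule.subset_span rfl)
  have h1 : Module.finrank F ↥(Subalgebra.toSubmodule K)
      ≤ Module.finrank F ↥(Submodule.span F {(1 : Matrix (Fin n) (Fin n) F)}) :=
    Submodule.finrank_mono hle
  have h2 : Module.finrank F ↥(Submodule.span F {(1 : Matrix (Fin n) (Fin n) F)}) ≤ 1 := by
    have h := finrank_span_le_card (R := F) ({(1 : Matrix (Fin n) (Fin n) F)} : Set _)
    simpa using h
  have h3 : Module.finrank F ↥(Subalgebra.toSubmodule K) = 2 := by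
    rw [Subalgebra.finrank_toSubmodule]
    exact hK.finrank_eq
  omega

omit [Fintype F] in
/-- the quadratic relation of a non-scalar element -/
theorem PERFK_quad {n : ℕ} (K : Subalgebra F (Matrix (Fin n) (Fin n) F))
    (hK : IsFieldSubalgebra 2 K) (k₀ : Matrix (Fin n) (Fin n) F) (hk₀ : k₀ ∈ K)
    (hns : ∀ c : F, k₀ ≠ c • (1 : Matrix (Fin n) (Fin n) F)) :
    ∃ s t : F, k₀ * k₀ = s • k₀ + t • (1 : Matrix (Fin n) (Fin n) F) := by
  have hfin : Module.Finite F ↥K := Module.finite_of_finrank_pos (by rw [hK.finrank_eq]; norm_num)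
  have hnli : ¬ LinearIndependent F
      ![(1 : ↥K), (⟨k₀, hk₀⟩ : ↥K), (⟨k₀, hk₀⟩ : ↥K) * ⟨k₀, hk₀⟩] := by
    intro hli
    have h := hli.fintype_card_le_finrank
    rw [hK.finrank_eq] at h
    simp at h
  rw [Fintype.not_linearIndependent_iff] at hnli
  obtain ⟨g, hg, i, hi⟩ := hnli
  rw [Fin.sum_univ_three] at hg
  have hg' : g 0 • (1 : Matrix (Fin n) (Fin n) F) + g 1 • k₀ + g 2 • (k₀ * k₀) = 0 := by
    have h := congrArg Subtype.val hg
    simpa using h
  by_cases h2' : g 2 = 0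
  · exfalso
    rw [h2', zero_smul, add_zero] at hg'
    by_cases h1' : g 1 = 0
    · rw [h1', zero_smul, add_zero] at hg'
      have h0 : g 0 ≠ 0 := by
        intro h0
        apply hi
        fin_cases i
        · exact h0
        · exact h1'
        · exact h2'
      have h10 : (1 : Matrix (Fin n) (Fin n) F) = 0 := by
        have h := congrArg (fun m => (g 0)⁻¹ • m) hg'
        simpa [smul_smul, h0] using h
      apply hns 0
      rw [zero_smul]
      calc k₀ = k₀ * 1 := (mul_one _).symm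
        _ = 0 := by rw [h10, mul_zero]
    · apply hns (-((g 1)⁻¹ * g 0))
      have h : g 1 • k₀ = -(g 0 • (1 : Matrix (Fin n) (Fin n) F)) := by
        rw [eq_neg_iff_add_eq_zero, add_comm]
        exact hg'
      calc k₀ = (g 1)⁻¹ • (g 1 • k₀) := by rw [smul_smul, inv_mul_cancel₀ h1', one_smul]
        _ = (-((g 1)⁻¹ * g 0)) • (1 : Matrix (Fin n) (Fin n) F) := by
            rw [h, smul_neg, smul_smul, neg_smul]
  · refine ⟨-((g 2)⁻¹ * g 1), -((g 2)⁻¹ * g 0), ?_⟩
    have h : g 2 • (k₀ * k₀) = -(g 0 • (1 : Matrix (Fin n) (Fin n) F) + g 1 • k₀) := by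
      rw [eq_neg_iff_add_eq_zero, add_comm]
      exact hg'
    calc k₀ * k₀ = (g 2)⁻¹ • (g 2 • (k₀ * k₀)) := by
          rw [smul_smul, inv_mul_cancel₀ h2', one_smul]
      _ = -((g 2)⁻¹ * g 1) • k₀ + -((g 2)⁻¹ * g 0) • (1 : Matrix (Fin n) (Fin n) F) := by
          rw [h, smul_neg, smul_add, smul_smul, smul_smul, neg_smul, neg_smul]
          abel

/-- PERFK -/
theorem PERFK {n : ℕ} (h2 : (2 : F) ≠ 0) (L : Subgroup (GL (Fin n) F)) (hc : ⁅L, L⁆ = L)
    (K : Subalgebra F (Matrix (Fin n) (Fin n) F)) (hK : IsFieldSubalgebra 2 K)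
    (hL : L ≤ subalgebraNormalizer K) : ¬ ActsAbsolutelyIrreducibly (matrixSet L) := by
  intro habs
  obtain ⟨-, hsc⟩ := habs
  obtain ⟨k₀, hk₀, hns⟩ := PERFK_nonscalar K hK
  obtain ⟨s, t, hquad⟩ := PERFK_quad K hK k₀ hk₀ hns
  obtain ⟨d, hd⟩ : ∃ d : Matrix (Fin n) (Fin n) F,
      d = k₀ + k₀ - s • (1 : Matrix (Fin n) (Fin n) F) := ⟨_, rfl⟩
  -- every element of `L` scales `d`
  have hrel : ∀ g ∈ L, ∃ ε : F, ε ≠ 0 ∧ g.1 * d = ε • (d * g.1) := by
    intro g hg
    have hN : ∀ k : Matrix (Fin n) (Fin n) F,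
        k ∈ K ↔ g.1 * k * (g⁻¹ : GL (Fin n) F).1 ∈ K := hL hg
    have hxK : g.1 * k₀ * (g⁻¹ : GL (Fin n) F).1 ∈ K := (hN k₀).mp hk₀
    have hxx := PERFK_conj_sq g.1 (g⁻¹ : GL (Fin n) F).1 k₀ s t (Units.inv_mul g)
      (Units.mul_inv g) hquad
    have hcomm := hK.comm _ hxK k₀ hk₀
    have hroot := PERFK_root _ k₀ s t hxx hquad hcomm
    have hmem1 : g.1 * k₀ * (g⁻¹ : GL (Fin n) F).1 - k₀ ∈ K := sub_mem hxK hk₀
    have hcase : g.1 * k₀ * (g⁻¹ : GL (Fin n) F).1 = k₀ ∨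
        g.1 * k₀ * (g⁻¹ : GL (Fin n) F).1 = s • (1 : Matrix (Fin n) (Fin n) F) - k₀ := by
      rcases PERFK_nzd K hK _ _ hmem1 hroot with h | h
      · exact Or.inl (sub_eq_zero.mp h)
      · exact Or.inr (sub_eq_zero.mp h)
    rw [hd]
    exact PERFK_eps g.1 (g⁻¹ : GL (Fin n) F).1 k₀ s (Units.inv_mul g) hcase
  -- commutators centralise `d`
  have hcomm : ⁅L, L⁆ ≤ PERFK_cent d := by
    rw [Subgroup.commutator_le]
    intro g₁ hg₁ g₂ hg₂
    obtain ⟨ε, hε, h1⟩ := hrel g₁ hg₁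
    obtain ⟨η, hη, h2'⟩ := hrel g₂ hg₂
    have h1i := PERFK_rel_inv g₁.1 (g₁⁻¹ : GL (Fin n) F).1 d ε hε (Units.inv_mul g₁)
      (Units.mul_inv g₁) h1
    have h2i := PERFK_rel_inv g₂.1 (g₂⁻¹ : GL (Fin n) F).1 d η hη (Units.inv_mul g₂)
      (Units.mul_inv g₂) h2'
    have h12 := PERFK_rel_mul _ _ d _ _ h1 h2'
    have h121 := PERFK_rel_mul _ _ d _ _ h12 h1i
    have h1212 := PERFK_rel_mul _ _ d _ _ h121 h2i
    have hone : ε * η * ε⁻¹ * η⁻¹ = 1 := by
      field_simp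
    rw [hone, one_smul] at h1212
    rw [commutatorElement_def]
    show (g₁ * g₂ * g₁⁻¹ * g₂⁻¹ : GL (Fin n) F).1 * d = d * (g₁ * g₂ * g₁⁻¹ * g₂⁻¹ : GL (Fin n) F).1
    rw [Units.val_mul, Units.val_mul, Units.val_mul]
    exact h1212
  rw [hc] at hcomm
  -- so `d` is a scalar
  obtain ⟨c, hcd⟩ := hsc d (by
    rintro x ⟨g, hg, rfl⟩
    exact (hcomm hg).symm)
  -- hence `k₀` is a scalar
  apply hns ((2 : F)⁻¹ * (c + s))
  have h2k : (2 : F) • k₀ = (c + s) • (1 : Matrix (Fin n) (Fin n) F) := by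
    rw [two_smul, add_smul, ← hcd, hd]
    abel
  calc k₀ = (2 : F)⁻¹ • ((2 : F) • k₀) := by rw [smul_smul, inv_mul_cancel₀ h2, one_smul]
    _ = ((2 : F)⁻¹ * (c + s)) • (1 : Matrix (Fin n) (Fin n) F) := by rw [h2k, smul_smul]

end Cfsg.Agent.Lib.Helper54.SP4O
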