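import Mathlib
import Cfsg.Prelude.Def_GeometricClasses
import Cfsg.Prelude.Def_LieClassical
import Cfsg.Agent.Lib.Helper71.Asch0
import Cfsg.Agent.Lib.Helper71.Asch5

/-! Project SP4O (helper54; S5787, Sp_4(q), q odd): piece `PRIMEF`. A finite field of non-prime order has a non-trivial automorphism. -/

set_option autoImplicit false

namespace Cfsg.Agent.Lib.Helper54.SP4O

open Matrix Cfsg.Geo Cfsg.Agent.Lib.Helper71.Asch

variable {F : Type*} [Field F] [Fintype F]

/-- PRIMEF -/
theorem PRIMEF (hnp : ¬ (Fintype.card F).Prime) : ∃ σ : F ≃+* F, σ ≠ RingEquiv.refl F := by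
  classical
  obtain ⟨p, hchar⟩ := CharP.exists F
  haveI : Fact p.Prime := ⟨CharP.char_is_prime F p⟩
  have hp : p.Prime := Fact.out
  obtain ⟨n, -, hn⟩ := FiniteField.card F p
  refine ⟨frobeniusEquiv F p, ?_⟩
  intro h
  apply hnp
  have hfix : ∀ x : F, x ^ p = x := by
    intro x
    have h1 := congrArg (fun e : F ≃+* F => e x) h
    simpa [frobeniusEquiv_apply, frobenius_def] using h1
  have hle : Fintype.card F ≤ p := by
    have hne : (Polynomial.X ^ p - Polynomial.X : Polynomial F) ≠ 0 :=
      FiniteField.X_pow_card_sub_X_ne_zero F hp.one_lt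
    have h1 := Polynomial.card_le_degree_of_subset_roots
      (p := (Polynomial.X ^ p - Polynomial.X : Polynomial F)) (Z := Finset.univ) (by
        intro x _
        rw [Polynomial.mem_roots hne]
        simp [Polynomial.IsRoot, hfix x])
    rw [FiniteField.X_pow_card_sub_X_natDegree_eq F hp.one_lt] at h1
    simpa using h1
  have hn1 : (n : ℕ) = 1 := by
    by_contra hne
    have h2 : 2 ≤ (n : ℕ) := by have := n.pos; omega
    have h3 : p ^ 2 ≤ p ^ (n : ℕ) := Nat.pow_le_pow_right hp.pos h2
    have h4 : p < p ^ 2 := by nlinarith [hp.one_lt]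
    omega
  rw [hn, hn1, pow_one]
  exact hp

end Cfsg.Agent.Lib.Helper54.SP4O
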