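import Mathlib
import Cfsg.Prelude.Def_GeometricClasses
import Cfsg.Prelude.Def_LieClassical
import Cfsg.Agent.Lib.Helper71.Asch0
import Cfsg.Agent.Lib.Helper71.Asch5
import Cfsg.Agent.Lib.Helper92.SPPTS0
import Cfsg.Agent.Lib.Helper4.OMPTRa

/-! Project SP4O (helper54; S5787, Sp_4(q), q odd): piece `TS7` (filled by helper93). Transport of the class-6 data along a reindexing. -/

set_option autoImplicit false

namespace Cfsg.Agent.Lib.Helper54.SP4O

open Matrix Cfsg.Geo Cfsg.Agent.Lib.Helper71.Asch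

variable {F : Type*} [Field F] [Fintype F]

/-- the symplectic-type property is invariant under isomorphism (any index types) -/
theorem TS7_sympType {ι ι' : Type} [Fintype ι] [DecidableEq ι] [Fintype ι'] [DecidableEq ι']
    (r : ℕ) (R : Subgroup (GL ι F)) (R' : Subgroup (GL ι' F)) (e : R ≃* R')
    (hR : IsSymplecticTypeGroup r R) : IsSymplecticTypeGroup r R' := by
  refine ⟨hR.prime, hR.pGroup.of_equiv e, ?_, ?_⟩
  · intro A' hchar hcomm
    have hAchar : (A'.comap e.toMonoidHom).Characteristic := by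
      rw [Subgroup.characteristic_iff_comap_le]
      intro φ x hx
      rw [Subgroup.mem_comap] at hx ⊢
      have h1 := hchar.fixed (e.symm.trans (φ.trans e))
      have h2 : e.toMonoidHom x ∈ A'.comap (e.symm.trans (φ.trans e)).toMonoidHom := by
        rw [Subgroup.mem_comap]
        simpa using hx
      rwa [h1] at h2
    have hAcomm : IsMulCommutative (A'.comap e.toMonoidHom) := by
      refine ⟨⟨fun a b => ?_⟩⟩
      apply Subtype.ext
      apply e.injective
      have h3 := hcomm.is_comm.comm (⟨e a.1, a.2⟩ : A') ⟨e b.1, b.2⟩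
      have h4 : e a.1 * e b.1 = e b.1 * e a.1 := congrArg Subtype.val h3
      rw [Subgroup.coe_mul, Subgroup.coe_mul, map_mul, map_mul]
      exact h4
    have hcyc := hR.cyclic_of_characteristic _ hAchar hAcomm
    let f : (A'.comap e.toMonoidHom) →* A' :=
      { toFun := fun x => ⟨e x.1, x.2⟩
        map_one' := by
          apply Subtype.ext
          simp
        map_mul' := by
          intro x y
          apply Subtype.ext
          exact map_mul e x.1 y.1 }
    have hf : Function.Surjective f := by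
      intro y
      refine ⟨⟨e.symm y.1, ?_⟩, ?_⟩
      · rw [Subgroup.mem_comap]
        simp
      · apply Subtype.ext
        exact e.apply_symm_apply y.1
    exact isCyclic_of_surjective f hf
  · rw [← hR.exponent_eq]
    exact (Monoid.exponent_eq_of_mulEquiv e).symm

/-- absolute irreducibility transports back along the reindexing -/
theorem TS7_absIrred {n : ℕ} {κ : Type} [Fintype κ] [DecidableEq κ] (e : κ ≃ Fin n)
    (L : Subgroup (GL (Fin n) F)) (ha : ActsAbsolutelyIrreducibly (matrixSet L)) :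
    ActsAbsolutelyIrreducibly (matrixSet (L.comap (glReindex (F := F) e).toMonoidHom)) := by
  have hsurj : Function.Surjective (glReindex (F := F) e) := (glReindex e).surjective
  have hset : ∀ s' ∈ matrixSet L,
      ∃ s ∈ matrixSet (L.comap (glReindex (F := F) e).toMonoidHom),
      s' = s.submatrix e.symm e.symm := by
    rintro _ ⟨g', hg', rfl⟩
    obtain ⟨g, rfl⟩ := hsurj g'
    exact ⟨(g : Matrix κ κ F), ⟨g, hg', rfl⟩, Cfsg.Agent.Lib.Helper4.OMPTRa.tra_val e g⟩
  obtain ⟨hirr, hcomm⟩ := ha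
  refine ⟨?_, ?_⟩
  · intro W hW
    have key := hirr (W.comap (LinearMap.funLeft F F e)) (by
      intro s' hs'
      obtain ⟨s, hs, rfl⟩ := hset s' hs'
      rintro _ ⟨v, hv, rfl⟩
      show LinearMap.funLeft F F e (Matrix.toLin' (s.submatrix e.symm e.symm) v) ∈ W
      have hv' : LinearMap.funLeft F F e v ∈ W := hv
      have h1 : LinearMap.funLeft F F e (Matrix.toLin' (s.submatrix e.symm e.symm) v) =
          Matrix.toLin' s (LinearMap.funLeft F F e v) := by
        rw [Matrix.toLin'_apply, Matrix.toLin'_apply, Cfsg.Agent.Lib.Helper4.OMPTRa.tra_mulVec]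
        ext i
        show (s *ᵥ (v ∘ e)) (e.symm (e i)) = (s *ᵥ (v ∘ e)) i
        rw [Equiv.symm_apply_apply]
      rw [h1]
      exact hW s hs (Submodule.mem_map_of_mem hv'))
    rcases key with h0 | h1
    · left
      rw [Submodule.eq_bot_iff]
      intro w hw
      have h2 : (w ∘ e.symm) ∈ W.comap (LinearMap.funLeft F F e) := by
        show LinearMap.funLeft F F e (w ∘ e.symm) ∈ W
        have h3 : LinearMap.funLeft F F e (w ∘ e.symm) = w := by
          ext i
          simp [LinearMap.funLeft_apply]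
        rw [h3]
        exact hw
      rw [h0, Submodule.mem_bot] at h2
      ext i
      have h4 := congrFun h2 (e i)
      simpa using h4
    · right
      rw [Submodule.eq_top_iff']
      intro w
      have h2 : (w ∘ e.symm) ∈ W.comap (LinearMap.funLeft F F e) := by
        rw [h1]
        trivial
      have h3 : LinearMap.funLeft F F e (w ∘ e.symm) = w := by
        ext i
        simp [LinearMap.funLeft_apply]
      have h4 : LinearMap.funLeft F F e (w ∘ e.symm) ∈ W := h2
      rw [h3] at h4
      exact h4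
  · intro M hM
    obtain ⟨c, hc⟩ := hcomm (M.submatrix e.symm e.symm) (by
      intro s' hs'
      obtain ⟨s, hs, rfl⟩ := hset s' hs'
      rw [Matrix.submatrix_mul_equiv, Matrix.submatrix_mul_equiv, hM s hs])
    refine ⟨c, ?_⟩
    ext i j
    have h1 := congrFun (congrFun hc (e i)) (e j)
    simpa [Matrix.one_apply] using h1

/-- TS7 -/
theorem TS7 {n : ℕ} {κ : Type} [Fintype κ] [DecidableEq κ] (e : κ ≃ Fin n)
    (f : (κ → F) → (κ → F) → F) (H : Subgroup (GL κ F)) (L : Subgroup (GL (Fin n) F))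
    (hs : IsSymplecticTypeGroup 2 L) (ha : ActsAbsolutelyIrreducibly (matrixSet L))
    (hfix : FixesForm (matrixSet L) (Cfsg.Agent.Lib.Helper92.SPPTS0.tf e f))
    (hc : Nat.card L = 32) (hz : Nat.card (Subgroup.center L) = 2) (hm : IsOfMinusType 2 L)
    (hle : H.map (glReindex e).toMonoidHom ≤ subgroupNormalizer L) :
    ∃ R : Subgroup (GL κ F), IsSymplecticTypeGroup 2 R ∧
      ActsAbsolutelyIrreducibly (matrixSet R) ∧ R ≤ similarityGroup f ∧ Nat.card R = 32 ∧
      Nat.card (Subgroup.center R) = 2 ∧ IsOfMinusType 2 R ∧ H ≤ subgroupNormalizer R := by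
  classical
  obtain ⟨Φ, hΦ⟩ : ∃ Φ : ↥(L.comap (glReindex (F := F) e).toMonoidHom) ≃* ↥L,
      ∀ x, ((Φ x : ↥L) : GL (Fin n) F) = glReindex e x.1 :=
    ⟨Cfsg.Agent.Lib.Helper4.OMPTRa.traEquiv (glReindex (F := F) e) L, fun x => rfl⟩
  refine ⟨L.comap (glReindex (F := F) e).toMonoidHom, TS7_sympType 2 L _ Φ.symm hs,
    TS7_absIrred e L ha, ?_, ?_, ?_, ?_, ?_⟩
  · -- similarities
    intro g hg
    refine ⟨1, fun u v => ?_⟩
    have h1 := hfix (glReindex e g : GL (Fin n) F).1 ⟨glReindex e g, hg, rfl⟩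
      (u ∘ e.symm) (v ∘ e.symm)
    unfold Cfsg.Agent.Lib.Helper92.SPPTS0.tf at h1
    rw [Cfsg.Agent.Lib.Helper92.SPPTS0.TS0_key, Cfsg.Agent.Lib.Helper92.SPPTS0.TS0_key,
      Cfsg.Agent.Lib.Helper92.SPPTS0.TS0_comp, Cfsg.Agent.Lib.Helper92.SPPTS0.TS0_comp] at h1
    rw [Units.val_one, one_mul]
    exact h1
  · -- order
    rw [Nat.card_congr Φ.toEquiv]
    exact hc
  · -- centre
    rw [← hz]
    apply Nat.card_congr
    refine Equiv.subtypeEquiv Φ.toEquiv (fun x => ?_)
    rw [Subgroup.mem_center_iff, Subgroup.mem_center_iff]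
    constructor
    · intro hx y'
      obtain ⟨y, rfl⟩ := Φ.surjective y'
      show Φ y * Φ x = Φ x * Φ y
      rw [← map_mul, ← map_mul, hx y]
    · intro hx y
      apply Φ.injective
      rw [map_mul, map_mul]
      exact hx (Φ y)
  · -- minus type
    intro A hA hA2
    have hcard : Nat.card (A.map Φ.toMonoidHom) = Nat.card A :=
      Subgroup.card_map_of_injective Φ.injective
    rw [← hcard]
    apply hm
    · refine ⟨⟨fun a b => ?_⟩⟩
      obtain ⟨a, ha'⟩ := a
      obtain ⟨b, hb'⟩ := b
      obtain ⟨a0, ha0, rfl⟩ := Subgroup.mem_map.mp ha'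
      obtain ⟨b0, hb0, rfl⟩ := Subgroup.mem_map.mp hb'
      apply Subtype.ext
      show Φ.toMonoidHom a0 * Φ.toMonoidHom b0 = Φ.toMonoidHom b0 * Φ.toMonoidHom a0
      have h3 := hA.is_comm.comm (⟨a0, ha0⟩ : A) ⟨b0, hb0⟩
      have h4 : a0 * b0 = b0 * a0 := congrArg Subtype.val h3
      rw [← map_mul, ← map_mul, h4]
    · intro x hx
      obtain ⟨x0, hx0, rfl⟩ := Subgroup.mem_map.mp hx
      rw [← map_mul, hA2 x0 hx0, map_one]
  · -- normaliser
    intro g hg
    have h1 : glReindex e g ∈ subgroupNormalizer L := hle ⟨g, hg, rfl⟩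
    unfold subgroupNormalizer at h1 ⊢
    rw [Subgroup.mem_normalizer_iff] at h1 ⊢
    intro x
    have h2 := h1 (glReindex e x)
    show glReindex e x ∈ L ↔ glReindex e (g * x * g⁻¹) ∈ L
    rw [map_mul, map_mul, map_inv]
    exact h2

end Cfsg.Agent.Lib.Helper54.SP4O
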