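import Mathlib
import Cfsg.Prelude.Def_GeometricClasses
import Cfsg.Prelude.Def_LieClassical

/-! Project SPP (helper71; S5805 / S5844), piece TS9 (helper54): transport of the quadratic-form
clause along the reindexing `e : κ ≃ Fin n`. -/

set_option autoImplicit false
set_option linter.unusedSectionVars false

namespace Cfsg.Agent.Lib.Helper54.SPPTS9

open Matrix Cfsg.Geo

variable {n : ℕ} {F : Type*} [Field F] [Fintype F]
variable {κ : Type} [Fintype κ] [DecidableEq κ]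

/-- the transported two-argument form on `Fin n → F` -/
def tf (e : κ ≃ Fin n) (f : (κ → F) → (κ → F) → F) : (Fin n → F) → (Fin n → F) → F :=
  fun u v => f (u ∘ e) (v ∘ e)

/-- the quadratic form transported back to `κ → F` -/
def tQi (e : κ ≃ Fin n) (Q' : (Fin n → F) → F) : (κ → F) → F := fun v => Q' (v ∘ e.symm)

theorem ts9_mulVec (e : κ ≃ Fin n) (M : Matrix κ κ F) (v : κ → F) :
    (M.submatrix e.symm e.symm) *ᵥ (v ∘ e.symm) = (M *ᵥ v) ∘ e.symm := by
  ext i
  simp only [Matrix.mulVec, dotProduct, Matrix.submatrix_apply, Function.comp_apply]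
  exact Fintype.sum_equiv e.symm _ _ (fun j => rfl)

theorem ts9_polar (e : κ ≃ Fin n) (Q' : (Fin n → F) → F) (u v : κ → F) :
    QuadraticMap.polar (tQi e Q') u v = QuadraticMap.polar Q' (u ∘ e.symm) (v ∘ e.symm) := rfl

theorem ts9_comp_symm (e : κ ≃ Fin n) (x : Fin n → F) : (x ∘ e) ∘ e.symm = x := by
  funext i
  simp

theorem ts9_symm_comp (e : κ ≃ Fin n) (x : κ → F) : (x ∘ e.symm) ∘ e = x := by
  funext i
  simp

/-- TS9 -/
theorem TS9 (e : κ ≃ Fin n) (f : (κ → F) → (κ → F) → F) (H : Subgroup (GL κ F))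
    (Q' : (Fin n → F) → F) :
    (IsNondegenerateQuadraticForm Q' → IsNondegenerateQuadraticForm (tQi e Q')) ∧
    ((∀ u v : Fin n → F, QuadraticMap.polar Q' u v = tf e f u v) →
      ∀ u v : κ → F, QuadraticMap.polar (tQi e Q') u v = f u v) ∧
    (H.map (glReindex e).toMonoidHom ≤ quadSimilarityGroup Q' →
      H ≤ quadSimilarityGroup (tQi e Q')) := by
  refine ⟨fun hQ => ⟨?_, ⟨?_, ?_, ?_, ?_⟩, ?_⟩, ?_, ?_⟩
  · intro c v
    exact hQ.smul c (v ∘ e.symm)
  · intro x y v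
    rw [ts9_polar, ts9_polar, ts9_polar]
    exact hQ.polar_bilinear.add_left (x ∘ e.symm) (y ∘ e.symm) (v ∘ e.symm)
  · intro c x v
    rw [ts9_polar, ts9_polar]
    exact hQ.polar_bilinear.smul_left c (x ∘ e.symm) (v ∘ e.symm)
  · intro v x y
    rw [ts9_polar, ts9_polar, ts9_polar]
    exact hQ.polar_bilinear.add_right (v ∘ e.symm) (x ∘ e.symm) (y ∘ e.symm)
  · intro c v x
    rw [ts9_polar, ts9_polar]
    exact hQ.polar_bilinear.smul_right c (v ∘ e.symm) (x ∘ e.symm)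
  · intro v hv
    have hv' : v ∘ e.symm ≠ 0 := by
      intro h0
      apply hv
      rw [← ts9_symm_comp e v, h0]
      rfl
    obtain ⟨⟨x, hx⟩, ⟨y, hy⟩⟩ := hQ.nondegenerate (v ∘ e.symm) hv'
    refine ⟨⟨x ∘ e, ?_⟩, ⟨y ∘ e, ?_⟩⟩
    · rw [ts9_polar, ts9_comp_symm]
      exact hx
    · rw [ts9_polar, ts9_comp_symm]
      exact hy
  · intro h u v
    rw [ts9_polar, h]
    show f ((u ∘ e.symm) ∘ e) ((v ∘ e.symm) ∘ e) = f u v
    rw [ts9_symm_comp, ts9_symm_comp]
  · intro h g hg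
    have h1 : glReindex e g ∈ H.map (glReindex (F := F) e).toMonoidHom := ⟨g, hg, rfl⟩
    obtain ⟨c, hc⟩ := h h1
    refine ⟨c, fun v => ?_⟩
    have h2 := hc (v ∘ e.symm)
    have h3 : ((glReindex e g : GL (Fin n) F) : Matrix (Fin n) (Fin n) F) =
        (g : Matrix κ κ F).submatrix e.symm e.symm := rfl
    rw [h3, ts9_mulVec] at h2
    exact h2

end Cfsg.Agent.Lib.Helper54.SPPTS9
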