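import Cfsg.Agent.Lib.Helper22.TGDefs
import Cfsg.Agent.Lib.Helper81.BrConj
import Cfsg.Agent.Lib.Helper81.BrPairs
import Cfsg.Prelude.Def_Blocks

/-!
# Piece TGC-CNT (helper33, general defect-one theorem): orbit–stabilizer for the conjugates of
a Brauer pair `(P, b)`.
-/

set_option autoImplicit false

namespace Cfsg.Agent.Lib.Helper54.TGC

open Cfsg Cfsg.Agent.Lib.Helper22.TG Cfsg.Agent.Lib.Helper81
open scoped ComplexConjugate

variable {G : Type*} [Group G] [Fintype G]

/-- PIECE TGC-CNT : orbit–stabilizer for the conjugates of the pair `(P, b)`. -/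
theorem card_conj (P : Subgroup G)
    (b : Set (IrrCharacter (Subgroup.centralizer (P : Set G))))
    (S : Set (Set (IrrCharacter (Subgroup.centralizer (P : Set G)))))
    (T : Subgroup G)
    (hstab : ∀ g : G, conjPair g (⟨P, b⟩ : BrauerPairIdx G) = ⟨P, b⟩ ↔ g ∈ T)
    (hconj : ∀ c, c ∈ S ↔ ∃ g : G, conjPair g (⟨P, b⟩ : BrauerPairIdx G) = ⟨P, c⟩) :
    Nat.card S = T.relIndex (Subgroup.normalizer (P : Set G)) := by
  classical
  obtain ⟨N, hN⟩ : ∃ N : Subgroup G, N = Subgroup.normalizer (P : Set G) := ⟨_, rfl⟩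
  rw [← hN]
  have hmemN : ∀ (g : G) (c : Set (IrrCharacter (Subgroup.centralizer (P : Set G)))),
      conjPair g (⟨P, b⟩ : BrauerPairIdx G) = ⟨P, c⟩ → g ∈ N := by
    intro g c hg
    rw [hN]
    apply mem_normalizer_of_conj_map_eq
    exact congrArg Sigma.fst hg
  have hex : ∀ n : ↥N, ∃ c : Set (IrrCharacter (Subgroup.centralizer (P : Set G))),
      conjPair (n : G) (⟨P, b⟩ : BrauerPairIdx G) = ⟨P, c⟩ := by
    intro n
    have hn : (n : G) ∈ Subgroup.normalizer (P : Set G) := by
      rw [← hN]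
      exact n.2
    exact ⟨_, conjPair_of_mem_normalizer P n hn b⟩
  choose cf hcf using hex
  have hcfS : ∀ n : ↥N, cf n ∈ S := fun n => (hconj _).2 ⟨n, hcf n⟩
  have hfib : ∀ n n' : ↥N, cf n = cf n' ↔ (n : G)⁻¹ * (n' : G) ∈ T := by
    intro n n'
    rw [← hstab, ← conjPair_mul, hcf n']
    constructor
    · intro h
      rw [← h, ← hcf n, conjPair_inv_conjPair]
    · intro h
      have h2 := congrArg (conjPair (n : G)) h
      rw [hcf n] at h2
      have h3 : conjPair (n : G) (conjPair (n : G)⁻¹ (⟨P, cf n'⟩ : BrauerPairIdx G)) =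
          ⟨P, cf n'⟩ := conjPair_conjPair_inv _ _
      rw [h3] at h2
      exact (sigma_mk_injective h2).symm
  obtain ⟨f, hf⟩ : ∃ f : ↥N ⧸ T.subgroupOf N → ↥S, ∀ n : ↥N, (f (QuotientGroup.mk n) : Set _) =
      cf n := by
    refine ⟨fun q => Quotient.liftOn' q (fun n => (⟨cf n, hcfS n⟩ : ↥S)) ?_, fun n => rfl⟩
    intro n n' hnn
    rw [QuotientGroup.leftRel_apply, Subgroup.mem_subgroupOf] at hnn
    apply Subtype.ext
    exact (hfib n n').2 hnn
  have hbij : Function.Bijective f := by
    constructor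
    · intro q q' hqq
      induction q using QuotientGroup.induction_on with
      | H n =>
        induction q' using QuotientGroup.induction_on with
        | H n' =>
          have h1 : cf n = cf n' := by rw [← hf, ← hf, hqq]
          apply QuotientGroup.eq.2
          rw [Subgroup.mem_subgroupOf]
          exact (hfib n n').1 h1
    · intro c
      obtain ⟨g, hg⟩ := (hconj c.1).1 c.2
      refine ⟨QuotientGroup.mk (⟨g, hmemN g _ hg⟩ : ↥N), ?_⟩
      apply Subtype.ext
      rw [hf]
      have h1 := hcf ⟨g, hmemN g _ hg⟩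
      rw [hg] at h1
      exact (sigma_mk_injective h1).symm
  rw [← Nat.card_congr (Equiv.ofBijective f hbij)]
  rfl

end Cfsg.Agent.Lib.Helper54.TGC
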