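import Mathlib
import Cfsg.Prelude.Def_GeometricClasses
import Cfsg.Prelude.Def_LieClassical
import Cfsg.Agent.Lib.Helper71.SUP0
import Cfsg.Agent.Lib.Helper59.U52Defs

/-! Project U52 (helper59, S5796), piece ABSC, core (helper54): the unitary element of order 11
attached to an adjoint-closed degree-5 field subalgebra over the field with four elements. The
facts of the pieces TRSQ and KF enter as hypotheses. -/

set_option autoImplicit false

namespace Cfsg.Agent.Lib.Helper59.U52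

open Matrix Cfsg.Geo

/-- the adjoint of a power -/
theorem absc_adj_pow {F : Type*} [Field F] [Fintype F] (hF : Fintype.card F = 2 ^ 2)
    (y : Matrix (Fin 5) (Fin 5) F) (k : ℕ) :
    Cfsg.Agent.Lib.Helper71.SUP.adj 2 (y ^ k) = Cfsg.Agent.Lib.Helper71.SUP.adj 2 y ^ k := by
  induction k with
  | zero => rw [pow_zero, pow_zero, Cfsg.Agent.Lib.Helper71.SUP.adj_one hF]
  | succ k ih =>
    rw [pow_succ, Cfsg.Agent.Lib.Helper71.SUP.adj_mul hF, ih, pow_succ']

/-- the trace of the adjoint is the square of the trace -/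
theorem absc_trace_adj {F : Type*} [Field F] [Fintype F] (hF : Fintype.card F = 2 ^ 2)
    (y : Matrix (Fin 5) (Fin 5) F) :
    (Cfsg.Agent.Lib.Helper71.SUP.adj 2 y).trace = y.trace ^ 2 := by
  unfold Matrix.trace
  rw [Cfsg.Agent.Lib.Helper7.herm_sum_pow hF]
  rfl

theorem absc_two {F : Type*} [Field F] [Fintype F] (hF : Fintype.card F = 2 ^ 2) :
    (2 : F) = 0 := by
  have h := Cfsg.Agent.Lib.Helper7.herm_add_pow hF (1 : F) 1
  linear_combination h

theorem absC_core {F : Type*} [Field F] [Fintype F] (hF : Fintype.card F = 2 ^ 2)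
    (K : Subalgebra F (Matrix (Fin 5) (Fin 5) F)) (hK : IsFieldSubalgebra 5 K)
    (hadj : IsAdjointClosedFor (Cfsg.hermForm 5 F 2) K)
    (htr : ∀ y : Matrix (Fin 5) (Fin 5) F, y ^ 11 = 1 →
      ∑ i ∈ Finset.range 11, y ^ i = 0 → y.trace ^ 2 + y.trace + 1 = 0)
    (hy : ∃ y ∈ K, y ^ 11 = 1 ∧ y ≠ 1)
    (hroots : ∀ y : Matrix (Fin 5) (Fin 5) F, y ∈ K → y ^ 11 = 1 → y ≠ 1 →
      ∀ x : Matrix (Fin 5) (Fin 5) F, x ∈ K → x ^ 11 = 1 → ∃ i < 11, y ^ i = x)
    (hzero : ∀ a b : Matrix (Fin 5) (Fin 5) F, a ∈ K → b ∈ K → a * b = 0 → a = 0 ∨ b = 0) :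
    ∃ c : GL (Fin 5) F, c ∈ Cfsg.GU 5 F 2 ⊓ specialLinear (Fin 5) F ∧ orderOf c = 11 ∧
      ∀ g ∈ subalgebraNormalizer K, g * c * g⁻¹ ∈ Subgroup.zpowers c := by
  classical
  obtain ⟨y, hyK, hy11, hy1⟩ := hy
  have h10 : (1 : Matrix (Fin 5) (Fin 5) F) ≠ 0 := one_ne_zero
  -- the sum of the powers vanishes
  have hsum : ∑ i ∈ Finset.range 11, y ^ i = 0 := by
    have h1 : (y - 1) * ∑ i ∈ Finset.range 11, y ^ i = 0 := by
      rw [mul_geom_sum, hy11, sub_self]
    have h2 : (∑ i ∈ Finset.range 11, y ^ i) ∈ K :=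
      Subalgebra.sum_mem K (fun i _ => Subalgebra.pow_mem K hyK i)
    rcases hzero _ _ (Subalgebra.sub_mem K hyK (Subalgebra.one_mem K)) h2 h1 with h3 | h3
    · exact absurd (sub_eq_zero.mp h3) hy1
    · exact h3
  have hη := htr y hy11 hsum
  -- the adjoint
  obtain ⟨y', hy'K, hy'⟩ := hadj y hyK
  have hy'eq : y' = Cfsg.Agent.Lib.Helper71.SUP.adj 2 y :=
    Cfsg.Agent.Lib.Helper71.SUP.adj_unique hF y y' hy'
  have hy'tr : y'.trace = y.trace ^ 2 := by rw [hy'eq, absc_trace_adj hF]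
  have h2 : (2 : F) = 0 := absc_two hF
  have hne : y' ≠ y := by
    intro h
    rw [h] at hy'tr
    have h01 : (1 : F) = 0 := by linear_combination hη + hy'tr - y.trace * h2
    exact one_ne_zero h01
  have hy0 : y ≠ 0 := by
    intro h
    rw [h, zero_pow (by norm_num)] at hy11
    exact h10 hy11.symm
  have hy'0 : y' ≠ 0 := by
    intro h
    apply hy0
    have h1 := Cfsg.Agent.Lib.Helper71.SUP.adj_adj hF y
    rw [← hy'eq, h, Cfsg.Agent.Lib.Helper71.SUP.adj_zero hF] at h1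
    exact h1.symm
  obtain ⟨z, hzK, hz⟩ := hK.inv y' hy'K hy'0
  have hy'11 : y' ^ 11 = 1 := by
    rw [hy'eq, ← absc_adj_pow hF, hy11, Cfsg.Agent.Lib.Helper71.SUP.adj_one hF]
  have hcomm_y'z : Commute y' z := hK.comm y' hy'K z hzK
  have hcomm_yz : Commute y z := hK.comm y hyK z hzK
  have hz11 : z ^ 11 = 1 := by
    have h1 : (y' * z) ^ 11 = y' ^ 11 * z ^ 11 := hcomm_y'z.mul_pow 11
    rw [hz, one_pow, hy'11, one_mul] at h1
    exact h1.symm
  have hadjz : Cfsg.Agent.Lib.Helper71.SUP.adj 2 z * y = 1 := by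
    have h1 := Cfsg.Agent.Lib.Helper71.SUP.adj_mul hF y' z
    rw [hz, Cfsg.Agent.Lib.Helper71.SUP.adj_one hF, hy'eq,
      Cfsg.Agent.Lib.Helper71.SUP.adj_adj hF] at h1
    exact h1.symm
  obtain ⟨c, hc⟩ : ∃ c : Matrix (Fin 5) (Fin 5) F, c = y * z := ⟨_, rfl⟩
  have hcK : c ∈ K := by rw [hc]; exact Subalgebra.mul_mem K hyK hzK
  have hc11 : c ^ 11 = 1 := by
    rw [hc, hcomm_yz.mul_pow, hy11, hz11, one_mul]
  have hy'yz : y' * (y * z) = y := by
    rw [← mul_assoc, hK.comm y' hy'K y hyK, mul_assoc, hz, mul_one]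
  have hcadj : Cfsg.Agent.Lib.Helper71.SUP.adj 2 c * c = 1 := by
    rw [hc, Cfsg.Agent.Lib.Helper71.SUP.adj_mul hF, ← hy'eq, mul_assoc, hy'yz, hadjz]
  have hc1 : c ≠ 1 := by
    intro h
    apply hne
    rw [hc] at h
    have h3 := hy'yz
    rw [h, mul_one] at h3
    exact h3
  -- the element of `GL`
  have hcc : c * c ^ 10 = 1 := by rw [← pow_succ', hc11]
  have hcc' : c ^ 10 * c = 1 := by rw [← pow_succ, hc11]
  obtain ⟨cG, hcG⟩ : ∃ cG : GL (Fin 5) F, cG.1 = c := ⟨⟨c, c ^ 10, hcc, hcc'⟩, rfl⟩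
  have hcG11 : cG ^ 11 = 1 := by
    apply Units.ext
    rw [Units.val_pow_eq_pow_val, hcG, hc11, Units.val_one]
  have hcG1 : cG ≠ 1 := by
    intro h
    apply hc1
    rw [← hcG, h, Units.val_one]
  have hdet : c.det = 1 := by
    have hd11 : c.det ^ 11 = 1 := by rw [← Matrix.det_pow, hc11, Matrix.det_one]
    have hd0 : c.det ≠ 0 := by
      intro h
      rw [h, zero_pow (by norm_num)] at hd11
      exact zero_ne_one hd11
    have hd3 : c.det ^ 3 = 1 := by
      have h1 := FiniteField.pow_card_sub_one_eq_one c.det hd0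
      rw [hF] at h1
      exact h1
    have hd12 : c.det ^ 12 = 1 := by
      have e : c.det ^ 12 = (c.det ^ 3) ^ 4 := by ring
      rw [e, hd3, one_pow]
    have e2 : c.det ^ 12 = c.det ^ 11 * c.det := by ring
    rw [e2, hd11, one_mul] at hd12
    exact hd12
  have h11 : Fact (Nat.Prime 11) := ⟨by norm_num⟩
  refine ⟨cG, ?_, orderOf_eq_prime hcG11 hcG1, ?_⟩
  · rw [Subgroup.mem_inf]
    refine ⟨?_, ?_⟩
    · rw [Cfsg.Agent.Lib.Helper71.SUP.mem_GU_iff_adj hF, hcG]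
      exact hcadj
    · rw [Cfsg.Agent.Lib.Helper93.mem_sl_iff, hcG]
      exact hdet
  · intro g hg
    have hxK : (g * cG * g⁻¹ : GL (Fin 5) F).1 ∈ K := by
      have h1 := (hg c).mp hcK
      rw [Units.val_mul, Units.val_mul, hcG]
      exact h1
    have hx11 : (g * cG * g⁻¹ : GL (Fin 5) F).1 ^ 11 = 1 := by
      rw [← Units.val_pow_eq_pow_val, conj_pow, hcG11, mul_one, mul_inv_cancel, Units.val_one]
    obtain ⟨i, -, hi⟩ := hroots c hcK hc11 hc1 _ hxK hx11
    have h3 : g * cG * g⁻¹ = cG ^ i := by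
      apply Units.ext
      rw [Units.val_pow_eq_pow_val, hcG, hi]
    rw [h3]
    exact Subgroup.pow_mem _ (Subgroup.mem_zpowers cG) i

end Cfsg.Agent.Lib.Helper59.U52
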