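import Mathlib
import Cfsg.Prelude.Def_GeometricClasses
import Cfsg.Prelude.Def_LieClassical
import Cfsg.Agent.Lib.Helper71.SUP0
import Cfsg.Agent.Lib.Helper59.U52Defs
import Cfsg.Agent.Lib.Helper54.U52ABSCCore
import Cfsg.Agent.Lib.Helper28.U52KF
import Cfsg.Agent.Lib.Helper59.U52TRSQ

/-! Project U52 (helper59, S5796), piece ABSC (helper54): the unitary element of order 11 attached
to an adjoint-closed degree-5 field subalgebra over the field with four elements. -/

set_option autoImplicit false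

namespace Cfsg.Agent.Lib.Helper59.U52

open Matrix Cfsg.Geo

theorem absC {F : Type*} [Field F] [Fintype F] (hF : Fintype.card F = 2 ^ 2)
    (K : Subalgebra F (Matrix (Fin 5) (Fin 5) F)) (hK : IsFieldSubalgebra 5 K)
    (hadj : IsAdjointClosedFor (Cfsg.hermForm 5 F 2) K) :
    ∃ c : GL (Fin 5) F, c ∈ Cfsg.GU 5 F 2 ⊓ specialLinear (Fin 5) F ∧ orderOf c = 11 ∧
      ∀ g ∈ subalgebraNormalizer K, g * c * g⁻¹ ∈ Subgroup.zpowers c :=
  absC_core hF K hK hadj (fun y h11 hsum => trace_eta_h59 (by rw [hF]; norm_num) y h11 hsum)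
    (exists_y (by rw [hF]; norm_num) K hK)
    (fun y hyK h11 h1 x hxK hx => K_roots11 K hK y hyK h11 h1 x hxK hx)
    (fun _ _ ha hb hab => K_mul_eq_zero5 K hK ha hb hab)

end Cfsg.Agent.Lib.Helper59.U52
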