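import Mathlib
import Cfsg.Agent.Lib.Helper44.UDDefs

/-!
# UD-BOREL (helper54, for helper44 / S5655)

The "Borel" counting lemma: a subgroup `Γ` of the group `{(ν, a)}` with `ν ∈ GF(q)ˣ`,
`a + a^q = 0`, having more than `q` elements contains every `(1, a)`.
-/

set_option autoImplicit false
set_option linter.unusedSectionVars false
set_option linter.unusedVariables false

namespace Cfsg.Agent.Lib.Helper44.UD

open Cfsg.Agent.Lib.Helper7

section
variable {F : Type*} [Field F] [Fintype F]

private lemma udborel_trace_card (q : ℕ) (hq : 2 ≤ q) :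
    ({a : F | a + a ^ q = 0} : Set F).ncard ≤ q := by
  classical
  set p : Polynomial F := Polynomial.X ^ q + Polynomial.X with hp
  have hp0 : p ≠ 0 := by
    intro h
    have h1 := congrArg (fun f => Polynomial.coeff f q) h
    have hq1 : ¬ (1 = q) := by omega
    simp [hp, Polynomial.coeff_X, hq1] at h1
  have hdeg : p.natDegree ≤ q := by
    refine (Polynomial.natDegree_add_le _ _).trans ?_
    simp only [Polynomial.natDegree_X_pow, Polynomial.natDegree_X]
    exact max_le le_rfl (by omega)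
  have hsub : ({a : F | a + a ^ q = 0} : Set F) ⊆ (p.roots.toFinset : Set F) := by
    intro a ha
    simp only [Set.mem_ofPred_eq] at ha
    simp only [Finset.mem_coe, Multiset.mem_toFinset]
    rw [Polynomial.mem_roots hp0]
    simp only [Polynomial.IsRoot, hp, Polynomial.eval_add, Polynomial.eval_pow, Polynomial.eval_X]
    rw [add_comm]; exact ha
  calc ({a : F | a + a ^ q = 0} : Set F).ncard ≤ (p.roots.toFinset : Set F).ncard :=
        Set.ncard_le_ncard hsub (Set.toFinite _)
    _ = p.roots.toFinset.card := Set.ncard_coe_finset _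
    _ ≤ Multiset.card p.roots := Multiset.toFinset_card_le _
    _ ≤ p.natDegree := Polynomial.card_roots' p
    _ ≤ q := hdeg

theorem ud_borel (q : ℕ) : BorelStmt F q := by
  classical
  intro hF Γ h1 hmul hinv hprop hcard a₀ ha₀
  by_contra hcon
  have hq2 : 2 ≤ q := herm_two_le hF
  -- the additive group `A`
  set A : Set F := {a | ((1 : F), a) ∈ Γ} with hA
  have hA0 : (0 : F) ∈ A := h1
  have hAadd : ∀ a ∈ A, ∀ b ∈ A, a + b ∈ A := by
    intro a ha b hb
    have := hmul _ ha _ hb
    simp only [mul_one, div_one] at this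
    show ((1 : F), a + b) ∈ Γ
    rw [add_comm]; exact this
  have hAneg : ∀ a ∈ A, -a ∈ A := by
    intro a ha
    have := hinv _ ha
    simp only [inv_one, mul_one] at this
    exact this
  have hAsub : ∀ a ∈ A, ∀ b ∈ A, a - b ∈ A := by
    intro a ha b hb
    rw [sub_eq_add_neg]; exact hAadd a ha _ (hAneg b hb)
  have hAtr : ∀ a ∈ A, a + a ^ q = 0 := fun a ha => (hprop _ ha).2.2
  -- conjugation
  have hconj : ∀ ν b : F, (ν, b) ∈ Γ → ∀ a ∈ A, a / ν ∈ A := by
    intro ν b hνb a ha
    have hν : ν ≠ 0 := (hprop _ hνb).1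
    have e1 := hmul _ (hinv _ hνb) _ ha
    have e2 := hmul _ e1 _ hνb
    simp only [mul_one, div_one] at e2
    have e3 : (ν⁻¹ * ν, b + (a + -(b * ν)) / ν) = ((1 : F), a / ν) := by
      rw [inv_mul_cancel₀ hν]
      congr 1
      field_simp
      ring
    rw [e3] at e2
    exact e2
  have hconj' : ∀ ν b : F, (ν, b) ∈ Γ → ∀ a ∈ A, ν * a ∈ A := by
    intro ν b hνb a ha
    have := hconj _ _ (hinv _ hνb) a ha
    rw [div_inv_eq_mul, mul_comm] at this
    exact this
  set Lam : Set F := {ν | ∃ a, (ν, a) ∈ Γ} with hLam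
  set E : Set F := {x | x ^ q = x ∧ ∀ a ∈ A, x * a ∈ A} with hE
  have hLamE : Lam ⊆ E := by
    rintro ν ⟨b, hb⟩
    exact ⟨(hprop _ hb).2.1, hconj' ν b hb⟩
  -- difference of two elements over the same `ν`
  have hdiff : ∀ ν a a' : F, (ν, a) ∈ Γ → (ν, a') ∈ Γ → a' - a ∈ A := by
    intro ν a a' h h'
    have hν : ν ≠ 0 := (hprop _ h).1
    have e1 := hmul _ (hinv _ h) _ h'
    have e3 : (ν⁻¹ * ν, a' + -(a * ν) / ν) = ((1 : F), a' - a) := by
      rw [inv_mul_cancel₀ hν]
      congr 1
      field_simp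
      ring
    simp only at e1
    rw [e3] at e1
    exact e1
  -- `Γ.ncard ≤ Lam.ncard * A.ncard`
  have hcardΓ : Γ.ncard ≤ Lam.ncard * A.ncard := by
    have hch : ∀ ν : F, ∃ c : F, ν ∈ Lam → (ν, c) ∈ Γ := by
      intro ν
      by_cases h : ν ∈ Lam
      · obtain ⟨c, hc⟩ := h
        exact ⟨c, fun _ => hc⟩
      · exact ⟨0, fun h' => absurd h' h⟩
    choose c hc using hch
    rw [← Set.ncard_prod]
    refine Set.ncard_le_ncard_of_injOn (fun p : F × F => (p.1, p.2 - c p.1)) ?_ ?_ (Set.toFinite _)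
    · rintro ⟨ν, a⟩ hp
      have hν : ν ∈ Lam := ⟨a, hp⟩
      exact ⟨hν, hdiff ν (c ν) a (hc ν hν) hp⟩
    · rintro ⟨ν, a⟩ _ ⟨ν', a'⟩ _ h
      simp only [Prod.mk.injEq] at h
      obtain ⟨rfl, h2⟩ := h
      have : a = a' := by linear_combination h2
      rw [this]
  -- `E.ncard * A.ncard ≤ q`
  have hEsub : ∀ x ∈ E, ∀ y ∈ E, x - y ∈ E := by
    intro x hx y hy
    refine ⟨by rw [herm_sub_pow hF, hx.1, hy.1], fun a ha => ?_⟩
    rw [sub_mul]
    exact hAsub _ (hx.2 a ha) _ (hy.2 a ha)
  have hEpow : ∀ (k : ℕ), ∀ x ∈ E, ∀ a ∈ A, x ^ k * a ∈ A := by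
    intro k
    induction k with
    | zero => intro x _ a ha; simpa using ha
    | succ k ih =>
      intro x hx a ha
      rw [pow_succ, mul_assoc]
      exact ih x hx _ (hx.2 a ha)
  have hcardE : E.ncard * A.ncard ≤ ({a : F | a + a ^ q = 0} : Set F).ncard := by
    rw [← Set.ncard_prod]
    refine Set.ncard_le_ncard_of_injOn (fun p : F × F => p.1 * a₀ + p.2) ?_ ?_ (Set.toFinite _)
    · rintro ⟨x, a⟩ ⟨hx, ha⟩
      simp only [Set.mem_ofPred_eq]
      have hx1 : x ^ q = x := hx.1
      have ha1 : a + a ^ q = 0 := hAtr a ha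
      rw [herm_add_pow hF, mul_pow, hx1]
      linear_combination x * ha₀ + ha1
    · rintro ⟨x, a⟩ ⟨hx, ha⟩ ⟨x', a'⟩ ⟨hx', ha'⟩ h
      simp only at h hx ha hx' ha'
      have hxx : x = x' := by
        by_contra hne
        have hd : x - x' ≠ 0 := sub_ne_zero.mpr hne
        have hdE : x - x' ∈ E := hEsub x hx x' hx'
        have hda : (x - x') * a₀ ∈ A := by
          have : (x - x') * a₀ = a' - a := by linear_combination h
          rw [this]; exact hAsub a' ha' a ha
        have hpow := hEpow (Fintype.card F - 2) _ hdE _ hda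
        have hc2 : 2 ≤ Fintype.card F := Fintype.one_lt_card
        have h1' : (x - x') ^ (Fintype.card F - 2) * ((x - x') * a₀) = a₀ := by
          rw [← mul_assoc, ← pow_succ]
          have : Fintype.card F - 2 + 1 = Fintype.card F - 1 := by omega
          rw [this, FiniteField.pow_card_sub_one_eq_one _ hd, one_mul]
        rw [h1'] at hpow
        exact hcon hpow
      subst hxx
      have : a = a' := by linear_combination h
      rw [this]
  have hLE : Lam.ncard ≤ E.ncard := Set.ncard_le_ncard hLamE (Set.toFinite _)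
  have hfin := udborel_trace_card (F := F) q hq2
  have : Γ.ncard ≤ q :=
    calc Γ.ncard ≤ Lam.ncard * A.ncard := hcardΓ
      _ ≤ E.ncard * A.ncard := Nat.mul_le_mul_right _ hLE
      _ ≤ _ := hcardE
      _ ≤ q := hfin
  omega

end

end Cfsg.Agent.Lib.Helper44.UD
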